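import Mathlib
import Cfsg.Agent.H9.Oct
import Cfsg.Prelude.Def_Spor_Conway
set_option autoImplicit false

/-! The rank-24 lattice: basic structure. -/

namespace Cfsg.Agent.H9.Leech
open Cfsg Cfsg.Agent.H9
open scoped Pointwise

abbrev Cd : Set (Finset GolayPt) := supports (golayCode : Set (GolayPt → ZMod 2))

theorem cd_iff {s : Finset GolayPt} : s ∈ Cd ↔ ∃ m, isCW m = true ∧ s = S m := by
  rw [mem_supports_iff]
  constructor
  · rintro ⟨k, hk, rfl⟩; exact ⟨_, isCW_iff.2 ⟨k, hk, rfl⟩, rfl⟩
  · rintro ⟨m, hm, rfl⟩; obtain ⟨k, hk, rfl⟩ := isCW_iff.1 hm; exact ⟨k, hk, rfl⟩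

theorem cd_empty : (∅ : Finset GolayPt) ∈ Cd := Spor.empty_mem_supports_golayCode
theorem cd_univ : (Finset.univ : Finset GolayPt) ∈ Cd := Spor.univ_mem_supports_golayCode

theorem cd_symm {s t : Finset GolayPt} (hs : s ∈ Cd) (ht : t ∈ Cd) : symmDiff s t ∈ Cd := by
  obtain ⟨m, hm, rfl⟩ := cd_iff.1 hs
  obtain ⟨n, hn, rfl⟩ := cd_iff.1 ht
  exact cd_iff.2 ⟨_, isCW_xor hm hn, (S_xor m n).symm⟩

theorem cd_compl {s : Finset GolayPt} (hs : s ∈ Cd) : sᶜ ∈ Cd := by
  obtain ⟨m, hm, rfl⟩ := cd_iff.1 hs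
  exact cd_iff.2 ⟨_, isCW_xor hm one_memCW, (S_compl m).symm⟩

theorem cd_card {s : Finset GolayPt} (hs : s ∈ Cd) :
    s.card = 0 ∨ s.card = 8 ∨ s.card = 12 ∨ s.card = 16 ∨ s.card = 24 := by
  obtain ⟨m, hm, rfl⟩ := cd_iff.1 hs
  rw [card_S]
  rcases cw_weight hm with rfl | h
  · left; exact pc_zero
  · right; exact h

theorem cd_dvd {s : Finset GolayPt} (hs : s ∈ Cd) : 4 ∣ s.card := by
  rcases cd_card hs with h | h | h | h | h <;> omega

theorem card_symmDiff' (s t : Finset GolayPt) : (symmDiff s t).card + 2 * (s ∩ t).card = s.card + t.card := by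
  have h1 := Finset.card_sdiff_add_card_inter s t
  have h2 := Finset.card_sdiff_add_card_inter t s
  have h3 : (symmDiff s t).card = (s \ t).card + (t \ s).card := by
    rw [symmDiff_def]
    exact Finset.card_union_of_disjoint disjoint_sdiff_sdiff
  rw [Finset.inter_comm t s] at h2
  omega

theorem cd_inter {s t : Finset GolayPt} (hs : s ∈ Cd) (ht : t ∈ Cd) : 2 ∣ (s ∩ t).card := by
  have h1 := cd_dvd hs
  have h2 := cd_dvd ht
  have h3 := cd_dvd (cd_symm hs ht)
  have h4 := card_symmDiff' s t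
  omega

/-- indicator function -/
def ind (C : Finset GolayPt) (i : GolayPt) : ℤ := if i ∈ C then 1 else 0

theorem sum_ind (C : Finset GolayPt) : ∑ i, ind C i = (C.card : ℤ) := by
  simp [ind, Finset.sum_ite_mem]

theorem sum_ind_mul (C : Finset GolayPt) (z : GolayPt → ℤ) : ∑ i, ind C i * z i = ∑ i ∈ C, z i := by
  simp [ind, Finset.sum_ite_mem]

theorem ind_sq (C : Finset GolayPt) (i : GolayPt) : ind C i * ind C i = ind C i := by
  unfold ind; split_ifs <;> rfl

theorem ind_add (C D : Finset GolayPt) (i : GolayPt) : ind C i + ind D i = ind (symmDiff C D) i + 2 * ind (C ∩ D) i := by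
  unfold ind
  by_cases h1 : i ∈ C <;> by_cases h2 : i ∈ D <;> simp [Finset.mem_symmDiff, h1, h2]

/-- the positions with residue 2 or 3 modulo 4 -/
def TT (x : GolayPt → ℤ) : Finset GolayPt := Finset.univ.filter fun i => x i % 4 = 2 ∨ x i % 4 = 3

theorem mem_TT {x : GolayPt → ℤ} {i : GolayPt} : i ∈ TT x ↔ x i % 4 = 2 ∨ x i % 4 = 3 := by simp [TT]

theorem mem_set_iff (x : GolayPt → ℤ) : x ∈ leechSet ↔ TT x ∈ Cd ∧
    (((∀ i, x i % 2 = 0) ∧ (∑ i, x i) % 8 = 0) ∨ ((∀ i, x i % 2 = 1) ∧ (∑ i, x i) % 8 = 4)) := by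
  constructor
  · rintro ⟨m, h1, h2, h3⟩
    have h1' : ∀ i, x i % 2 = m % 2 := h1
    have h2' : (∑ i, x i) % 8 = (4 * m) % 8 := h2
    rcases Int.emod_two_eq m with hm | hm
    · constructor
      · have : TT x = Finset.univ.filter fun i => x i ≡ 2 [ZMOD 4] := by
          ext i
          simp only [TT, Finset.mem_filter, Finset.mem_univ, true_and]
          have := h1' i
          constructor
          · intro h; change x i % 4 = _ % 4; omega
          · intro h; change x i % 4 = _ % 4 at h; omega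
        rw [this]; exact h3 2
      · left; exact ⟨fun i => by rw [h1' i, hm], by omega⟩
    · constructor
      · have : TT x = Finset.univ.filter fun i => x i ≡ 3 [ZMOD 4] := by
          ext i
          simp only [TT, Finset.mem_filter, Finset.mem_univ, true_and]
          have := h1' i
          constructor
          · intro h; change x i % 4 = _ % 4; omega
          · intro h; change x i % 4 = _ % 4 at h; omega
        rw [this]; exact h3 3
      · right; exact ⟨fun i => by rw [h1' i, hm], by omega⟩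
  · rintro ⟨hT, h⟩
    have key : ∀ m : ℤ, (m = 0 ∨ m = 1) → (∀ i, x i % 2 = m) → (∑ i, x i) % 8 = (4 * m) % 8 → x ∈ leechSet := by
      intro m hm h1 h2
      refine ⟨m, fun i => ?_, h2, fun k => ?_⟩
      · have := h1 i
        change x i % 2 = _ % 2; omega
      · have hk : k % 4 = m ∨ k % 4 = m + 2 ∨ k % 2 ≠ m := by omega
        rcases hk with hk | hk | hk
        · have : (Finset.univ.filter fun i => x i ≡ k [ZMOD 4]) = (TT x)ᶜ := by
            ext i
            simp only [TT, Finset.mem_filter, Finset.mem_univ, true_and, Finset.mem_compl]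
            have := h1 i
            constructor
            · intro h; change x i % 4 = _ % 4 at h; omega
            · intro h; change x i % 4 = _ % 4; omega
          rw [this]; exact cd_compl hT
        · have : (Finset.univ.filter fun i => x i ≡ k [ZMOD 4]) = TT x := by
            ext i
            simp only [TT, Finset.mem_filter, Finset.mem_univ, true_and]
            have := h1 i
            constructor
            · intro h; change x i % 4 = _ % 4 at h; omega
            · intro h; change x i % 4 = _ % 4; omega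
          rw [this]; exact hT
        · have : (Finset.univ.filter fun i => x i ≡ k [ZMOD 4]) = ∅ := by
            apply Finset.filter_false_of_mem
            intro i _ h
            change x i % 4 = _ % 4 at h
            have := h1 i
            omega
          rw [this]; exact cd_empty
    rcases h with ⟨h1, h2⟩ | ⟨h1, h2⟩
    · exact key 0 (Or.inl rfl) h1 (by omega)
    · exact key 1 (Or.inr rfl) h1 (by omega)

theorem sum_param (m : ℤ) (C : Finset GolayPt) (z : GolayPt → ℤ) :
    ∑ i, (m + 2 * ind C i + 4 * z i) = 24 * m + 2 * (C.card : ℤ) + 4 * ∑ i, z i := by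
  rw [Finset.sum_add_distrib, Finset.sum_add_distrib, ← Finset.mul_sum, ← Finset.mul_sum, sum_ind]
  simp [Finset.sum_const]

theorem of_param {m : ℤ} {C : Finset GolayPt} {z : GolayPt → ℤ} (hC : C ∈ Cd) (h : (∑ i, z i + m) % 2 = 0) :
    (fun i => m + 2 * ind C i + 4 * z i) ∈ leechSet := by
  rw [mem_set_iff]
  have h4 := cd_dvd hC
  have hs := sum_param m C z
  refine ⟨?_, ?_⟩
  · have hm : m % 4 = 0 ∨ m % 4 = 1 ∨ m % 4 = 2 ∨ m % 4 = 3 := by omega
    rcases hm with hm | hm
    · have : TT (fun i => m + 2 * ind C i + 4 * z i) = C := by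
        ext i; rw [mem_TT]; unfold ind
        by_cases hi : i ∈ C <;> simp only [hi, if_true, if_false, iff_true, iff_false] <;> omega
      rw [this]; exact hC
    rcases hm with hm | hm
    · have : TT (fun i => m + 2 * ind C i + 4 * z i) = C := by
        ext i; rw [mem_TT]; unfold ind
        by_cases hi : i ∈ C <;> simp only [hi, if_true, if_false, iff_true, iff_false] <;> omega
      rw [this]; exact hC
    · have : TT (fun i => m + 2 * ind C i + 4 * z i) = Cᶜ := by
        ext i; rw [mem_TT, Finset.mem_compl]; unfold ind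
        by_cases hi : i ∈ C <;> simp only [hi, if_true, if_false, not_true_eq_false, not_false_eq_true, iff_true, iff_false] <;> omega
      rw [this]; exact cd_compl hC
  · obtain ⟨c, hc⟩ := h4
    rcases Int.emod_two_eq m with hm | hm
    · left
      refine ⟨fun i => by omega, ?_⟩
      rw [hs, hc]; push_cast; omega
    · right
      refine ⟨fun i => by omega, ?_⟩
      rw [hs, hc]; push_cast; omega

theorem exists_param {x : GolayPt → ℤ} (hx : x ∈ leechSet) : ∃ (m : ℤ) (C : Finset GolayPt) (z : GolayPt → ℤ),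
    C ∈ Cd ∧ (∑ i, z i + m) % 2 = 0 ∧ x = fun i => m + 2 * ind C i + 4 * z i := by
  obtain ⟨hT, h⟩ := (mem_set_iff x).1 hx
  obtain ⟨m, hm, h1, h2⟩ : ∃ m : ℤ, (m = 0 ∨ m = 1) ∧ (∀ i, x i % 2 = m) ∧ (∑ i, x i) % 8 = (4 * m) % 8 := by
    rcases h with ⟨h1, h2⟩ | ⟨h1, h2⟩
    · exact ⟨0, Or.inl rfl, h1, by omega⟩
    · exact ⟨1, Or.inr rfl, h1, by omega⟩
  have hx' : ∀ i, x i = m + 2 * ind (TT x) i + 4 * ((x i - m - 2 * ind (TT x) i) / 4) := by
    intro i
    have h3 := h1 i
    have h4 : i ∈ TT x ↔ x i % 4 = 2 ∨ x i % 4 = 3 := mem_TT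
    unfold ind
    by_cases hi : i ∈ TT x
    · rw [if_pos hi]; have := h4.1 hi; omega
    · rw [if_neg hi]
      have : ¬ (x i % 4 = 2 ∨ x i % 4 = 3) := fun hc => hi (h4.2 hc)
      omega
  refine ⟨m, TT x, fun i => (x i - m - 2 * ind (TT x) i) / 4, hT, ?_, funext hx'⟩
  have hs := sum_param m (TT x) (fun i => (x i - m - 2 * ind (TT x) i) / 4)
  rw [← Finset.sum_congr rfl (fun i _ => hx' i)] at hs
  obtain ⟨c, hc⟩ := cd_dvd hT
  rw [hc] at hs
  push_cast at hs
  generalize (∑ i, x i) = A at *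
  generalize (∑ i, (x i - m - 2 * ind (TT x) i) / 4) = B at *
  omega

theorem add_mem' {x y : GolayPt → ℤ} (hx : x ∈ leechSet) (hy : y ∈ leechSet) : x + y ∈ leechSet := by
  obtain ⟨m, C, z, hC, h1, rfl⟩ := exists_param hx
  obtain ⟨n, D, w, hD, h2, rfl⟩ := exists_param hy
  have h3 := cd_inter hC hD
  have : (fun i => m + 2 * ind C i + 4 * z i) + (fun i => n + 2 * ind D i + 4 * w i)
      = fun i => (m + n) + 2 * ind (symmDiff C D) i + 4 * (z i + w i + ind (C ∩ D) i) := by
    funext i
    have := ind_add C D i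
    simp only [Pi.add_apply]
    linarith
  rw [this]
  apply of_param (cd_symm hC hD)
  rw [Finset.sum_add_distrib, Finset.sum_add_distrib, sum_ind]
  omega

theorem neg_mem' {x : GolayPt → ℤ} (hx : x ∈ leechSet) : -x ∈ leechSet := by
  obtain ⟨m, C, z, hC, h1, rfl⟩ := exists_param hx
  have h3 := cd_dvd hC
  have : -(fun i => m + 2 * ind C i + 4 * z i) = fun i => (-m) + 2 * ind C i + 4 * (- z i - ind C i) := by
    funext i
    simp only [Pi.neg_apply]
    ring
  rw [this]
  apply of_param hC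
  rw [Finset.sum_sub_distrib, Finset.sum_neg_distrib, sum_ind]
  omega

theorem zero_mem' : (0 : GolayPt → ℤ) ∈ leechSet := by
  have h := of_param (m := 0) (z := 0) cd_empty (by simp)
  convert h using 1
  funext i; simp [ind]

/-- the set as an additive subgroup -/
def LL : AddSubgroup (GolayPt → ℤ) where
  carrier := leechSet
  zero_mem' := zero_mem'
  add_mem' := add_mem'
  neg_mem' := neg_mem'

theorem leech_eq : leechLattice = LL := by
  apply le_antisymm
  · exact (AddSubgroup.closure_le _).2 (fun x hx => hx)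
  · exact fun x hx => AddSubgroup.subset_closure hx

theorem mem_iff_set {x : GolayPt → ℤ} : x ∈ leechLattice ↔ x ∈ leechSet := by
  rw [leech_eq]; rfl

theorem mem_iff {x : GolayPt → ℤ} : x ∈ leechLattice ↔ TT x ∈ Cd ∧
    (((∀ i, x i % 2 = 0) ∧ (∑ i, x i) % 8 = 0) ∨ ((∀ i, x i % 2 = 1) ∧ (∑ i, x i) % 8 = 4)) := by
  rw [mem_iff_set, mem_set_iff]

theorem param {x : GolayPt → ℤ} (hx : x ∈ leechLattice) : ∃ (m : ℤ) (C : Finset GolayPt) (z : GolayPt → ℤ),
    C ∈ Cd ∧ (∑ i, z i + m) % 2 = 0 ∧ x = fun i => m + 2 * ind C i + 4 * z i := exists_param (mem_iff_set.1 hx)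

theorem mem_of_param {m : ℤ} {C : Finset GolayPt} {z : GolayPt → ℤ} (hC : C ∈ Cd) (h : (∑ i, z i + m) % 2 = 0) :
    (fun i => m + 2 * ind C i + 4 * z i) ∈ leechLattice := mem_iff_set.2 (of_param hC h)

/-! ### norms and inner products -/

theorem sqNorm_param (m : ℤ) (C : Finset GolayPt) (z : GolayPt → ℤ) :
    sqNorm (fun i => m + 2 * ind C i + 4 * z i) =
      24 * (m * m) + 4 * (1 + m) * (C.card : ℤ) + 16 * (∑ i, z i * z i) + 8 * m * (∑ i, z i) + 16 * ∑ i ∈ C, z i := by
  have : ∀ i, (m + 2 * ind C i + 4 * z i) ^ 2 = m * m + 4 * (1 + m) * ind C i + 16 * (z i * z i) + 8 * m * z i + 16 * (ind C i * z i) := by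
    intro i
    have := ind_sq C i
    linear_combination 4 * this
  unfold sqNorm
  rw [Finset.sum_congr rfl (fun i _ => this i), Finset.sum_add_distrib, Finset.sum_add_distrib, Finset.sum_add_distrib,
    Finset.sum_add_distrib, ← Finset.mul_sum (f := fun i => ind C i), ← Finset.mul_sum (f := fun i => z i * z i),
    ← Finset.mul_sum (f := fun i => z i), ← Finset.mul_sum (f := fun i => ind C i * z i), sum_ind, sum_ind_mul]
  simp [Finset.sum_const]

theorem norm_dvd {x : GolayPt → ℤ} (hx : x ∈ leechLattice) : (16 : ℤ) ∣ sqNorm x := by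
  obtain ⟨m, C, z, hC, h1, rfl⟩ := param hx
  rw [sqNorm_param]
  obtain ⟨c, hc⟩ := cd_dvd hC
  rw [hc]
  push_cast
  obtain ⟨k, hk⟩ : ∃ k, ∑ i, z i = 2 * k - m := ⟨(∑ i, z i + m) / 2, by omega⟩
  rw [hk]
  obtain ⟨e, he⟩ : ∃ e, m * (m + 1) = e + e := Int.even_mul_succ_self m
  have : 24 * (m * m) + 4 * (1 + m) * (4 * (c : ℤ)) + 16 * (∑ i, z i * z i) + 8 * m * (2 * k - m) + 16 * ∑ i ∈ C, z i
      = 16 * (m * m + (1 + m) * c + (∑ i, z i * z i) + m * k + ∑ i ∈ C, z i) := by ring
  rw [this]
  exact Dvd.intro _ rfl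

theorem sqNorm_add (x y : GolayPt → ℤ) : sqNorm (x + y) = sqNorm x + sqNorm y + 2 * dotInt x y := by
  unfold sqNorm dotInt
  rw [Finset.mul_sum, ← Finset.sum_add_distrib, ← Finset.sum_add_distrib]
  apply Finset.sum_congr rfl
  intro i _
  simp only [Pi.add_apply]; ring

theorem sqNorm_sub (x y : GolayPt → ℤ) : sqNorm (x - y) = sqNorm x + sqNorm y - 2 * dotInt x y := by
  unfold sqNorm dotInt
  rw [Finset.mul_sum, ← Finset.sum_add_distrib, ← Finset.sum_sub_distrib]
  apply Finset.sum_congr rfl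
  intro i _
  simp only [Pi.sub_apply]; ring

theorem sqNorm_neg (x : GolayPt → ℤ) : sqNorm (-x) = sqNorm x := by
  unfold sqNorm
  apply Finset.sum_congr rfl
  intro i _
  simp

theorem sqNorm_nonneg (x : GolayPt → ℤ) : 0 ≤ sqNorm x := Finset.sum_nonneg fun i _ => sq_nonneg _

theorem sqNorm_eq_zero {x : GolayPt → ℤ} : sqNorm x = 0 ↔ x = 0 := by
  unfold sqNorm
  rw [Finset.sum_eq_zero_iff_of_nonneg (fun i _ => sq_nonneg _)]
  constructor
  · intro h; funext i; simpa using h i (Finset.mem_univ i)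
  · rintro rfl; simp

theorem dotInt_comm (x y : GolayPt → ℤ) : dotInt x y = dotInt y x := by
  unfold dotInt; exact Finset.sum_congr rfl fun i _ => mul_comm _ _

theorem dotInt_add_left (x y z : GolayPt → ℤ) : dotInt (x + y) z = dotInt x z + dotInt y z := by
  unfold dotInt; rw [← Finset.sum_add_distrib]; exact Finset.sum_congr rfl fun i _ => by simp only [Pi.add_apply]; ring

theorem dotInt_add_right (x y z : GolayPt → ℤ) : dotInt x (y + z) = dotInt x y + dotInt x z := by
  rw [dotInt_comm, dotInt_add_left, dotInt_comm y, dotInt_comm z]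

theorem dotInt_neg_left (x y : GolayPt → ℤ) : dotInt (-x) y = - dotInt x y := by
  unfold dotInt; rw [← Finset.sum_neg_distrib]; exact Finset.sum_congr rfl fun i _ => by simp

theorem dotInt_neg_right (x y : GolayPt → ℤ) : dotInt x (-y) = - dotInt x y := by
  rw [dotInt_comm, dotInt_neg_left, dotInt_comm]

theorem dotInt_sub_left (x y z : GolayPt → ℤ) : dotInt (x - y) z = dotInt x z - dotInt y z := by
  rw [sub_eq_add_neg, dotInt_add_left, dotInt_neg_left]; ring

theorem dotInt_sub_right (x y z : GolayPt → ℤ) : dotInt x (y - z) = dotInt x y - dotInt x z := by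
  rw [dotInt_comm, dotInt_sub_left, dotInt_comm y, dotInt_comm z]

theorem dotInt_self (x : GolayPt → ℤ) : dotInt x x = sqNorm x := by
  unfold sqNorm dotInt; exact Finset.sum_congr rfl fun i _ => by ring

theorem dot_dvd {x y : GolayPt → ℤ} (hx : x ∈ leechLattice) (hy : y ∈ leechLattice) : (8 : ℤ) ∣ dotInt x y := by
  have h1 := norm_dvd (leechLattice.add_mem hx hy)
  have h2 := norm_dvd hx
  have h3 := norm_dvd hy
  rw [sqNorm_add] at h1
  omega

theorem two_nsmul_norm (x : GolayPt → ℤ) : sqNorm (2 • x) = 4 * sqNorm x := by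
  rw [two_nsmul, sqNorm_add, dotInt_self]; ring

/-- a finite sum of nonnegative integers below `N`: each is below `N` -/
theorem le_sqNorm (x : GolayPt → ℤ) (i : GolayPt) : x i ^ 2 ≤ sqNorm x :=
  Finset.single_le_sum (f := fun i => x i ^ 2) (fun i _ => sq_nonneg _) (Finset.mem_univ i)

theorem norm_ge {x : GolayPt → ℤ} (hx : x ∈ leechLattice) (h0 : x ≠ 0) : 32 ≤ sqNorm x := by
  have h16 := norm_dvd hx
  have hpos : 0 < sqNorm x := lt_of_le_of_ne (sqNorm_nonneg x) (fun h => h0 (sqNorm_eq_zero.1 h.symm))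
  by_contra hlt
  have h : sqNorm x = 16 := by omega
  rcases (mem_iff.1 hx) with ⟨hT, ⟨he, hs⟩ | ⟨ho, hs⟩⟩
  · -- even
    rcases Finset.eq_empty_or_nonempty (TT x) with hE | hE
    · have h4 : ∀ i, x i % 4 = 0 := by
        intro i
        have h1 := he i
        have h2 : i ∉ TT x := by rw [hE]; simp
        rw [mem_TT] at h2
        omega
      obtain ⟨i, hi⟩ : ∃ i, x i ≠ 0 := by
        by_contra hc; push Not at hc; exact h0 (funext hc)
      have h5 : sqNorm x = x i ^ 2 + ∑ j ∈ Finset.univ.erase i, x j ^ 2 := by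
        unfold sqNorm; rw [Finset.add_sum_erase _ (fun j => x j ^ 2) (Finset.mem_univ i)]
      have h6 : 16 ≤ x i ^ 2 := by
        have := h4 i
        obtain ⟨k, hk⟩ : ∃ k, x i = 4 * k := ⟨x i / 4, by omega⟩
        have hk0 : k ≠ 0 := by rintro rfl; exact hi (by rw [hk]; ring)
        have : 1 ≤ k ^ 2 := by
          have := sq_nonneg k
          have := pow_ne_zero 2 hk0
          omega
        rw [hk]; nlinarith
      have h7 : 0 ≤ ∑ j ∈ Finset.univ.erase i, x j ^ 2 := Finset.sum_nonneg fun _ _ => sq_nonneg _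
      have h8 : ∑ j ∈ Finset.univ.erase i, x j ^ 2 = 0 := by omega
      have h9 : ∀ j ≠ i, x j = 0 := by
        intro j hj
        have := (Finset.sum_eq_zero_iff_of_nonneg (fun _ _ => sq_nonneg _)).1 h8 j (Finset.mem_erase.2 ⟨hj, Finset.mem_univ _⟩)
        simpa using this
      have h10 : ∑ j, x j = x i := Finset.sum_eq_single i (fun j _ hj => h9 j hj) (fun h => absurd (Finset.mem_univ i) h)
      rw [h10] at hs
      have h11 : x i ^ 2 = 16 := by omega
      obtain ⟨k, hk⟩ : ∃ k, x i = 8 * k := ⟨x i / 8, by omega⟩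
      rw [hk] at h11
      have : 64 * (k * k) = 16 := by linarith [h11, (by ring : (8 * k) ^ 2 = 64 * (k * k))]
      omega
    · have h8 : 8 ≤ (TT x).card := by
        have := Finset.card_pos.2 hE
        rcases cd_card hT with h | h | h | h | h <;> omega
      have h5 : ∑ i ∈ TT x, (4 : ℤ) ≤ ∑ i ∈ TT x, x i ^ 2 := by
        apply Finset.sum_le_sum
        intro i hi
        have h1 := he i
        have h2 := mem_TT.1 hi
        obtain ⟨k, hk⟩ : ∃ k, x i = 2 * k := ⟨x i / 2, by omega⟩
        have hk0 : k ≠ 0 := by rintro rfl; omega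
        have : 1 ≤ k ^ 2 := by
          have := sq_nonneg k
          have := pow_ne_zero 2 hk0
          omega
        rw [hk]; nlinarith
      have h6 : ∑ i ∈ TT x, x i ^ 2 ≤ sqNorm x :=
        Finset.sum_le_sum_of_subset_of_nonneg (Finset.subset_univ _) (fun _ _ _ => sq_nonneg _)
      rw [Finset.sum_const, nsmul_eq_mul] at h5
      have : (8 : ℤ) ≤ ((TT x).card : ℤ) := by exact_mod_cast h8
      nlinarith
  · have h5 : ∑ _i : GolayPt, (1 : ℤ) ≤ sqNorm x := by
      apply Finset.sum_le_sum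
      intro i _
      have h1 := ho i
      have : x i ≠ 0 := by intro h; rw [h] at h1; omega
      have := pow_ne_zero 2 this
      have := sq_nonneg (x i)
      omega
    rw [Finset.sum_const, Finset.card_univ, card_pt] at h5
    norm_num at h5
    omega

end Cfsg.Agent.H9.Leech
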