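import Mathlib
set_option autoImplicit false

/-! Classes modulo 2 in an even lattice of rank 24 without roots. -/

namespace Cfsg.Agent.H9.Leech

structure Lat {V : Type} [AddCommGroup V] (b : V → V → ℤ) : Prop where
  add_left : ∀ x y z, b (x + y) z = b x z + b y z
  symm : ∀ x y, b x y = b y x
  pos : ∀ x, x ≠ 0 → 0 < b x x
  even : ∀ x, 2 ∣ b x x
  noroot : ∀ x, b x x ≠ 2

namespace Lat
variable {V : Type} [AddCommGroup V] {b : V → V → ℤ}

theorem add_right (h : Lat b) (x y z : V) : b x (y + z) = b x y + b x z := by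
  rw [h.symm, h.add_left, h.symm y, h.symm z]

theorem neg_left (h : Lat b) (x y : V) : b (-x) y = - b x y := by
  have h1 := h.add_left (-x) x y
  have h2 := h.add_left 0 0 y
  rw [neg_add_cancel] at h1
  rw [add_zero] at h2
  linarith

theorem neg_right (h : Lat b) (x y : V) : b x (-y) = - b x y := by
  rw [h.symm, h.neg_left, h.symm y]

theorem cong (h : Lat b) {x y : V} (hx : b x x ≤ 8) (hy : b y y ≤ 8) (hc : ∃ z, x - y = z + z) :
    x = y ∨ x = -y ∨ (b x x = 8 ∧ b y y = 8 ∧ b x y = 0) := by
  obtain ⟨z, hz⟩ := hc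
  by_cases h1 : x = y
  · exact Or.inl h1
  by_cases h2 : x = -y
  · exact Or.inr (Or.inl h2)
  right; right
  have hz0 : z ≠ 0 := by rintro rfl; apply h1; rw [← sub_eq_zero, hz]; simp
  have h' : x + y = (z + y) + (z + y) := by
    have : x + y = (x - y) + y + y := by abel
    rw [this, hz]; abel
  have hz0' : z + y ≠ 0 := by intro hh; apply h2; rw [← add_eq_zero_iff_eq_neg, h', hh]; simp
  have h3 := h.pos z hz0
  have h3' := h.even z
  have h3'' := h.noroot z
  have h4 := h.pos _ hz0'
  have h4' := h.even (z + y)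
  have h4'' := h.noroot (z + y)
  have e1 : b (x - y) (x - y) = b x x + b y y - 2 * b x y := by
    rw [sub_eq_add_neg, h.add_left, h.add_right, h.add_right, h.neg_right, h.neg_left, h.neg_left, h.neg_right, h.symm y x]; ring
  have e2 : b (x + y) (x + y) = b x x + b y y + 2 * b x y := by
    rw [h.add_left, h.add_right, h.add_right, h.symm y x]; ring
  have e3 : b (z + z) (z + z) = 4 * b z z := by
    rw [h.add_left, h.add_right]; ring
  have e4 : b ((z + y) + (z + y)) ((z + y) + (z + y)) = 4 * b (z + y) (z + y) := by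
    rw [h.add_left (z + y), h.add_right _ (z + y)]; ring
  rw [hz, e3] at e1
  rw [h', e4] at e2
  refine ⟨?_, ?_, ?_⟩ <;> omega

open Classical in
theorem half (h : Lat b) (F : Finset V) (hF : ∀ x ∈ F, ∀ y ∈ F, x = y ∨ x = -y ∨ b x y = 0) :
    ∃ s ⊆ F, (∀ x ∈ s, ∀ y ∈ s, x ≠ y → b x y = 0) ∧ ∀ x ∈ F, x ∈ s ∨ -x ∈ s := by
  induction F using Finset.induction_on with
  | empty => exact ⟨∅, by simp, by simp, by simp⟩
  | insert a F ha ih =>
    obtain ⟨s, hs, h1, h2⟩ := ih (fun x hx y hy => hF x (Finset.mem_insert_of_mem hx) y (Finset.mem_insert_of_mem hy))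
    by_cases hc : a ∈ s ∨ -a ∈ s
    · refine ⟨s, hs.trans (Finset.subset_insert _ _), h1, fun x hx => ?_⟩
      rcases Finset.mem_insert.1 hx with rfl | hx
      · exact hc
      · exact h2 x hx
    · push Not at hc
      have key : ∀ y ∈ s, b a y = 0 := by
        intro y hy
        rcases hF a (Finset.mem_insert_self _ _) y (Finset.mem_insert_of_mem (hs hy)) with h3 | h3 | h3
        · exact absurd (h3 ▸ hy) hc.1
        · exact absurd (by rw [h3, neg_neg]; exact hy) hc.2
        · exact h3
      refine ⟨insert a s, Finset.insert_subset_insert _ hs, ?_, ?_⟩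
      · intro x hx y hy hxy
        rcases Finset.mem_insert.1 hx with hxa | hx' <;> rcases Finset.mem_insert.1 hy with hya | hy'
        · exact absurd (hxa.trans hya.symm) hxy
        · rw [hxa]; exact key y hy'
        · rw [h.symm, hya]; exact key x hx'
        · exact h1 x hx' y hy' hxy
      · intro x hx
        rcases Finset.mem_insert.1 hx with rfl | hx
        · exact Or.inl (Finset.mem_insert_self _ _)
        · exact (h2 x hx).imp (fun h => Finset.mem_insert_of_mem h) (fun h => Finset.mem_insert_of_mem h)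

open Classical in
theorem main (h : Lat b) {R : Type} [Fintype R] (hR : Fintype.card R = 2 ^ 24) (red : V → R)
    (hred : ∀ x y, red x = red y ↔ ∃ z, x - y = z + z)
    (hrank : ∀ s : Finset V, (∀ x ∈ s, x ≠ 0) → (∀ x ∈ s, ∀ y ∈ s, x ≠ y → b x y = 0) → s.card ≤ 24)
    (h4 : {x | b x x = 4}.ncard = 196560) (h6 : {x | b x x = 6}.ncard = 16773120)
    (h8 : {x | b x x = 8}.ncard = 398034000) :
    (∀ x, b x x = 8 → {y | b y y = 8 ∧ red x = red y}.ncard = 48) ∧ (∀ r, ∃ y, b y y ≤ 8 ∧ red y = r) := by
  have f4 : {x | b x x = 4}.Finite := Set.finite_of_ncard_ne_zero (by rw [h4]; norm_num)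
  have f6 : {x | b x x = 6}.Finite := Set.finite_of_ncard_ne_zero (by rw [h6]; norm_num)
  have f8 : {x | b x x = 8}.Finite := Set.finite_of_ncard_ne_zero (by rw [h8]; norm_num)
  have c4 : f4.toFinset.card = 196560 := by rw [← h4, Set.ncard_eq_toFinset_card _ f4]
  have c6 : f6.toFinset.card = 16773120 := by rw [← h6, Set.ncard_eq_toFinset_card _ f6]
  have c8 : f8.toFinset.card = 398034000 := by rw [← h8, Set.ncard_eq_toFinset_card _ f8]
  generalize hA4 : f4.toFinset = A4 at *
  generalize hA6 : f6.toFinset = A6 at *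
  generalize hA8 : f8.toFinset = A8 at *
  have m4 : ∀ x, x ∈ A4 ↔ b x x = 4 := by intro x; rw [← hA4]; simp
  have m6 : ∀ x, x ∈ A6 ↔ b x x = 6 := by intro x; rw [← hA6]; simp
  have m8 : ∀ x, x ∈ A8 ↔ b x x = 8 := by intro x; rw [← hA8]; simp
  have hb0 : b 0 0 = 0 := by have := h.add_left 0 0 0; rw [add_zero] at this; linarith
  -- general congruence
  have cg : ∀ x y, b x x ≤ 8 → b y y ≤ 8 → red x = red y → x = y ∨ x = -y ∨ (b x x = 8 ∧ b y y = 8 ∧ b x y = 0) :=
    fun x y hx hy hxy => h.cong hx hy ((hred x y).1 hxy)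
  have hneg : ∀ x, b (-x) (-x) = b x x := by intro x; rw [h.neg_left, h.neg_right]; ring
  have k2 : ∀ (A : Finset V) (n : ℤ), n < 8 → (∀ x, x ∈ A ↔ b x x = n) → A.card ≤ 2 * (A.image red).card := by
    intro A n hn hA
    apply Finset.card_le_mul_card_image
    intro a ha
    obtain ⟨x, hx, rfl⟩ := Finset.mem_image.1 ha
    have : (A.filter fun y => red y = red x) ⊆ {x, -x} := by
      intro y hy
      obtain ⟨hy1, hy2⟩ := Finset.mem_filter.1 hy
      have e1 := (hA y).1 hy1
      have e2 := (hA x).1 hx
      rcases cg y x (by omega) (by omega) hy2 with h1 | h1 | ⟨h1, _⟩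
      · simp [h1]
      · simp [h1]
      · omega
    exact (Finset.card_le_card this).trans Finset.card_le_two
  have k48 : ∀ x, b x x = 8 → (A8.filter fun y => red y = red x).card ≤ 48 := by
    intro x hx
    obtain ⟨s, hs, h1, h2⟩ := h.half (A8.filter fun y => red y = red x) (by
      intro u hu v hv
      obtain ⟨hu1, hu2⟩ := Finset.mem_filter.1 hu
      obtain ⟨hv1, hv2⟩ := Finset.mem_filter.1 hv
      rcases cg u v (by rw [(m8 u).1 hu1]) (by rw [(m8 v).1 hv1]) (hu2.trans hv2.symm) with h1 | h1 | ⟨_, _, h1⟩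
      · exact Or.inl h1
      · exact Or.inr (Or.inl h1)
      · exact Or.inr (Or.inr h1))
    have h3 : s.card ≤ 24 := by
      apply hrank s _ h1
      intro y hy hy0
      have := (m8 y).1 (Finset.mem_filter.1 (hs hy)).1
      rw [hy0, hb0] at this
      omega
    have h4 : (A8.filter fun y => red y = red x) ⊆ s ∪ s.image (fun y => -y) := by
      intro y hy
      rcases h2 y hy with h5 | h5
      · exact Finset.mem_union_left _ h5
      · exact Finset.mem_union_right _ (Finset.mem_image.2 ⟨-y, h5, neg_neg y⟩)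
    have h5 := (Finset.card_le_card h4).trans (Finset.card_union_le _ _)
    have h6 := Finset.card_image_le (s := s) (f := fun y : V => -y)
    omega
  have i4 := k2 A4 4 (by norm_num) m4
  have i6 := k2 A6 6 (by norm_num) m6
  have i8 : A8.card ≤ 48 * (A8.image red).card := by
    apply Finset.card_le_mul_card_image
    intro a ha
    obtain ⟨x, hx, rfl⟩ := Finset.mem_image.1 ha
    exact k48 x ((m8 x).1 hx)
  have ne : ∀ x y, b x x ≤ 8 → b y y ≤ 8 → b x x ≠ b y y → red x ≠ red y := by
    intro x y hx hy hxy he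
    rcases cg x y hx hy he with h1 | h1 | ⟨h1, h2, _⟩
    · exact hxy (by rw [h1])
    · exact hxy (by rw [h1, hneg])
    · exact hxy (by rw [h1, h2])
  have d46 : Disjoint (A4.image red) (A6.image red) := by
    rw [Finset.disjoint_left]
    rintro a h1 h2
    obtain ⟨x, hx, rfl⟩ := Finset.mem_image.1 h1
    obtain ⟨y, hy, he⟩ := Finset.mem_image.1 h2
    have e1 := (m4 x).1 hx
    have e2 := (m6 y).1 hy
    exact ne y x (by omega) (by omega) (by omega) he
  have d8 : Disjoint (A4.image red ∪ A6.image red) (A8.image red) := by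
    rw [Finset.disjoint_left]
    rintro a h1 h2
    obtain ⟨y, hy, rfl⟩ := Finset.mem_image.1 h2
    have e2 := (m8 y).1 hy
    rcases Finset.mem_union.1 h1 with h1 | h1
    · obtain ⟨x, hx, he⟩ := Finset.mem_image.1 h1
      have e1 := (m4 x).1 hx
      exact ne x y (by omega) (by omega) (by omega) he
    · obtain ⟨x, hx, he⟩ := Finset.mem_image.1 h1
      have e1 := (m6 x).1 hx
      exact ne x y (by omega) (by omega) (by omega) he
  have d0 : red 0 ∉ (A4.image red ∪ A6.image red) ∪ A8.image red := by
    intro h1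
    rcases Finset.mem_union.1 h1 with h1 | h1
    · rcases Finset.mem_union.1 h1 with h1 | h1
      · obtain ⟨x, hx, he⟩ := Finset.mem_image.1 h1
        have e1 := (m4 x).1 hx
        exact ne x 0 (by omega) (by omega) (by omega) he
      · obtain ⟨x, hx, he⟩ := Finset.mem_image.1 h1
        have e1 := (m6 x).1 hx
        exact ne x 0 (by omega) (by omega) (by omega) he
    · obtain ⟨x, hx, he⟩ := Finset.mem_image.1 h1
      have e1 := (m8 x).1 hx
      exact ne x 0 (by omega) (by omega) (by omega) he
  have ct : (insert (red 0) ((A4.image red ∪ A6.image red) ∪ A8.image red)).card =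
      1 + (A4.image red).card + (A6.image red).card + (A8.image red).card := by
    rw [Finset.card_insert_of_notMem d0, Finset.card_union_of_disjoint d8, Finset.card_union_of_disjoint d46]; ring
  have cle : (insert (red 0) ((A4.image red ∪ A6.image red) ∪ A8.image red)).card ≤ 2 ^ 24 := by
    rw [← hR]; exact Finset.card_le_univ _
  have e8 : (A8.image red).card = 8292375 := by omega
  have call : (insert (red 0) ((A4.image red ∪ A6.image red) ∪ A8.image red)).card = Fintype.card R := by
    rw [hR]; omega
  constructor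
  · intro x hx
    have hset : {y | b y y = 8 ∧ red x = red y} = ((A8.filter fun y => red y = red x : Finset V) : Set V) := by
      ext y
      simp only [Set.mem_ofPred_eq, Finset.coe_filter, m8]
      exact and_congr_right fun _ => eq_comm
    rw [hset, Set.ncard_coe_finset]
    by_contra hne
    have hlt : (A8.filter fun y => red y = red x).card < 48 := lt_of_le_of_ne (k48 x hx) hne
    have hsum := Finset.card_eq_sum_card_image red A8
    have : ∑ a ∈ A8.image red, (A8.filter fun y => red y = a).card < ∑ a ∈ A8.image red, 48 := by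
      apply Finset.sum_lt_sum
      · intro a ha
        obtain ⟨y, hy, rfl⟩ := Finset.mem_image.1 ha
        exact k48 y ((m8 y).1 hy)
      · exact ⟨red x, Finset.mem_image_of_mem _ ((m8 x).2 hx), hlt⟩
    rw [← hsum, Finset.sum_const, e8, c8] at this
    norm_num at this
  · intro r
    have hr : r ∈ insert (red 0) ((A4.image red ∪ A6.image red) ∪ A8.image red) := by
      rw [Finset.eq_univ_of_card _ call]; exact Finset.mem_univ _
    rcases Finset.mem_insert.1 hr with rfl | hr
    · exact ⟨0, by omega, rfl⟩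
    rcases Finset.mem_union.1 hr with hr | hr
    · rcases Finset.mem_union.1 hr with hr | hr
      · obtain ⟨x, hx, he⟩ := Finset.mem_image.1 hr
        exact ⟨x, by rw [(m4 x).1 hx]; norm_num, he⟩
      · obtain ⟨x, hx, he⟩ := Finset.mem_image.1 hr
        exact ⟨x, by rw [(m6 x).1 hx]; norm_num, he⟩
    · obtain ⟨x, hx, he⟩ := Finset.mem_image.1 hr
      exact ⟨x, by rw [(m8 x).1 hx], he⟩

theorem zsmul_left (h : Lat b) (n : ℤ) (x y : V) : b (n • x) y = n * b x y := by
  let f : V →+ ℤ := AddMonoidHom.mk' (fun x => b x y) (fun u v => h.add_left u v y)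
  have := map_zsmul f n x
  simpa [f] using this

theorem rank_bound (h : Lat b) [Module.Free ℤ V] [Module.Finite ℤ V] (hr : Module.finrank ℤ V = 24) (s : Finset V)
    (h0 : ∀ x ∈ s, x ≠ 0) (h1 : ∀ x ∈ s, ∀ y ∈ s, x ≠ y → b x y = 0) : s.card ≤ 24 := by
  have hli : LinearIndependent ℤ (fun x : s => (x : V)) := by
    rw [Fintype.linearIndependent_iff]
    intro g hg i
    have h2 : ∀ t : Finset s, b (∑ j ∈ t, g j • (j : V)) (i : V) = ∑ j ∈ t, g j * b (j : V) (i : V) := by
      intro t
      classical
      induction t using Finset.induction_on with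
      | empty =>
        have := h.add_left 0 0 (i : V)
        rw [add_zero] at this
        simp only [Finset.sum_empty]; linarith
      | insert a t ha ih => rw [Finset.sum_insert ha, Finset.sum_insert ha, h.add_left, ih, h.zsmul_left]
    have h3 := h2 Finset.univ
    rw [hg] at h3
    have h4 : b 0 (i : V) = 0 := by
      have := h.add_left 0 0 (i : V)
      rw [add_zero] at this
      linarith
    rw [h4, Finset.sum_eq_single i] at h3
    · have h5 := h.pos _ (h0 i i.2)
      rcases mul_eq_zero.1 h3.symm with h6 | h6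
      · exact h6
      · omega
    · intro j _ hj
      rw [h1 j j.2 i i.2 (fun he => hj (Subtype.ext he)), mul_zero]
    · intro hh; exact absurd (Finset.mem_univ i) hh
  have := hli.fintype_card_le_finrank
  rw [hr] at this
  simpa using this

end Lat

theorem red_iff (x y : Fin 24 → ℤ) : (fun i => (x i : ZMod 2)) = (fun i => (y i : ZMod 2)) ↔ ∃ z, x - y = z + z := by
  constructor
  · intro h
    refine ⟨fun i => (x i - y i) / 2, ?_⟩
    funext i
    have h1 : ((x i : ℤ) : ZMod 2) = ((y i : ℤ) : ZMod 2) := congrFun h i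
    have h2 : (x i) % 2 = (y i) % 2 := (ZMod.intCast_eq_intCast_iff' _ _ _).1 h1
    simp only [Pi.sub_apply, Pi.add_apply]
    omega
  · rintro ⟨z, hz⟩
    funext i
    apply (ZMod.intCast_eq_intCast_iff' _ _ _).2
    have := congrFun hz i
    simp only [Pi.sub_apply, Pi.add_apply] at this
    push_cast
    omega

end Cfsg.Agent.H9.Leech
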