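import Cfsg.Agent.H9.Leech.Count
import Cfsg.Agent.H9.Leech.Gen
set_option autoImplicit false

/-! Vector counts and their consequences. -/

namespace Cfsg.Agent.H9.Leech
open Cfsg Cfsg.Agent.H9
open scoped Pointwise

theorem cnt_w (f : ℕ → Bool) : cnt f = ((Finset.range 4096).filter fun k => f k = true).card := by
  rw [cnt, sumR_spec, Finset.card_filter, Finset.range_eq_Ico]
  apply Finset.sum_congr rfl
  intro k _
  cases f k <;> simp

theorem weight_count (n : ℕ) : (CdF.filter fun C => C.card = n).card = cnt fun k => Nat.beq (pc (enc k)) n := by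
  rw [cnt_w, CdF_eq, Finset.filter_image, Finset.card_image_of_injOn
    (enc_injOn.mono (fun x hx => Finset.mem_coe.2 (Finset.mem_filter.1 (Finset.mem_coe.1 hx)).1))]
  refine congrArg Finset.card (Finset.filter_congr ?_)
  intro k _
  rw [card_S]
  exact ⟨fun h => by rw [Nat.beq_eq]; exact h, fun h => Nat.eq_of_beq_eq_true h⟩

theorem w0 : (cnt fun k => Nat.beq (pc (enc k)) 0) = 1 := by decide +kernel
theorem w8 : (cnt fun k => Nat.beq (pc (enc k)) 8) = 759 := by decide +kernel
theorem w12 : (cnt fun k => Nat.beq (pc (enc k)) 12) = 2576 := by decide +kernel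
theorem w16 : (cnt fun k => Nat.beq (pc (enc k)) 16) = 759 := by decide +kernel
theorem w24 : (cnt fun k => Nat.beq (pc (enc k)) 24) = 1 := by decide +kernel

theorem sum_weights (g : ℕ → ℕ) : ∑ C ∈ CdF, g C.card = g 0 + 759 * g 8 + 2576 * g 12 + 759 * g 16 + g 24 := by
  have h : ∀ C ∈ CdF, C.card ∈ ({0, 8, 12, 16, 24} : Finset ℕ) := by
    intro C hC
    rcases cd_card (mem_CdF.1 hC) with h | h | h | h | h <;> simp [h]
  rw [← Finset.sum_fiberwise_of_maps_to h]
  have h2 : ∀ n, ∑ C ∈ CdF.filter (fun C => C.card = n), g C.card = (cnt fun k => Nat.beq (pc (enc k)) n) * g n := by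
    intro n
    rw [Finset.sum_congr rfl (fun C hC => by rw [(Finset.mem_filter.1 hC).2]), Finset.sum_const, smul_eq_mul, weight_count]
  rw [Finset.sum_congr rfl (fun n _ => h2 n)]
  rw [Finset.sum_insert (by decide), Finset.sum_insert (by decide), Finset.sum_insert (by decide), Finset.sum_insert (by decide),
    Finset.sum_singleton, w0, w8, w12, w16, w24]
  ring

theorem gE32 : gf E1 E0 32 0 = 1104 ∧ gf E1 E0 32 8 = 256 ∧ gf E1 E0 32 12 = 0 ∧ gf E1 E0 32 16 = 0 ∧ gf E1 E0 32 24 = 0 := by decide +kernel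
theorem gO32 : ∀ k ∈ [0, 8, 12, 16, 24], gf O1 O0 32 k = 24 := by decide +kernel
theorem gE48 : gf E1 E0 48 8 = 8192 ∧ gf E1 E0 48 12 = 4096 ∧ gf E1 E0 48 16 = 0 ∧ gf E1 E0 48 24 = 0 := by decide +kernel
theorem gO48 : ∀ k ∈ [0, 8, 12, 16, 24], gf O1 O0 48 k = 2048 := by decide +kernel
theorem gE64 : gf E1 E0 64 0 = 170064 ∧ gf E1 E0 64 8 = 124928 ∧ gf E1 E0 64 12 = 98304 ∧ gf E1 E0 64 16 = 65536 ∧ gf E1 E0 64 24 = 0 := by decide +kernel
theorem gO64 : ∀ k ∈ [0, 8, 12, 16, 24], gf O1 O0 64 k = 48576 := by decide +kernel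

theorem partE_val {N : ℕ} {C : Finset GolayPt} (hC : C ∈ CdF) (h0 : C ≠ ∅) :
    (partE E1 E0 N C).card = gf E1 E0 N C.card / 2 := by
  have := card_partE (A1 := E1) (A0 := E0) (by decide) (by decide) N (mem_CdF.1 hC) (Finset.nonempty_iff_ne_empty.2 h0)
    (by decide) (by decide)
  omega

theorem count32 : {x : GolayPt → ℤ | x ∈ leechLattice ∧ sqNorm x = 32}.ncard = 196560 := by
  have h := count_total 32 (by norm_num) (by norm_num)
  obtain ⟨g, hg⟩ : ∃ g : ℕ → ℕ, g = fun k => if k = 0 then 1128 else gf E1 E0 32 k / 2 + gf O1 O0 32 k := ⟨_, rfl⟩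
  have h2 : ∀ C ∈ CdF, (partE E1 E0 ((32 : ℕ) : ℤ) C).card + gf O1 O0 32 C.card = g C.card := by
    intro C hC
    rw [hg]
    by_cases h0 : C = ∅
    · subst h0
      rw [partE_empty 32 (by norm_num)]
      simp only [Finset.card_empty, if_true]
      rw [gE32.1, gO32 0 (by decide)]
    · rw [partE_val hC h0]
      simp only [Finset.card_eq_zero, h0, if_false]
  rw [Finset.sum_congr rfl h2, sum_weights] at h
  rw [hg] at h
  simp only [OfNat.ofNat_ne_zero, if_true, if_false, gE32.2.1, gE32.2.2.1, gE32.2.2.2.1, gE32.2.2.2.2, gO32 8 (by decide), gO32 12 (by decide), gO32 16 (by decide), gO32 24 (by decide)] at h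
  exact_mod_cast h

theorem count48 : {x : GolayPt → ℤ | x ∈ leechLattice ∧ sqNorm x = 48}.ncard = 16773120 := by
  have h := count_total 48 (by norm_num) (by norm_num)
  obtain ⟨g, hg⟩ : ∃ g : ℕ → ℕ, g = fun k => if k = 0 then 2048 else gf E1 E0 48 k / 2 + gf O1 O0 48 k := ⟨_, rfl⟩
  have h2 : ∀ C ∈ CdF, (partE E1 E0 ((48 : ℕ) : ℤ) C).card + gf O1 O0 48 C.card = g C.card := by
    intro C hC
    rw [hg]
    by_cases h0 : C = ∅
    · subst h0
      rw [partE_empty_odd _ (by norm_num)]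
      simp only [Finset.card_empty, if_true]
      rw [gO48 0 (by decide)]
    · rw [partE_val hC h0]
      simp only [Finset.card_eq_zero, h0, if_false]
  rw [Finset.sum_congr rfl h2, sum_weights] at h
  rw [hg] at h
  simp only [OfNat.ofNat_ne_zero, if_true, if_false, gE48.1, gE48.2.1, gE48.2.2.1, gE48.2.2.2, gO48 8 (by decide), gO48 12 (by decide), gO48 16 (by decide), gO48 24 (by decide)] at h
  exact_mod_cast h

theorem count64 : {x : GolayPt → ℤ | x ∈ leechLattice ∧ sqNorm x = 64}.ncard = 398034000 := by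
  have h := count_total 64 (by norm_num) (by norm_num)
  obtain ⟨g, hg⟩ : ∃ g : ℕ → ℕ, g = fun k => if k = 0 then 218640 else gf E1 E0 64 k / 2 + gf O1 O0 64 k := ⟨_, rfl⟩
  have h2 : ∀ C ∈ CdF, (partE E1 E0 ((64 : ℕ) : ℤ) C).card + gf O1 O0 64 C.card = g C.card := by
    intro C hC
    rw [hg]
    by_cases h0 : C = ∅
    · subst h0
      rw [partE_empty 64 (by norm_num)]
      simp only [Finset.card_empty, if_true]
      rw [gE64.1, gO64 0 (by decide)]
    · rw [partE_val hC h0]
      simp only [Finset.card_eq_zero, h0, if_false]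
  rw [Finset.sum_congr rfl h2, sum_weights] at h
  rw [hg] at h
  simp only [OfNat.ofNat_ne_zero, if_true, if_false, gE64.2.1, gE64.2.2.1, gE64.2.2.2.1, gE64.2.2.2.2, gO64 8 (by decide), gO64 12 (by decide), gO64 16 (by decide), gO64 24 (by decide)] at h
  exact_mod_cast h

end Cfsg.Agent.H9.Leech
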