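import Cfsg.Agent.H9.Leech.Pair
set_option autoImplicit false

/-! Numbers of vectors with given inner products. -/

namespace Cfsg.Agent.H9.Leech
open Cfsg Cfsg.Agent.H9
open scoped Pointwise

theorem ncard_lat (N : ℤ) : {v : leechLattice | sqNorm (v : GolayPt → ℤ) = N}.ncard = {x : GolayPt → ℤ | x ∈ leechLattice ∧ sqNorm x = N}.ncard := by
  rw [← Set.ncard_image_of_injective _ (f := fun v : leechLattice => (v : GolayPt → ℤ)) Subtype.coe_injective]
  congr 1
  ext x
  constructor
  · rintro ⟨v, hv, rfl⟩; exact ⟨v.2, hv⟩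
  · rintro ⟨h1, h2⟩; exact ⟨⟨x, h1⟩, h2, rfl⟩

theorem n32 : {v : leechLattice | sqNorm (v : GolayPt → ℤ) = 32}.ncard = 196560 := (ncard_lat 32).trans count32
theorem n48 : {v : leechLattice | sqNorm (v : GolayPt → ℤ) = 48}.ncard = 16773120 := (ncard_lat 48).trans count48
theorem n64 : {v : leechLattice | sqNorm (v : GolayPt → ℤ) = 64}.ncard = 398034000 := (ncard_lat 64).trans count64
theorem f32 : {v : leechLattice | sqNorm (v : GolayPt → ℤ) = 32}.Finite := Set.finite_of_ncard_ne_zero (by rw [n32]; norm_num)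
theorem f48 : {v : leechLattice | sqNorm (v : GolayPt → ℤ) = 48}.Finite := Set.finite_of_ncard_ne_zero (by rw [n48]; norm_num)
theorem f64 : {v : leechLattice | sqNorm (v : GolayPt → ℤ) = 64}.Finite := Set.finite_of_ncard_ne_zero (by rw [n64]; norm_num)

def cS (N k : ℤ) (v : leechLattice) : Set leechLattice := {x | sqNorm (x : GolayPt → ℤ) = N ∧ dotInt (v : GolayPt → ℤ) (x : GolayPt → ℤ) = k}

noncomputable def cnt (N k : ℤ) (v : leechLattice) : ℕ := (cS N k v).ncard

/-- double counting -/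
theorem dbl {N M : ℤ} (hN : {v : leechLattice | sqNorm (v : GolayPt → ℤ) = N}.Finite) (hM : {v : leechLattice | sqNorm (v : GolayPt → ℤ) = M}.Finite)
    (k : ℤ) (a b : ℕ) (ha : ∀ v : leechLattice, sqNorm (v : GolayPt → ℤ) = N → cnt M k v = a)
    (hb : ∀ v : leechLattice, sqNorm (v : GolayPt → ℤ) = M → cnt N k v = b) :
    {v : leechLattice | sqNorm (v : GolayPt → ℤ) = N}.ncard * a = {v : leechLattice | sqNorm (v : GolayPt → ℤ) = M}.ncard * b := by
  classical
  have h := Finset.card_mul_eq_card_mul (s := hN.toFinset) (t := hM.toFinset) (m := a) (n := b)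
    (fun v w : leechLattice => dotInt (v : GolayPt → ℤ) (w : GolayPt → ℤ) = k) ?_ ?_
  · rw [Set.ncard_eq_toFinset_card _ hN, Set.ncard_eq_toFinset_card _ hM]; exact h
  · intro v hv
    rw [← ha v (by simpa using hv), cnt, ← Set.ncard_coe_finset]
    congr 1
    ext w
    simp [Finset.bipartiteAbove, cS]
  · intro w hw
    rw [← hb w (by simpa using hw), cnt, ← Set.ncard_coe_finset]
    congr 1
    ext v
    simp [Finset.bipartiteBelow, cS, dot_comm' v w]

theorem cnt_smul (g : Co0) (N k : ℤ) (v : leechLattice) : cnt N k (g • v) = cnt N k v := by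
  unfold cnt
  rw [← Set.ncard_image_of_injective (cS N k v) (MulAction.injective g)]
  congr 1
  ext x
  constructor
  · rintro ⟨h1, h2⟩
    refine ⟨g⁻¹ • x, ⟨by rw [sqNorm_smul, h1], ?_⟩, smul_inv_smul g x⟩
    rw [← dot_smul g, smul_inv_smul, h2]
  · rintro ⟨y, ⟨h1, h2⟩, rfl⟩
    exact ⟨by rw [sqNorm_smul, h1], by rw [dot_smul, h2]⟩

theorem T32 {v w : leechLattice} (hv : sqNorm (v : GolayPt → ℤ) = 32) (hw : sqNorm (w : GolayPt → ℤ) = 32) : ∃ g : Co0, g • v = w := by
  obtain ⟨g, hg⟩ := trans32 v.2 w.2 hv hw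
  exact ⟨g, Subtype.ext hg.eq⟩

theorem T48 {v w : leechLattice} (hv : sqNorm (v : GolayPt → ℤ) = 48) (hw : sqNorm (w : GolayPt → ℤ) = 48) : ∃ g : Co0, g • v = w := by
  obtain ⟨g, hg⟩ := trans48 v.2 w.2 hv hw
  exact ⟨g, Subtype.ext hg.eq⟩

theorem cnt32 {v w : leechLattice} (hv : sqNorm (v : GolayPt → ℤ) = 32) (hw : sqNorm (w : GolayPt → ℤ) = 32) (N k : ℤ) : cnt N k v = cnt N k w := by
  obtain ⟨g, rfl⟩ := T32 hv hw
  rw [cnt_smul]

theorem cnt48 {v w : leechLattice} (hv : sqNorm (v : GolayPt → ℤ) = 48) (hw : sqNorm (w : GolayPt → ℤ) = 48) (N k : ℤ) : cnt N k v = cnt N k w := by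
  obtain ⟨g, rfl⟩ := T48 hv hw
  rw [cnt_smul]

theorem cnt64 {v : leechLattice} (hv : sqNorm (v : GolayPt → ℤ) = 64) (N k : ℤ) : cnt N k v = cnt N k (e8 none) := by
  obtain ⟨g, hg⟩ := T64 v hv
  rw [← hg, cnt_smul]

/-- translation by subtraction -/
theorem cnt_sub {v : leechLattice} {N k M l : ℤ} (h1 : M = sqNorm (v : GolayPt → ℤ) - 2 * k + N) (h2 : l = sqNorm (v : GolayPt → ℤ) - k) :
    cnt N k v = cnt M l v := by
  unfold cnt
  rw [← Set.ncard_image_of_injective (cS N k v) (f := fun x => v - x) (fun x y h => sub_right_injective h)]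
  congr 1
  have hns : ∀ x : leechLattice, sqNorm ((v - x : leechLattice) : GolayPt → ℤ) = sqNorm (v : GolayPt → ℤ) - 2 * dotInt (v : GolayPt → ℤ) (x : GolayPt → ℤ) + sqNorm (x : GolayPt → ℤ) := by
    intro x
    have := norm_add x (v - x)
    have h3 := norm_add (v - x) x
    rw [sub_add_cancel, dot_comm' (v - x) x] at h3
    have h4 : dotInt (x : GolayPt → ℤ) ((v - x : leechLattice) : GolayPt → ℤ) + dotInt (x : GolayPt → ℤ) (x : GolayPt → ℤ) = dotInt (x : GolayPt → ℤ) (v : GolayPt → ℤ) := by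
      rw [← dot_add_right', sub_add_cancel]
    rw [dot_self', dot_comm' x v] at h4
    omega
  have hds : ∀ x : leechLattice, dotInt (v : GolayPt → ℤ) ((v - x : leechLattice) : GolayPt → ℤ) = sqNorm (v : GolayPt → ℤ) - dotInt (v : GolayPt → ℤ) (x : GolayPt → ℤ) := by
    intro x
    have : dotInt (v : GolayPt → ℤ) ((v - x : leechLattice) : GolayPt → ℤ) + dotInt (v : GolayPt → ℤ) (x : GolayPt → ℤ) = dotInt (v : GolayPt → ℤ) (v : GolayPt → ℤ) := by
      rw [← dot_add_right', sub_add_cancel]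
    rw [dot_self'] at this
    omega
  ext x
  constructor
  · rintro ⟨y, ⟨h3, h4⟩, rfl⟩
    refine ⟨?_, ?_⟩
    · change sqNorm ((v - y : leechLattice) : GolayPt → ℤ) = M
      rw [hns, h3, h4, h1]
    · change dotInt (v : GolayPt → ℤ) ((v - y : leechLattice) : GolayPt → ℤ) = l
      rw [hds, h4, h2]
  · rintro ⟨h3, h4⟩
    refine ⟨v - x, ⟨?_, ?_⟩, sub_sub_cancel v x⟩
    · rw [hns, h3, h4]; omega
    · rw [hds, h4]; omega

theorem cnt_neg (v : leechLattice) (N k : ℤ) : cnt N k v = cnt N (-k) v := by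
  unfold cnt
  rw [← Set.ncard_image_of_injective (cS N k v) (f := fun x => -x) neg_injective]
  congr 1
  have hd : ∀ x : leechLattice, dotInt (v : GolayPt → ℤ) ((-x : leechLattice) : GolayPt → ℤ) = -dotInt (v : GolayPt → ℤ) (x : GolayPt → ℤ) := by
    intro x; rw [dot_comm' v (-x), neg_dot, dot_comm' x v]
  ext x
  constructor
  · rintro ⟨y, ⟨h3, h4⟩, rfl⟩
    exact ⟨by rw [neg_norm, h3], by rw [hd, h4]⟩
  · rintro ⟨h3, h4⟩
    exact ⟨-x, ⟨by rw [neg_norm, h3], by rw [hd, h4, neg_neg]⟩, neg_neg x⟩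

/-! ### vectors meeting a frame vector -/

theorem pm_mem {j : GolayPt} (b : Bool) : (Pi.single none 4 + Pi.single j (if b then 4 else -4) : GolayPt → ℤ) ∈ leechLattice := by
  have : (Pi.single none 4 + Pi.single j (if b then 4 else -4) : GolayPt → ℤ) =
      fun k => 4 * ((Pi.single none 1 : GolayPt → ℤ) k + (Pi.single j (if b then 1 else -1) : GolayPt → ℤ) k) := by
    funext k
    rw [Pi.add_apply, single_apply', single_apply', single_apply', single_apply']
    cases b <;> simp <;> split_ifs <;> norm_num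
  rw [this]
  apply four_mem
  rw [Finset.sum_add_distrib, sum_single', sum_single']; cases b <;> simp

def pmv (p : GolayPt × Bool) : leechLattice := ⟨_, pm_mem (j := p.1) p.2⟩

theorem pmv_val (p : GolayPt × Bool) (hp : p.1 ≠ none) : Sh (pmv p) p.1 (if p.2 then 1 else -1) := by
  intro i
  change (Pi.single none 4 + Pi.single p.1 (if p.2 then 4 else -4) : GolayPt → ℤ) i = _
  rw [Pi.add_apply, single_apply', single_apply']
  by_cases h1 : i = none
  · rw [if_pos h1, if_pos h1, if_neg (fun h => hp (h.symm.trans h1))]; ring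
  · by_cases h2 : i = p.1
    · rw [if_neg h1, if_pos h2, if_neg h1, if_pos h2]; split_ifs <;> norm_num
    · rw [if_neg h1, if_neg h2, if_neg h1, if_neg h2]; ring

theorem sqNorm_pmv (p : GolayPt × Bool) (hp : p.1 ≠ none) : sqNorm (pmv p : GolayPt → ℤ) = 32 := by
  change sqNorm (Pi.single none 4 + Pi.single p.1 (if p.2 then 4 else -4) : GolayPt → ℤ) = 32
  rw [sqNorm_add, sqNorm_single, sqNorm_single, dot_single, single_apply', if_neg hp]
  cases p.2 <;> norm_num

theorem cnt46 : cnt 32 32 (e8 none) = 46 := by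
  classical
  have h : cS 32 32 (e8 none) = ((((Finset.univ : Finset GolayPt).erase none) ×ˢ (Finset.univ : Finset Bool)).image pmv : Finset leechLattice) := by
    ext v
    rw [Finset.coe_image, Set.mem_image]
    constructor
    · rintro ⟨h1, h2⟩
      rw [dot_comm', dot_e8] at h2
      obtain ⟨j, hj, δ, hδ, hs⟩ := sh_of h1 (by omega)
      rcases hδ with rfl | rfl
      · exact ⟨(j, true), by simp [hj], (pmv_val (j, true) hj).unique hs⟩
      · exact ⟨(j, false), by simp [hj], (pmv_val (j, false) hj).unique hs⟩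
    · rintro ⟨p, hp, rfl⟩
      have hp' : p.1 ≠ none := by simpa using hp
      refine ⟨sqNorm_pmv p hp', ?_⟩
      rw [dot_comm', dot_e8, pmv_val p hp' none, if_pos rfl]; norm_num
  unfold cnt
  rw [h, Set.ncard_coe_finset, Finset.card_image_of_injOn, Finset.card_product, Finset.card_erase_of_mem (Finset.mem_univ _), Finset.card_univ, card_pt,
    Finset.card_univ, Fintype.card_bool]
  intro p hp q hq hpq
  have hp' : p.1 ≠ none := by simpa using hp
  have hq' : q.1 ≠ none := by simpa using hq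
  have h1 := pmv_val p hp'
  have h2 := pmv_val q hq'
  rw [hpq] at h1
  have h3 : p.1 = q.1 := by
    by_contra hne
    have := (h1 p.1).symm.trans (h2 p.1)
    rw [if_neg hp', if_pos rfl, if_neg hp', if_neg hne] at this
    cases h : p.2 <;> rw [h] at this <;> norm_num at this
  refine Prod.ext h3 ?_
  have := (h1 p.1).symm.trans (h2 p.1)
  rw [if_neg hp', if_pos rfl, if_neg hp', if_pos h3] at this
  cases h : p.2 <;> cases h' : q.2 <;> rw [h, h'] at this <;> first | rfl | (norm_num at this)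

theorem c0 {v : leechLattice} (hv : sqNorm (v : GolayPt → ℤ) = 32) : cnt 32 0 v = 93150 := by
  have h1 : cnt 32 0 v = cnt 64 32 v := by
    exact cnt_sub (by rw [hv]; norm_num) (by rw [hv]; norm_num)
  have h2 := dbl f32 f64 32 (cnt 64 32 v) 46 (fun w hw => cnt32 hw hv _ _) (fun w hw => by rw [cnt64 hw, cnt46])
  rw [n32, n64] at h2
  rw [h1]; omega

/-! ### second moment -/

theorem mom (v : leechLattice) : ∑ x ∈ f32.toFinset, (dotInt (v : GolayPt → ℤ) (x : GolayPt → ℤ)) ^ 2 = 262080 * sqNorm (v : GolayPt → ℤ) := by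
  classical
  -- invariance of sums
  have inv : ∀ (g : Co0) (f : leechLattice → ℤ), ∑ x ∈ f32.toFinset, f (g • x) = ∑ x ∈ f32.toFinset, f x := by
    intro g f
    refine Finset.sum_bij (fun x _ => g • x) ?_ ?_ ?_ ?_
    · intro x hx
      rw [Set.Finite.mem_toFinset] at hx ⊢
      change sqNorm _ = 32
      rw [sqNorm_smul]; exact hx
    · intro x _ y _ h; exact MulAction.injective g h
    · intro y hy
      rw [Set.Finite.mem_toFinset] at hy
      refine ⟨g⁻¹ • y, ?_, smul_inv_smul g y⟩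
      rw [Set.Finite.mem_toFinset]
      change sqNorm _ = 32
      rw [sqNorm_smul]; exact hy
    · intro x _; rfl
  have hij : ∀ i j : GolayPt, i ≠ j → ∑ x ∈ f32.toFinset, (x : GolayPt → ℤ) i * (x : GolayPt → ℤ) j = 0 := by
    intro i j hij
    obtain ⟨C, hC, hi, hj⟩ := exists_sep hij
    have h1 := inv (eps C hC) (fun x => (x : GolayPt → ℤ) i * (x : GolayPt → ℤ) j)
    have h2 : ∑ x ∈ f32.toFinset, ((eps C hC • x : leechLattice) : GolayPt → ℤ) i * ((eps C hC • x : leechLattice) : GolayPt → ℤ) j =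
        -∑ x ∈ f32.toFinset, (x : GolayPt → ℤ) i * (x : GolayPt → ℤ) j := by
      rw [← Finset.sum_neg_distrib]
      apply Finset.sum_congr rfl
      intro x _
      rw [eps_smul, eps_smul, if_pos hi, if_neg hj]; ring
    have h3 := h2.symm.trans h1
    linarith
  have hii : ∀ i : GolayPt, ∑ x ∈ f32.toFinset, (x : GolayPt → ℤ) i * (x : GolayPt → ℤ) i = ∑ x ∈ f32.toFinset, (x : GolayPt → ℤ) none * (x : GolayPt → ℤ) none := by
    intro i
    obtain ⟨σ, hσ, hσi⟩ := m24_transOn [i] [none] (by simp) (by simp) rfl (by simp) (fun _ _ => Finset.mem_univ _) (fun _ _ => Finset.mem_univ _)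
    have hσi' : σ i = none := by simpa using hσi
    have h1 := inv (mono σ hσ ∅ cd_empty) (fun x => (x : GolayPt → ℤ) none * (x : GolayPt → ℤ) none)
    rw [← h1]
    apply Finset.sum_congr rfl
    intro x _
    have := perm_val hσ x i
    rw [hσi'] at this
    change _ = ((mono σ hσ ∅ cd_empty • x : leechLattice) : GolayPt → ℤ) none * ((mono σ hσ ∅ cd_empty • x : leechLattice) : GolayPt → ℤ) none
    rw [this]
  have hcard : f32.toFinset.card = 196560 := by rw [← n32, Set.ncard_eq_toFinset_card _ f32]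
  have htot : 24 * ∑ x ∈ f32.toFinset, (x : GolayPt → ℤ) none * (x : GolayPt → ℤ) none = 32 * 196560 := by
    have h1 : ∑ x ∈ f32.toFinset, ∑ i, (x : GolayPt → ℤ) i * (x : GolayPt → ℤ) i = ∑ x ∈ f32.toFinset, 32 := by
      apply Finset.sum_congr rfl
      intro x hx
      have hx' : sqNorm (x : GolayPt → ℤ) = 32 := by simpa using hx
      rw [← hx', ← dotInt_self]; rfl
    rw [Finset.sum_comm, Finset.sum_congr rfl (fun i _ => hii i), Finset.sum_const, Finset.sum_const, hcard, Finset.card_univ, card_pt] at h1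
    simp only [nsmul_eq_mul] at h1
    push_cast at h1
    linarith
  have hexp : ∀ x : leechLattice, (dotInt (v : GolayPt → ℤ) (x : GolayPt → ℤ)) ^ 2 = ∑ i, ∑ j, (v : GolayPt → ℤ) i * (v : GolayPt → ℤ) j * ((x : GolayPt → ℤ) i * (x : GolayPt → ℤ) j) := by
    intro x
    unfold dotInt
    rw [pow_two, Finset.sum_mul_sum]
    apply Finset.sum_congr rfl
    intro i _
    apply Finset.sum_congr rfl
    intro j _
    ring
  rw [Finset.sum_congr rfl (fun x _ => hexp x), Finset.sum_comm]
  have hin : ∀ i, ∑ x ∈ f32.toFinset, ∑ j, (v : GolayPt → ℤ) i * (v : GolayPt → ℤ) j * ((x : GolayPt → ℤ) i * (x : GolayPt → ℤ) j) =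
      (v : GolayPt → ℤ) i * (v : GolayPt → ℤ) i * 262080 := by
    intro i
    rw [Finset.sum_comm, Finset.sum_eq_single i]
    · rw [← Finset.mul_sum, hii]
      have : ∑ x ∈ f32.toFinset, (x : GolayPt → ℤ) none * (x : GolayPt → ℤ) none = 262080 := by linarith
      rw [this]
    · intro j _ hj
      rw [← Finset.mul_sum, hij i j (Ne.symm hj), mul_zero]
    · intro h; exact absurd (Finset.mem_univ _) h
  rw [Finset.sum_congr rfl (fun i _ => hin i), ← Finset.sum_mul, mul_comm]
  congr 1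
  exact dotInt_self _

/-- grouping by the inner product -/
theorem mom_cnt {v : leechLattice} (T : Finset ℤ) (hT : ∀ x : leechLattice, sqNorm (x : GolayPt → ℤ) = 32 → dotInt (v : GolayPt → ℤ) (x : GolayPt → ℤ) ∈ T)
    (f : ℤ → ℤ) : ∑ x ∈ f32.toFinset, f (dotInt (v : GolayPt → ℤ) (x : GolayPt → ℤ)) = ∑ k ∈ T, (cnt 32 k v : ℤ) * f k := by
  classical
  rw [← Finset.sum_fiberwise_of_maps_to (s := f32.toFinset) (t := T) (g := fun x => dotInt (v : GolayPt → ℤ) (x : GolayPt → ℤ))
    (fun x hx => hT x (by simpa using hx))]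
  apply Finset.sum_congr rfl
  intro k _
  have h1 : ∀ x ∈ f32.toFinset.filter (fun x : leechLattice => dotInt (v : GolayPt → ℤ) (x : GolayPt → ℤ) = k), f (dotInt (v : GolayPt → ℤ) (x : GolayPt → ℤ)) = f k := by
    intro x hx; rw [(Finset.mem_filter.1 hx).2]
  rw [Finset.sum_congr rfl h1, Finset.sum_const, nsmul_eq_mul]
  congr 2
  unfold cnt
  rw [← Set.ncard_coe_finset]
  congr 1
  ext x
  simp [cS]

theorem norm_sub' (v x : leechLattice) : sqNorm ((v - x : leechLattice) : GolayPt → ℤ) = sqNorm (v : GolayPt → ℤ) - 2 * dotInt (v : GolayPt → ℤ) (x : GolayPt → ℤ) + sqNorm (x : GolayPt → ℤ) := by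
  have h3 := norm_add (v - x) x
  rw [sub_add_cancel, dot_comm' (v - x) x] at h3
  have h4 : dotInt (x : GolayPt → ℤ) ((v - x : leechLattice) : GolayPt → ℤ) + dotInt (x : GolayPt → ℤ) (x : GolayPt → ℤ) = dotInt (x : GolayPt → ℤ) (v : GolayPt → ℤ) := by
    rw [← dot_add_right', sub_add_cancel]
  rw [dot_self', dot_comm' x v] at h4
  omega

theorem norm_cases (v : leechLattice) : v = 0 ∨ 32 ≤ sqNorm (v : GolayPt → ℤ) := by
  by_cases h : (v : GolayPt → ℤ) = 0
  · exact Or.inl (Subtype.ext h)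
  · exact Or.inr (norm_ge v.2 h)

theorem cases32 {v x : leechLattice} (hv : sqNorm (v : GolayPt → ℤ) = 32) (hx : sqNorm (x : GolayPt → ℤ) = 32) :
    dotInt (v : GolayPt → ℤ) (x : GolayPt → ℤ) ∈ ({-32, -16, -8, 0, 8, 16, 32} : Finset ℤ) ∧ (dotInt (v : GolayPt → ℤ) (x : GolayPt → ℤ) = 32 → x = v) := by
  have h1 := norm_sub' v x
  have h2 := norm_add v x
  have h3 := dot_dvd v.2 x.2
  rw [hv, hx] at h1 h2
  rcases norm_cases (v - x) with h4 | h4
  · have h5 : x = v := (sub_eq_zero.1 h4).symm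
    refine ⟨?_, fun _ => h5⟩
    rw [h5, dot_self', hv]; simp
  · rcases norm_cases (v + x) with h5 | h5
    · have h6 : x = -v := (neg_eq_of_add_eq_zero_right h5).symm
      have h7 : dotInt (v : GolayPt → ℤ) (x : GolayPt → ℤ) = -32 := by
        rw [h6, dot_comm' v (-v), neg_dot, dot_self', hv]
      exact ⟨by rw [h7]; simp, fun h => by omega⟩
    · refine ⟨?_, fun h => by omega⟩
      simp only [Finset.mem_insert, Finset.mem_singleton]
      omega

theorem c32 {v : leechLattice} (hv : sqNorm (v : GolayPt → ℤ) = 32) : cnt 32 32 v = 1 := by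
  unfold cnt
  rw [Set.ncard_eq_one]
  refine ⟨v, ?_⟩
  ext x
  constructor
  · rintro ⟨h1, h2⟩; exact (cases32 hv h1).2 h2
  · intro h; rw [Set.mem_singleton_iff.1 h]; exact ⟨hv, by rw [dot_self', hv]⟩

theorem census {v : leechLattice} (hv : sqNorm (v : GolayPt → ℤ) = 32) : cnt 32 (-16) v = 4600 ∧ cnt 32 (-8) v = 47104 ∧ cnt 32 0 v = 93150 := by
  have h0 := c0 hv
  have h32 := c32 hv
  have n16 := cnt_neg v 32 16
  have n8 := cnt_neg v 32 8
  have n32' := cnt_neg v 32 32
  have m2 := mom v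
  rw [mom_cnt {-32, -16, -8, 0, 8, 16, 32} (fun x hx => (cases32 hv hx).1) (fun k => k ^ 2), hv] at m2
  have m0 : ∑ x ∈ f32.toFinset, (1 : ℤ) = 196560 := by
    rw [Finset.sum_const, nsmul_eq_mul, mul_one]
    have : f32.toFinset.card = 196560 := by rw [← n32, Set.ncard_eq_toFinset_card _ f32]
    rw [this]; norm_num
  rw [mom_cnt {-32, -16, -8, 0, 8, 16, 32} (fun x hx => (cases32 hv hx).1) (fun _ => 1)] at m0
  rw [Finset.sum_insert (by decide), Finset.sum_insert (by decide), Finset.sum_insert (by decide), Finset.sum_insert (by decide),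
    Finset.sum_insert (by decide), Finset.sum_insert (by decide), Finset.sum_singleton] at m0 m2
  rw [h0, ← n16, ← n8, ← n32', h32] at m0 m2
  push_cast at m0 m2
  refine ⟨?_, ?_, h0⟩ <;> omega

theorem c552 {u : leechLattice} (hu : sqNorm (u : GolayPt → ℤ) = 48) : cnt 32 24 u = 552 := by
  have h1 : ∀ v : leechLattice, sqNorm (v : GolayPt → ℤ) = 32 → cnt 48 24 v = 47104 := by
    intro v hv
    rw [← (census hv).2.1, ← cnt_neg v 32 8]
    exact cnt_sub (by rw [hv]; norm_num) (by rw [hv]; norm_num)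
  have h2 := dbl f48 f32 24 (cnt 32 24 u) 47104 (fun w hw => cnt48 hw hu _ _) h1
  rw [n48, n32] at h2
  omega

theorem split48 {u x : leechLattice} (hu : sqNorm (u : GolayPt → ℤ) = 48) (hx : sqNorm (x : GolayPt → ℤ) = 32) :
    sqNorm ((u - x : leechLattice) : GolayPt → ℤ) = 32 ↔ dotInt (u : GolayPt → ℤ) (x : GolayPt → ℤ) = 24 := by
  rw [norm_sub', hu, hx]; omega

/-! ### vectors of norm 48 meeting a frame vector in a coordinate 5 -/

theorem card_off : (CdF.filter fun C => none ∉ C).card = 2048 := by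
  have h1 : (CdF.filter fun C => none ∉ C).card = (CdF.filter fun C => ¬ none ∉ C).card := by
    refine Finset.card_bij (fun C _ => Cᶜ) ?_ ?_ ?_
    · intro C hC
      rw [Finset.mem_filter] at hC ⊢
      refine ⟨mem_CdF.2 (cd_compl (mem_CdF.1 hC.1)), ?_⟩
      rw [not_not]; exact Finset.mem_compl.2 hC.2
    · intro C _ D _ h; exact compl_injective h
    · intro D hD
      rw [Finset.mem_filter, not_not] at hD
      refine ⟨Dᶜ, ?_, compl_compl D⟩
      rw [Finset.mem_filter]
      exact ⟨mem_CdF.2 (cd_compl (mem_CdF.1 hD.1)), fun h => Finset.mem_compl.1 h hD.2⟩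
  have h2 := Finset.card_filter_add_card_filter_not (s := CdF) (p := fun C => none ∉ C)
  rw [CdF_card] at h2
  omega

theorem five_mem {C : Finset GolayPt} (hC : C ∈ Cd) : (fun i => (if i = none then 5 else if i ∈ C then -1 else 1 : ℤ)) ∈ leechLattice ∨ none ∈ C := by
  by_cases h : none ∈ C
  · exact Or.inr h
  left
  have : (fun i => (if i = none then 5 else if i ∈ C then -1 else 1 : ℤ)) = fun i => 1 + 2 * ind C i + 4 * ((Pi.single none 1 : GolayPt → ℤ) i - ind C i) := by
    funext i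
    rw [single_apply']
    unfold ind
    by_cases h1 : i = none
    · subst h1; rw [if_pos rfl, if_neg h, if_pos rfl]; norm_num
    · rw [if_neg h1, if_neg h1]; split_ifs <;> norm_num
  rw [this]
  apply mem_of_param hC
  rw [Finset.sum_sub_distrib, sum_single', sum_ind]
  obtain ⟨c, hc⟩ := cd_dvd hC
  omega

theorem five_shape {u : leechLattice} (hu : sqNorm (u : GolayPt → ℤ) = 48) (h5 : (u : GolayPt → ℤ) none = 5) :
    ∀ i, i ≠ none → (u : GolayPt → ℤ) i = 1 ∨ (u : GolayPt → ℤ) i = -1 := by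
  have hmem : none ∈ AK (u : GolayPt → ℤ) 5 := by rw [mem_AK, h5]; norm_num
  rcases shapes48 u.2 hu with h | h | h | h
  · rw [Finset.card_eq_zero.1 h.n5] at hmem; exact absurd hmem (Finset.notMem_empty _)
  · obtain ⟨r, hr⟩ := Finset.card_eq_one.1 h.n5
    rw [hr, Finset.mem_singleton] at hmem
    intro i hi
    have h3 : i ∉ AK (u : GolayPt → ℤ) 3 := by rw [Finset.card_eq_zero.1 h.n3]; simp
    have h5' : i ∉ AK (u : GolayPt → ℤ) 5 := by rw [hr, ← hmem]; simpa using hi
    have h7 : i ∉ AK (u : GolayPt → ℤ) 7 := by rw [Finset.card_eq_zero.1 h.n7]; simp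
    rw [mem_AK] at h3 h5' h7
    have h1 := abs_le_8 rfl h.le i
    have h2 := h.odd i
    have e3 : (u : GolayPt → ℤ) i ≠ 3 ∧ (u : GolayPt → ℤ) i ≠ -3 := ⟨fun e => h3 (by rw [e]; norm_num), fun e => h3 (by rw [e]; norm_num)⟩
    have e5 : (u : GolayPt → ℤ) i ≠ 5 ∧ (u : GolayPt → ℤ) i ≠ -5 := ⟨fun e => h5' (by rw [e]; norm_num), fun e => h5' (by rw [e]; norm_num)⟩
    have e7 : (u : GolayPt → ℤ) i ≠ 7 ∧ (u : GolayPt → ℤ) i ≠ -7 := ⟨fun e => h7 (by rw [e]; norm_num), fun e => h7 (by rw [e]; norm_num)⟩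
    omega
  · have := h.even none; omega
  · have := h.even none; omega

theorem c2048 : cnt 48 40 (e8 none) = 2048 := by
  classical
  rw [← card_off]
  unfold cnt
  rw [← Set.ncard_coe_finset]
  refine Set.ncard_congr (fun u _ => TT (u : GolayPt → ℤ)) ?_ ?_ ?_
  · rintro u ⟨h1, h2⟩
    rw [dot_comm', dot_e8] at h2
    rw [Finset.mem_coe, Finset.mem_filter]
    refine ⟨mem_CdF.2 (mem_iff.1 u.2).1, ?_⟩
    rw [mem_TT]; omega
  · rintro u w ⟨h1, h2⟩ ⟨h3, h4⟩ h
    rw [dot_comm', dot_e8] at h2 h4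
    apply Subtype.ext
    funext i
    have h5 := five_shape h1 (by omega) i
    have h6 := five_shape h3 (by omega) i
    have h7 : i ∈ TT (u : GolayPt → ℤ) ↔ i ∈ TT (w : GolayPt → ℤ) := by rw [h]
    rw [mem_TT, mem_TT] at h7
    by_cases hi : i = none
    · rw [hi]; omega
    · have := h5 hi; have := h6 hi; omega
  · intro C hC
    rw [Finset.mem_coe, Finset.mem_filter] at hC
    have hm := (five_mem (mem_CdF.1 hC.1)).resolve_right hC.2
    refine ⟨⟨_, hm⟩, ⟨?_, ?_⟩, ?_⟩
    · change sqNorm (fun i => (if i = none then 5 else if i ∈ C then -1 else 1 : ℤ)) = 48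
      unfold sqNorm
      have : ∀ i : GolayPt, (if i = none then 5 else if i ∈ C then -1 else 1 : ℤ) ^ 2 = 1 + (Pi.single none 24 : GolayPt → ℤ) i := by
        intro i; rw [single_apply']; split_ifs <;> norm_num
      rw [Finset.sum_congr rfl (fun i _ => this i), Finset.sum_add_distrib, sum_single', Finset.sum_const, Finset.card_univ, card_pt]
      norm_num
    · rw [dot_comm', dot_e8]
      change 8 * (if (none : GolayPt) = none then 5 else if none ∈ C then -1 else 1 : ℤ) = 40
      rw [if_pos rfl]; norm_num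
    · ext i
      rw [mem_TT]
      change (if i = none then 5 else if i ∈ C then -1 else 1 : ℤ) % 4 = 2 ∨ (if i = none then 5 else if i ∈ C then -1 else 1 : ℤ) % 4 = 3 ↔ _
      by_cases hi : i = none
      · rw [hi]; simp [hC.2]
      · by_cases h2 : i ∈ C
        · simp [hi, h2]
        · simp [hi, h2]

theorem cases48 {u x : leechLattice} (hu : sqNorm (u : GolayPt → ℤ) = 48) (hx : sqNorm (x : GolayPt → ℤ) = 32) :
    dotInt (u : GolayPt → ℤ) (x : GolayPt → ℤ) ∈ ({-24, -16, -8, 0, 8, 16, 24} : Finset ℤ) := by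
  have h1 := norm_sub' u x
  have h2 := norm_add u x
  have h3 := dot_dvd u.2 x.2
  rw [hu, hx] at h1 h2
  simp only [Finset.mem_insert, Finset.mem_singleton]
  rcases norm_cases (u - x) with h4 | h4
  · have h5 : x = u := (sub_eq_zero.1 h4).symm
    rw [h5, hu] at hx; norm_num at hx
  · rcases norm_cases (u + x) with h5 | h5
    · have h6 : x = -u := (neg_eq_of_add_eq_zero_right h5).symm
      rw [h6, neg_norm, hu] at hx; norm_num at hx
    · omega

theorem c11178 {u : leechLattice} (hu : sqNorm (u : GolayPt → ℤ) = 48) : cnt 32 (-16) u = 11178 := by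
  have h552 := c552 hu
  have h8 : cnt 32 8 u = 48600 := by
    have h1 : cnt 32 8 u = cnt 64 40 u := cnt_sub (by rw [hu]; norm_num) (by rw [hu]; norm_num)
    have h2 := dbl f48 f64 40 (cnt 64 40 u) 2048 (fun w hw => cnt48 hw hu _ _) (fun w hw => by rw [cnt64 hw, c2048])
    rw [n48, n64] at h2
    rw [h1]; omega
  have n24 := cnt_neg u 32 24
  have n16 := cnt_neg u 32 16
  have n8 := cnt_neg u 32 8
  have m2 := mom u
  rw [mom_cnt {-24, -16, -8, 0, 8, 16, 24} (fun x hx => cases48 hu hx) (fun k => k ^ 2), hu] at m2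
  rw [Finset.sum_insert (by decide), Finset.sum_insert (by decide), Finset.sum_insert (by decide), Finset.sum_insert (by decide),
    Finset.sum_insert (by decide), Finset.sum_insert (by decide), Finset.sum_singleton] at m2
  rw [← n24, ← n16, ← n8, h552, h8] at m2
  rw [← n16]
  push_cast at m2
  omega

end Cfsg.Agent.H9.Leech
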