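import Cfsg.Agent.H9.Leech.Basic
import Cfsg.Prelude.Def_SporadicCombinatorics
set_option autoImplicit false

/-! Congruences modulo 2Λ, monomial symmetries. -/

namespace Cfsg.Agent.H9.Leech
open Cfsg Cfsg.Agent.H9
open scoped Pointwise

theorem cong_short {v w : GolayPt → ℤ} (hw : w ∈ leechLattice)
    (hvn : sqNorm v ≤ 64) (hwn : sqNorm w ≤ 64) (hc : ∃ z ∈ leechLattice, v - w = 2 • z) :
    v = w ∨ v = -w ∨ (sqNorm v = 64 ∧ sqNorm w = 64 ∧ dotInt v w = 0) := by
  obtain ⟨z, hz, h⟩ := hc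
  by_cases h1 : v = w
  · exact Or.inl h1
  by_cases h2 : v = -w
  · exact Or.inr (Or.inl h2)
  right; right
  have hz0 : z ≠ 0 := by rintro rfl; apply h1; rw [← sub_eq_zero, h]; simp
  have h' : v + w = 2 • (z + w) := by rw [nsmul_add, ← h]; rw [two_nsmul]; abel
  have hz0' : z + w ≠ 0 := by intro hh; apply h2; rw [← add_eq_zero_iff_eq_neg, h', hh]; simp
  have h3 := norm_ge hz hz0
  have h4 := norm_ge (leechLattice.add_mem hz hw) hz0'
  have h5 := sqNorm_sub v w
  have h6 := sqNorm_add v w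
  rw [h, two_nsmul_norm] at h5
  rw [h', two_nsmul_norm] at h6
  refine ⟨?_, ?_, ?_⟩ <;> omega

theorem M24_cd {σ : Equiv.Perm GolayPt} (hσ : σ ∈ M24) {C : Finset GolayPt} : σ • C ∈ Cd ↔ C ∈ Cd := by
  have h : σ • (Cd : Set (Finset GolayPt)) = Cd := hσ
  constructor
  · intro hC
    rw [← h] at hC
    exact (Set.smul_mem_smul_set_iff).1 hC
  · intro hC
    rw [← h]
    exact Set.smul_mem_smul_set hC

theorem mem_smul_fin {σ : Equiv.Perm GolayPt} {C : Finset GolayPt} {i : GolayPt} : i ∈ σ • C ↔ σ.symm i ∈ C := by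
  rw [Finset.mem_smul_finset]
  constructor
  · rintro ⟨j, hj, rfl⟩; simpa using hj
  · intro h; exact ⟨_, h, by simp⟩

theorem perm_mem {σ : Equiv.Perm GolayPt} (hσ : σ ∈ M24) {x : GolayPt → ℤ} (hx : x ∈ leechLattice) :
    (fun i => x (σ.symm i)) ∈ leechLattice := by
  obtain ⟨m, C, z, hC, h1, rfl⟩ := param hx
  have : (fun i => (fun i => m + 2 * ind C i + 4 * z i) (σ.symm i)) = fun i => m + 2 * ind (σ • C) i + 4 * z (σ.symm i) := by
    funext i
    have : ind (σ • C) i = ind C (σ.symm i) := by unfold ind; simp only [mem_smul_fin]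
    simp only [this]
  rw [this]
  apply mem_of_param ((M24_cd hσ).2 hC)
  rw [Equiv.sum_comp σ.symm z]
  exact h1

theorem sign_mem {c : Finset GolayPt} (hc : c ∈ Cd) {x : GolayPt → ℤ} (hx : x ∈ leechLattice) :
    (fun i => if i ∈ c then -x i else x i) ∈ leechLattice := by
  obtain ⟨m, C, z, hC, h1, rfl⟩ := param hx
  have key : ∀ i, (if i ∈ c then -(m + 2 * ind C i + 4 * z i) else m + 2 * ind C i + 4 * z i) =
      (m + 2 * ind C i + 4 * z i) - 2 * ind c i * (m + 2 * ind C i + 4 * z i) := by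
    intro i; unfold ind; split_ifs <;> ring
  -- m(1 - 2 c) + 2 C (1 - 2c) + 4 z(1-2c) ; -m = m - 2m ; 
  have key2 : ∀ i, (m + 2 * ind C i + 4 * z i) - 2 * ind c i * (m + 2 * ind C i + 4 * z i) =
      m + 2 * ind C i + 4 * (z i - ind (C ∩ c) i - 2 * ind c i * z i) - 2 * m * ind c i := by
    intro i
    have : ind (C ∩ c) i = ind C i * ind c i := by
      unfold ind; by_cases h1 : i ∈ C <;> by_cases h2 : i ∈ c <;> simp [h1, h2]
    rw [this]; ring
  have hcC := cd_inter hC hc
  have hcc := cd_dvd hc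
  rcases Int.emod_two_eq m with hm | hm
  · obtain ⟨k, hk⟩ : ∃ k, m = 2 * k := ⟨m / 2, by omega⟩
    have : (fun i => if i ∈ c then -(m + 2 * ind C i + 4 * z i) else m + 2 * ind C i + 4 * z i) =
        fun i => m + 2 * ind C i + 4 * (z i - ind (C ∩ c) i - 2 * (ind c i * z i) - k * ind c i) := by
      funext i
      rw [key, key2, hk]; ring
    simp only at *
    rw [this]
    apply mem_of_param hC
    rw [Finset.sum_sub_distrib, Finset.sum_sub_distrib, Finset.sum_sub_distrib, sum_ind, ← Finset.mul_sum, ← Finset.mul_sum, sum_ind]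
    obtain ⟨a, ha⟩ := hcC
    obtain ⟨b, hb⟩ := hcc
    rw [ha, hb]
    push_cast
    have : k * (4 * (b : ℤ)) = 4 * (k * b) := by ring
    rw [this]
    generalize (k * (b:ℤ)) = e at *
    generalize (∑ i, ind c i * z i) = f at *
    omega
  · obtain ⟨k, hk⟩ : ∃ k, m = 2 * k + 1 := ⟨m / 2, by omega⟩
    have : (fun i => if i ∈ c then -(m + 2 * ind C i + 4 * z i) else m + 2 * ind C i + 4 * z i) =
        fun i => m + 2 * ind (symmDiff C c) i + 4 * (z i - 2 * (ind c i * z i) - (k + 1) * ind c i) := by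
      funext i
      have h3 := ind_add C c i
      have h4 : ind (C ∩ c) i = ind C i * ind c i := by
        unfold ind; by_cases h1 : i ∈ C <;> by_cases h2 : i ∈ c <;> simp [h1, h2]
      rw [key, key2, hk]
      linear_combination 2 * h3 + 0 * h4
    simp only at *
    rw [this]
    apply mem_of_param (cd_symm hC hc)
    rw [Finset.sum_sub_distrib, Finset.sum_sub_distrib, ← Finset.mul_sum, ← Finset.mul_sum, sum_ind]
    obtain ⟨b, hb⟩ := hcc
    rw [hb]
    push_cast
    have : (k + 1) * (4 * (b : ℤ)) = 4 * ((k + 1) * b) := by ring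
    rw [this]
    generalize ((k + 1) * (b:ℤ)) = e at *
    generalize (∑ i, ind c i * z i) = f at *
    omega

theorem signedPerm_mem {σ : Equiv.Perm GolayPt} (hσ : σ ∈ M24) {c : Finset GolayPt} (hc : c ∈ Cd)
    {x : GolayPt → ℤ} (hx : x ∈ leechLattice) : signedPerm σ c x ∈ leechLattice :=
  sign_mem hc (perm_mem hσ hx)

theorem sqNorm_signedPerm (σ : Equiv.Perm GolayPt) (c : Finset GolayPt) (x : GolayPt → ℤ) :
    sqNorm (signedPerm σ c x) = sqNorm x := by
  unfold sqNorm signedPerm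
  rw [← Equiv.sum_comp σ.symm (fun i => x i ^ 2)]
  apply Finset.sum_congr rfl
  intro i _
  split_ifs <;> ring

/-! ### counting residues -/

open Classical in
/-- the code words as a finset -/
noncomputable def CdF : Finset (Finset GolayPt) := Finset.univ.filter fun s => s ∈ Cd

theorem mem_CdF {s : Finset GolayPt} : s ∈ CdF ↔ s ∈ Cd := by simp [CdF]

theorem CdF_eq : CdF = (Finset.range 4096).image fun k => S (enc k) := by
  ext s
  rw [mem_CdF, mem_supports_iff]
  simp only [Finset.mem_image, Finset.mem_range]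
  constructor
  · rintro ⟨k, hk, rfl⟩; exact ⟨k, hk, rfl⟩
  · rintro ⟨k, hk, rfl⟩; exact ⟨k, hk, rfl⟩

theorem enc_injOn : Set.InjOn (fun k => S (enc k)) (Finset.range 4096 : Set ℕ) := by
  intro a ha b hb hab
  exact enc_inj (by simpa using ha) (by simpa using hb) (S_inj (enc_lt _) (enc_lt _) hab)

theorem CdF_card : CdF.card = 4096 := by
  rw [CdF_eq, Finset.card_image_of_injOn enc_injOn, Finset.card_range]

/-- sums over the code words of a function of the weight -/
theorem sum_CdF (g : ℕ → ℕ) : ∑ C ∈ CdF, g C.card = ∑ k ∈ Finset.range 4096, g (pc (enc k)) := by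
  rw [CdF_eq, Finset.sum_image enc_injOn]
  apply Finset.sum_congr rfl
  intro k _
  rw [card_S]

end Cfsg.Agent.H9.Leech
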