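import Cfsg.Agent.H9.Leech.Cong
set_option autoImplicit false

/-! Counting lattice vectors of given norm. -/

namespace Cfsg.Agent.H9.Leech
open Cfsg Cfsg.Agent.H9
open scoped Pointwise

theorem digit {α : Type*} (s : Finset α) (e : α → ℕ) (B N : ℕ) (hB : s.card < B) :
    (∑ x ∈ s, B ^ e x) / B ^ N % B = (s.filter fun x => e x = N).card := by
  have hB0 : 0 < B := by omega
  have hsplit : ∑ x ∈ s, B ^ e x = ∑ x ∈ s.filter (fun x => e x < N), B ^ e x +
      (∑ x ∈ s.filter (fun x => e x = N), B ^ e x + ∑ x ∈ s.filter (fun x => N < e x), B ^ e x) := by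
    rw [← Finset.sum_filter_add_sum_filter_not s (fun x => e x < N)]
    congr 1
    rw [← Finset.sum_filter_add_sum_filter_not (s.filter fun x => ¬ e x < N) (fun x => e x = N)]
    congr 1
    · apply Finset.sum_congr _ (fun _ _ => rfl)
      ext x; simp only [Finset.mem_filter]
      constructor
      · rintro ⟨⟨h1, _⟩, h2⟩; exact ⟨h1, h2⟩
      · rintro ⟨h1, h2⟩; exact ⟨⟨h1, by omega⟩, h2⟩
    · apply Finset.sum_congr _ (fun _ _ => rfl)
      ext x; simp only [Finset.mem_filter]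
      constructor
      · rintro ⟨⟨h1, h2⟩, h3⟩; exact ⟨h1, by omega⟩
      · rintro ⟨h1, h2⟩; exact ⟨⟨h1, by omega⟩, by omega⟩
  have hL : ∑ x ∈ s.filter (fun x => e x < N), B ^ e x < B ^ N := by
    rcases Nat.eq_zero_or_pos N with rfl | hN
    · rw [Finset.filter_false_of_mem (fun x _ => Nat.not_lt_zero _)]; simp
    · calc ∑ x ∈ s.filter (fun x => e x < N), B ^ e x ≤ ∑ x ∈ s.filter (fun x => e x < N), B ^ (N - 1) := by
            apply Finset.sum_le_sum
            intro x hx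
            have := (Finset.mem_filter.1 hx).2
            exact Nat.pow_le_pow_right hB0 (by omega)
        _ = (s.filter (fun x => e x < N)).card * B ^ (N - 1) := by rw [Finset.sum_const, smul_eq_mul]
        _ ≤ s.card * B ^ (N - 1) := Nat.mul_le_mul_right _ (Finset.card_filter_le _ _)
        _ < B * B ^ (N - 1) := Nat.mul_lt_mul_of_pos_right hB (Nat.pow_pos hB0)
        _ = B ^ N := by rw [← pow_succ']; congr 1; omega
  have hM : ∑ x ∈ s.filter (fun x => e x = N), B ^ e x = B ^ N * (s.filter (fun x => e x = N)).card := by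
    rw [Finset.sum_congr rfl (fun x hx => by rw [(Finset.mem_filter.1 hx).2]), Finset.sum_const, smul_eq_mul, mul_comm]
  have hH : ∑ x ∈ s.filter (fun x => N < e x), B ^ e x =
      B ^ N * (B * ∑ x ∈ s.filter (fun x => N < e x), B ^ (e x - N - 1)) := by
    rw [Finset.mul_sum, Finset.mul_sum]
    apply Finset.sum_congr rfl
    intro x hx
    have := (Finset.mem_filter.1 hx).2
    rw [← pow_succ', ← pow_add]; congr 1; omega
  rw [hsplit, hM, hH, ← mul_add, Nat.add_mul_div_left _ _ (Nat.pow_pos hB0), Nat.div_eq_of_lt hL, zero_add,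
    Nat.add_mul_mod_self_left]
  exact Nat.mod_eq_of_lt (lt_of_le_of_lt (Finset.card_filter_le _ _) hB)

/-- generating number -/
def gfs (A : Finset ℤ) : ℕ := ∑ v ∈ A, (2 ^ 64) ^ (v.natAbs ^ 2)
def gf (A1 A0 : Finset ℤ) (N k : ℕ) : ℕ := (gfs A1 ^ k * gfs A0 ^ (24 - k)) / (2 ^ 64) ^ N % (2 ^ 64)

theorem sqNorm_natAbs (x : GolayPt → ℤ) : sqNorm x = ((∑ i, (x i).natAbs ^ 2 : ℕ) : ℤ) := by
  unfold sqNorm; push_cast
  exact Finset.sum_congr rfl fun i _ => by rw [sq_abs]

def box (A1 A0 : Finset ℤ) (C : Finset GolayPt) : Finset (GolayPt → ℤ) :=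
  Fintype.piFinset fun i => if i ∈ C then A1 else A0

theorem mem_box {A1 A0 : Finset ℤ} {C : Finset GolayPt} {x : GolayPt → ℤ} :
    x ∈ box A1 A0 C ↔ ∀ i, (i ∈ C → x i ∈ A1) ∧ (i ∉ C → x i ∈ A0) := by
  unfold box
  rw [Fintype.mem_piFinset]
  constructor
  · intro h i
    have := h i
    constructor
    · intro hi; rwa [if_pos hi] at this
    · intro hi; rwa [if_neg hi] at this
  · intro h i
    split_ifs with hi
    · exact (h i).1 hi
    · exact (h i).2 hi

theorem prod_ite_pt (a b : ℕ) (C : Finset GolayPt) : ∏ i : GolayPt, (if i ∈ C then a else b) = a ^ C.card * b ^ (24 - C.card) := by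
  rw [Finset.prod_ite, Finset.prod_const, Finset.prod_const]
  congr 2
  · congr 1; ext i; simp
  · have : (Finset.univ.filter fun i => i ∉ C) = Cᶜ := by ext i; simp
    rw [this, Finset.card_compl, card_pt]

theorem card_box_filter (A1 A0 : Finset ℤ) (h1 : A1.card ≤ 5) (h0 : A0.card ≤ 5) (N : ℕ) (C : Finset GolayPt) :
    ((box A1 A0 C).filter fun x => sqNorm x = (N : ℤ)).card = gf A1 A0 N C.card := by
  have hcard : (box A1 A0 C).card < 2 ^ 64 := by
    unfold box
    rw [Fintype.card_piFinset]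
    calc ∏ i : GolayPt, (if i ∈ C then A1 else A0).card ≤ ∏ i : GolayPt, 5 :=
          Finset.prod_le_prod' (fun i _ => by split_ifs <;> assumption)
      _ = 5 ^ 24 := by rw [Finset.prod_const, Finset.card_univ, card_pt]
      _ < 2 ^ 64 := by norm_num
  have h := digit (box A1 A0 C) (fun x => ∑ i, (x i).natAbs ^ 2) (2 ^ 64) N hcard
  have h2 : ((box A1 A0 C).filter fun x => sqNorm x = (N : ℤ)) =
      ((box A1 A0 C).filter fun x => ∑ i, (x i).natAbs ^ 2 = N) := by
    apply Finset.filter_congr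
    intro x _
    rw [sqNorm_natAbs]; exact Nat.cast_inj
  rw [h2, ← h]
  unfold gf
  congr 2
  have h3 : ∀ x : GolayPt → ℤ, (2 ^ 64) ^ (∑ i, (x i).natAbs ^ 2) = ∏ i, (2 ^ 64) ^ ((x i).natAbs ^ 2) :=
    fun x => (Finset.prod_pow_eq_pow_sum _ _ _).symm
  rw [Finset.sum_congr rfl (fun x _ => h3 x)]
  unfold box
  rw [← Finset.prod_univ_sum (fun i : GolayPt => if i ∈ C then A1 else A0) (fun _ v => (2 ^ 64) ^ (v.natAbs ^ 2))]
  rw [← prod_ite_pt]
  apply Finset.prod_congr rfl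
  intro i _
  split_ifs <;> rfl

def partE (A1 A0 : Finset ℤ) (N : ℤ) (C : Finset GolayPt) : Finset (GolayPt → ℤ) :=
  (box A1 A0 C).filter fun x => sqNorm x = N ∧ (∑ i, x i) % 8 = 0
def partO (A1 A0 : Finset ℤ) (N : ℤ) (C : Finset GolayPt) : Finset (GolayPt → ℤ) :=
  (box A1 A0 C).filter fun x => sqNorm x = N

theorem sum_update (x : GolayPt → ℤ) (p : GolayPt) (v : ℤ) : ∑ i, Function.update x p v i = ∑ i, x i - x p + v := by
  rw [← Finset.add_sum_erase _ x (Finset.mem_univ p), ← Finset.add_sum_erase _ (Function.update x p v) (Finset.mem_univ p)]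
  rw [Function.update_self, Finset.sum_congr rfl (fun i hi => Function.update_of_ne (Finset.ne_of_mem_erase hi) v x)]
  ring

theorem sqNorm_flip (x : GolayPt → ℤ) (p : GolayPt) : sqNorm (Function.update x p (- x p)) = sqNorm x := by
  unfold sqNorm
  apply Finset.sum_congr rfl
  intro i _
  by_cases h : i = p
  · subst h; rw [Function.update_self]; ring
  · rw [Function.update_of_ne h]

theorem sum_mod4 {x : GolayPt → ℤ} {C : Finset GolayPt} (hC : C ∈ Cd) (h1 : ∀ i ∈ C, x i % 4 = 2) (h0 : ∀ i ∉ C, x i % 4 = 0) :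
    (∑ i, x i) % 4 = 0 := by
  have : ∀ i, x i = 2 * ind C i + 4 * (x i / 4) := by
    intro i; unfold ind
    by_cases hi : i ∈ C
    · rw [if_pos hi]; have := h1 i hi; omega
    · rw [if_neg hi]; have := h0 i hi; omega
  rw [Finset.sum_congr rfl (fun i _ => this i), Finset.sum_add_distrib, ← Finset.mul_sum, ← Finset.mul_sum, sum_ind]
  have := cd_dvd hC
  omega

theorem card_partE {A1 A0 : Finset ℤ} (h1 : A1.card ≤ 5) (h0 : A0.card ≤ 5) (N : ℕ) {C : Finset GolayPt} (hC : C ∈ Cd)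
    (hne : C.Nonempty) (hA1 : ∀ v ∈ A1, v % 4 = 2 ∧ -v ∈ A1) (hA0 : ∀ v ∈ A0, v % 4 = 0) :
    2 * (partE A1 A0 N C).card = gf A1 A0 N C.card := by
  obtain ⟨p, hp⟩ := hne
  rw [← card_box_filter A1 A0 h1 h0 N C]
  have hs : ((box A1 A0 C).filter fun x => sqNorm x = (N : ℤ)) =
      partE A1 A0 N C ∪ ((box A1 A0 C).filter fun x => sqNorm x = (N : ℤ) ∧ (∑ i, x i) % 8 = 4) := by
    ext x
    simp only [partE, Finset.mem_union, Finset.mem_filter]
    constructor
    · rintro ⟨h1, h2⟩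
      have hb := mem_box.1 h1
      have := sum_mod4 hC (fun i hi => (hA1 _ ((hb i).1 hi)).1) (fun i hi => hA0 _ ((hb i).2 hi))
      have : (∑ i, x i) % 8 = 0 ∨ (∑ i, x i) % 8 = 4 := by omega
      rcases this with h | h
      · exact Or.inl ⟨h1, h2, h⟩
      · exact Or.inr ⟨h1, h2, h⟩
    · rintro (⟨h1, h2, _⟩ | ⟨h1, h2, _⟩) <;> exact ⟨h1, h2⟩
  have hd : Disjoint (partE A1 A0 N C) ((box A1 A0 C).filter fun x => sqNorm x = (N : ℤ) ∧ (∑ i, x i) % 8 = 4) := by
    rw [Finset.disjoint_left]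
    intro x hx hy
    have h1 := (Finset.mem_filter.1 hx).2.2
    have h2 := (Finset.mem_filter.1 hy).2.2
    omega
  have hflip : ∀ x ∈ box A1 A0 C, Function.update x p (- x p) ∈ box A1 A0 C ∧
      (∑ i, Function.update x p (- x p) i) % 8 = (∑ i, x i + 4) % 8 := by
    intro x hx
    have hb := mem_box.1 hx
    refine ⟨mem_box.2 fun i => ?_, ?_⟩
    · by_cases hi : i = p
      · subst hi
        exact ⟨fun _ => by rw [Function.update_self]; exact (hA1 _ ((hb _).1 hp)).2, fun h => absurd hp h⟩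
      · rw [Function.update_of_ne hi]; exact hb i
    · rw [sum_update]
      have := (hA1 _ ((hb p).1 hp)).1
      omega
  have hc : (partE A1 A0 N C).card = ((box A1 A0 C).filter fun x => sqNorm x = (N : ℤ) ∧ (∑ i, x i) % 8 = 4).card := by
    apply Finset.card_nbij' (fun x => Function.update x p (- x p)) (fun x => Function.update x p (- x p))
    · intro x hx
      obtain ⟨h1, h2, h3⟩ := Finset.mem_filter.1 hx
      obtain ⟨h4, h5⟩ := hflip x h1
      refine Finset.mem_filter.2 ⟨h4, by rw [sqNorm_flip]; exact h2, by rw [h5]; omega⟩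
    · intro x hx
      obtain ⟨h1, h2, h3⟩ := Finset.mem_filter.1 hx
      obtain ⟨h4, h5⟩ := hflip x h1
      refine Finset.mem_filter.2 ⟨h4, by rw [sqNorm_flip]; exact h2, by rw [h5]; omega⟩
    · intro x _; simp
    · intro x _; simp
  rw [hs, Finset.card_union_of_disjoint hd, ← hc]; ring

theorem card_partO {A1 A0 : Finset ℤ} (h1 : A1.card ≤ 5) (h0 : A0.card ≤ 5) (N : ℕ) (C : Finset GolayPt) :
    (partO A1 A0 N C).card = gf A1 A0 N C.card := card_box_filter A1 A0 h1 h0 N C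

theorem TT_box {A1 A0 : Finset ℤ} {C : Finset GolayPt} (hA1 : ∀ v ∈ A1, v % 4 = 2 ∨ v % 4 = 3)
    (hA0 : ∀ v ∈ A0, v % 4 = 0 ∨ v % 4 = 1) {x : GolayPt → ℤ} (hx : x ∈ box A1 A0 C) : TT x = C := by
  ext i
  rw [mem_TT]
  have hb := mem_box.1 hx i
  by_cases hi : i ∈ C
  · exact ⟨fun _ => hi, fun _ => hA1 _ (hb.1 hi)⟩
  · have := hA0 _ (hb.2 hi)
    exact ⟨fun h => by omega, fun h => absurd h hi⟩

theorem partE_mem {A1 A0 : Finset ℤ} {C : Finset GolayPt} (hC : C ∈ Cd) (hA1 : ∀ v ∈ A1, v % 4 = 2)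
    (hA0 : ∀ v ∈ A0, v % 4 = 0) {N : ℤ} {x : GolayPt → ℤ} (hx : x ∈ partE A1 A0 N C) :
    x ∈ leechLattice ∧ sqNorm x = N ∧ TT x = C ∧ ∀ i, x i % 2 = 0 := by
  obtain ⟨h1, h2, h3⟩ := Finset.mem_filter.1 hx
  have hT : TT x = C := TT_box (fun v hv => Or.inl (hA1 v hv)) (fun v hv => Or.inl (hA0 v hv)) h1
  have he : ∀ i, x i % 2 = 0 := by
    intro i
    have hb := mem_box.1 h1 i
    by_cases hi : i ∈ C
    · have := hA1 _ (hb.1 hi); omega
    · have := hA0 _ (hb.2 hi); omega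
  exact ⟨mem_iff.2 ⟨hT ▸ hC, Or.inl ⟨he, h3⟩⟩, h2, hT, he⟩

theorem odd_sum {x : GolayPt → ℤ} {C : Finset GolayPt} (hC : C ∈ Cd) (h1 : ∀ i ∈ C, x i % 4 = 3) (h0 : ∀ i ∉ C, x i % 4 = 1)
    (hN : sqNorm x % 16 = 0) : (∑ i, x i) % 8 = 4 := by
  have hx : x = fun i => 1 + 2 * ind C i + 4 * (x i / 4) := by
    funext i; unfold ind
    by_cases hi : i ∈ C
    · rw [if_pos hi]; have := h1 i hi; omega
    · rw [if_neg hi]; have := h0 i hi; omega
  have e1 := sum_param 1 C (fun i => x i / 4)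
  have e2 := sqNorm_param 1 C (fun i => x i / 4)
  rw [← hx] at e1 e2
  obtain ⟨c, hc⟩ := cd_dvd hC
  rw [hc] at e1 e2
  push_cast at e1 e2
  have h5 : (∑ i, x i / 4 * (x i / 4) + ∑ i, x i / 4) % 2 = 0 := by
    rw [← Finset.sum_add_distrib]
    apply Int.emod_eq_zero_of_dvd
    apply Finset.dvd_sum
    intro i _
    obtain ⟨e, he⟩ := Int.even_mul_succ_self (x i / 4)
    exact ⟨e, by linarith [he, mul_add (x i / 4) (x i / 4) 1]⟩
  generalize (∑ i, x i / 4 * (x i / 4)) = a at *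
  generalize (∑ i, x i / 4) = b at *
  generalize (∑ i, x i) = c at *
  generalize (∑ i ∈ C, x i / 4) = d at *
  omega

theorem partO_mem {A1 A0 : Finset ℤ} {C : Finset GolayPt} (hC : C ∈ Cd) (hA1 : ∀ v ∈ A1, v % 4 = 3)
    (hA0 : ∀ v ∈ A0, v % 4 = 1) {N : ℤ} (hN : N % 16 = 0) {x : GolayPt → ℤ} (hx : x ∈ partO A1 A0 N C) :
    x ∈ leechLattice ∧ sqNorm x = N ∧ TT x = C ∧ ∀ i, x i % 2 = 1 := by
  obtain ⟨h1, h2⟩ := Finset.mem_filter.1 hx
  have hT : TT x = C := TT_box (fun v hv => Or.inr (hA1 v hv)) (fun v hv => Or.inr (hA0 v hv)) h1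
  have hb := mem_box.1 h1
  have he : ∀ i, x i % 2 = 1 := by
    intro i
    by_cases hi : i ∈ C
    · have := hA1 _ ((hb i).1 hi); omega
    · have := hA0 _ ((hb i).2 hi); omega
  exact ⟨mem_iff.2 ⟨hT ▸ hC, Or.inr ⟨he, odd_sum hC (fun i hi => hA1 _ ((hb i).1 hi))
    (fun i hi => hA0 _ ((hb i).2 hi)) (by rw [h2]; exact hN)⟩⟩, h2, hT, he⟩

/-- counting through the fibres of `TT` -/
theorem ncard_fibre (X : Set (GolayPt → ℤ)) (F : Finset GolayPt → Finset (GolayPt → ℤ))
    (hX : ∀ x, x ∈ X ↔ TT x ∈ Cd ∧ x ∈ F (TT x)) (hF : ∀ C ∈ Cd, ∀ x ∈ F C, TT x = C) :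
    X.ncard = ∑ C ∈ CdF, (F C).card := by
  classical
  have h1 : X = ((CdF.biUnion F : Finset (GolayPt → ℤ)) : Set (GolayPt → ℤ)) := by
    ext x
    rw [hX, Finset.mem_coe, Finset.mem_biUnion]
    constructor
    · rintro ⟨h, h'⟩; exact ⟨TT x, mem_CdF.2 h, h'⟩
    · rintro ⟨C, hC, h⟩
      have := hF C (mem_CdF.1 hC) x h
      rw [this]; exact ⟨mem_CdF.1 hC, h⟩
  rw [h1, Set.ncard_coe_finset, Finset.card_biUnion]
  intro C hC D hD hCD
  change Disjoint (F C) (F D)
  rw [Finset.disjoint_left]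
  intro x hx hy
  exact hCD ((hF C (mem_CdF.1 hC) x hx).symm.trans (hF D (mem_CdF.1 hD) x hy))

abbrev E1 : Finset ℤ := {-6, -2, 2, 6}
abbrev E0 : Finset ℤ := {-8, -4, 0, 4, 8}
abbrev O1 : Finset ℤ := {-5, -1, 3, 7}
abbrev O0 : Finset ℤ := {-7, -3, 1, 5}

theorem abs_le_8 {x : GolayPt → ℤ} {N : ℤ} (h : sqNorm x = N) (hN : N ≤ 64) (i : GolayPt) : -8 ≤ x i ∧ x i ≤ 8 := by
  have := le_sqNorm x i
  constructor <;> nlinarith

theorem mem_fibre {N : ℤ} (hN : N ≤ 64) (hN16 : N % 16 = 0) (x : GolayPt → ℤ) : (x ∈ leechLattice ∧ sqNorm x = N) ↔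
    TT x ∈ Cd ∧ (x ∈ partE E1 E0 N (TT x) ∨ x ∈ partO O1 O0 N (TT x)) := by
  constructor
  · rintro ⟨h1, h2⟩
    obtain ⟨hT, h⟩ := mem_iff.1 h1
    refine ⟨hT, ?_⟩
    rcases h with ⟨he, hs⟩ | ⟨ho, hs⟩
    · left
      refine Finset.mem_filter.2 ⟨mem_box.2 fun i => ?_, h2, hs⟩
      have h3 := abs_le_8 h2 hN i
      have h4 := he i
      constructor
      · intro hi
        have := mem_TT.1 hi
        have : x i = -6 ∨ x i = -2 ∨ x i = 2 ∨ x i = 6 := by omega
        simpa using this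
      · intro hi
        have : ¬ _ := fun h => hi (mem_TT.2 h)
        have : x i = -8 ∨ x i = -4 ∨ x i = 0 ∨ x i = 4 ∨ x i = 8 := by omega
        simpa using this
    · right
      refine Finset.mem_filter.2 ⟨mem_box.2 fun i => ?_, h2⟩
      have h3 := abs_le_8 h2 hN i
      have h4 := ho i
      constructor
      · intro hi
        have := mem_TT.1 hi
        have : x i = -5 ∨ x i = -1 ∨ x i = 3 ∨ x i = 7 := by omega
        simpa using this
      · intro hi
        have : ¬ _ := fun h => hi (mem_TT.2 h)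
        have : x i = -7 ∨ x i = -3 ∨ x i = 1 ∨ x i = 5 := by omega
        simpa using this
  · rintro ⟨hT, h | h⟩
    · have := partE_mem hT (by decide) (by decide) h
      exact ⟨this.1, this.2.1⟩
    · have := partO_mem hT (by decide) (by decide) hN16 h
      exact ⟨this.1, this.2.1⟩

/-- the value of the even part at the empty word -/
theorem partE_empty (N : ℕ) (hN : (N : ℤ) % 32 = 0) : (partE E1 E0 N ∅).card = gf E1 E0 N 0 := by
  rw [← Finset.card_empty (α := GolayPt), ← card_box_filter E1 E0 (by decide) (by decide) N ∅]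
  congr 1
  apply Finset.filter_congr
  intro x hx
  have hb := mem_box.1 hx
  have h4 : ∀ i, x i % 4 = 0 := by
    intro i
    have h : ∀ v ∈ E0, v % 4 = 0 := by decide
    exact h _ ((hb i).2 (Finset.notMem_empty _))
  constructor
  · rintro ⟨h, _⟩; exact h
  · intro h
    refine ⟨h, ?_⟩
    have hx' : x = fun i => 0 + 2 * ind ∅ i + 4 * (x i / 4) := by
      funext i; unfold ind; simp; have := h4 i; omega
    have e1 := sum_param 0 ∅ (fun i => x i / 4)
    have e2 := sqNorm_param 0 ∅ (fun i => x i / 4)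
    rw [← hx'] at e1 e2
    simp only [Finset.card_empty, Finset.sum_empty] at e1 e2
    have h5 : (∑ i, x i / 4 * (x i / 4) - ∑ i, x i / 4) % 2 = 0 := by
      rw [← Finset.sum_sub_distrib]
      apply Int.emod_eq_zero_of_dvd
      apply Finset.dvd_sum
      intro i _
      obtain ⟨e, he⟩ := Int.even_mul_pred_self (x i / 4)
      exact ⟨e, by linarith [he, mul_sub (x i / 4) (x i / 4) 1]⟩
    push_cast at e1 e2
    generalize (∑ i, x i / 4 * (x i / 4)) = a at *
    generalize (∑ i, x i / 4) = b at *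
    generalize (∑ i, x i) = c at *
    omega

theorem partE_empty_odd (N : ℤ) (hN : N % 32 = 16) : partE E1 E0 N ∅ = ∅ := by
  apply Finset.filter_eq_empty_iff.2
  rintro x hx ⟨h1, h2⟩
  have hb := mem_box.1 hx
  have h4 : ∀ i, x i % 4 = 0 := by
    intro i
    have h : ∀ v ∈ E0, v % 4 = 0 := by decide
    exact h _ ((hb i).2 (Finset.notMem_empty _))
  have hx' : x = fun i => 0 + 2 * ind ∅ i + 4 * (x i / 4) := by
    funext i; unfold ind; simp; have := h4 i; omega
  have e1 := sum_param 0 ∅ (fun i => x i / 4)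
  have e2 := sqNorm_param 0 ∅ (fun i => x i / 4)
  rw [← hx'] at e1 e2
  simp only [Finset.card_empty, Finset.sum_empty] at e1 e2
  have h5 : (∑ i, x i / 4 * (x i / 4) - ∑ i, x i / 4) % 2 = 0 := by
    rw [← Finset.sum_sub_distrib]
    apply Int.emod_eq_zero_of_dvd
    apply Finset.dvd_sum
    intro i _
    obtain ⟨e, he⟩ := Int.even_mul_pred_self (x i / 4)
    exact ⟨e, by linarith [he, mul_sub (x i / 4) (x i / 4) 1]⟩
  push_cast at e1 e2
  generalize (∑ i, x i / 4 * (x i / 4)) = a at *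
  generalize (∑ i, x i / 4) = b at *
  generalize (∑ i, x i) = c at *
  omega

/-- total count for norm `N` -/
theorem count_total (N : ℕ) (hN : N ≤ 64) (hN16 : N % 16 = 0) :
    {x : GolayPt → ℤ | x ∈ leechLattice ∧ sqNorm x = (N : ℤ)}.ncard =
      ∑ C ∈ CdF, ((partE E1 E0 N C).card + gf O1 O0 N C.card) := by
  classical
  rw [ncard_fibre _ (fun C => partE E1 E0 N C ∪ partO O1 O0 N C)]
  · apply Finset.sum_congr rfl
    intro C hC
    rw [Finset.card_union_of_disjoint, card_partO (by decide) (by decide)]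
    rw [Finset.disjoint_left]
    intro x hx hy
    have h1 := (partE_mem (mem_CdF.1 hC) (by decide) (by decide) hx).2.2.2 none
    have h2 := (partO_mem (mem_CdF.1 hC) (by decide) (by decide) (by omega) hy).2.2.2 none
    omega
  · intro x
    simp only [Finset.mem_union]
    exact mem_fibre (by omega) (by omega) x
  · intro C hC x hx
    rcases Finset.mem_union.1 hx with h | h
    · exact (partE_mem hC (by decide) (by decide) h).2.2.1
    · exact (partO_mem hC (by decide) (by decide) (by omega) h).2.2.1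

end Cfsg.Agent.H9.Leech
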