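import Cfsg.Agent.H9.Leech.Shape
set_option autoImplicit false

/-! Transitivity on the crosses. -/

namespace Cfsg.Agent.H9.Leech
open Cfsg Cfsg.Agent.H9
open scoped Pointwise

/-- equivalence of classes modulo twice the lattice -/
def EqvC (x y : GolayPt → ℤ) : Prop := y ∈ leechLattice ∧ ∃ g : Co0, ∃ y', Maps g x y' ∧ ∃ w ∈ leechLattice, y' - y = w + w

theorem Maps.exists (g : Co0) {x : GolayPt → ℤ} (hx : x ∈ leechLattice) : ∃ y, Maps g x y := ⟨_, hx, rfl⟩

theorem Maps.sub_self {g : Co0} {x y : GolayPt → ℤ} (h : Maps g x y) : x ∈ leechLattice := h.mem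

theorem Eqv.toC {x y : GolayPt → ℤ} (h : Eqv x y) : EqvC x y := by
  obtain ⟨g, hg⟩ := h
  exact ⟨hg.mem', g, y, hg, 0, leechLattice.zero_mem, by simp⟩

theorem EqvC.trans {x y z : GolayPt → ℤ} (h : EqvC x y) (h' : EqvC y z) : EqvC x z := by
  obtain ⟨hy, g, y', hg, w, hw, e⟩ := h
  obtain ⟨hz, k, z', hk, w', hw', e'⟩ := h'
  obtain ⟨kw, hkw⟩ := Maps.exists k hw
  refine ⟨hz, k * g, z' + (kw + kw), ?_, w' + kw, leechLattice.add_mem hw' hkw.mem', ?_⟩
  · have : y' = y + (w + w) := by rw [← e]; abel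
    rw [this] at hg
    exact hg.mul (hk.add (hkw.add hkw))
  · have : z' + (kw + kw) - z = (z' - z) + (kw + kw) := by abel
    rw [this, e']; abel

theorem EqvC.symm {x y : GolayPt → ℤ} (h : EqvC x y) : EqvC y x := by
  obtain ⟨hy, g, y', hg, w, hw, e⟩ := h
  obtain ⟨kw, hkw⟩ := Maps.exists g⁻¹ hw
  refine ⟨hg.mem, g⁻¹, x - (kw + kw), ?_, -kw, leechLattice.neg_mem hkw.mem', by abel⟩
  have : y = y' - (w + w) := by rw [← e]; abel
  rw [this]
  exact hg.inv.sub (hkw.add hkw)

theorem EqvC.of_cong {x y : GolayPt → ℤ} (hx : x ∈ leechLattice) (hy : y ∈ leechLattice) (h : ∃ w ∈ leechLattice, x - y = w + w) : EqvC x y :=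
  ⟨hy, 1, x, ⟨hx, by rw [one_smul]⟩, h⟩

theorem near (X : Finset GolayPt) : ∃ C ∈ Cd, (symmDiff X C).card ≤ 4 := by
  classical
  obtain ⟨C, hC, hmin⟩ := Finset.exists_min_image CdF (fun C => (symmDiff X C).card) ⟨∅, mem_CdF.2 cd_empty⟩
  refine ⟨C, mem_CdF.1 hC, ?_⟩
  by_contra hlt
  push Not at hlt
  obtain ⟨s, hs, hs5⟩ := Finset.exists_subset_card_eq (show 5 ≤ (symmDiff X C).card by omega)
  obtain ⟨O, hO, hsO⟩ := octad_through hs5
  have h1 := hmin (symmDiff C O) (mem_CdF.2 (cd_symm (mem_CdF.1 hC) hO.1))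
  have h2 : symmDiff X (symmDiff C O) = symmDiff (symmDiff X C) O := (symmDiff_assoc X C O).symm
  rw [h2] at h1
  have h3 := card_symmDiff' (symmDiff X C) O
  have h4 : s ⊆ symmDiff X C ∩ O := Finset.subset_inter hs hsO
  have h5 := Finset.card_le_card h4
  have h6 := octad_card hO
  omega

theorem near_out {O A : Finset GolayPt} (hO : O ∈ octads) (hA : Disjoint A O) (hAe : 2 ∣ A.card) :
    ∃ C ∈ Cd, (symmDiff A C \ O).card = 0 ∨ (symmDiff A C \ O).card = 2 := by
  obtain ⟨o, ho⟩ : O.Nonempty := by rw [← Finset.card_pos, octad_card hO]; norm_num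
  have hoA : o ∉ A := fun h => (Finset.disjoint_left.1 hA h) ho
  obtain ⟨C, hC, h4⟩ := near (insert o A)
  refine ⟨C, hC, ?_⟩
  have h1 : symmDiff A C \ O ⊆ symmDiff (insert o A) C := by
    intro p hp
    obtain ⟨h2, h3⟩ := Finset.mem_sdiff.1 hp
    rw [Finset.mem_symmDiff] at h2 ⊢
    have : p ≠ o := by rintro rfl; exact h3 ho
    simp only [Finset.mem_insert, this, false_or]; exact h2
  have h2 := Finset.card_le_card h1
  have h3 := card_symmDiff' (insert o A) C
  rw [Finset.card_insert_of_notMem hoA] at h3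
  have h5 := cd_dvd hC
  -- parity of the outside part
  have h6 := card_symmDiff' A C
  have h7 := Finset.card_sdiff_add_card_inter (symmDiff A C) O
  have h8 : (symmDiff A C ∩ O) = C ∩ O := by
    ext p; simp only [Finset.mem_inter, Finset.mem_symmDiff]
    constructor
    · rintro ⟨h | h, h'⟩
      · exact absurd h' (Finset.disjoint_left.1 hA h.1)
      · exact ⟨h.1, h'⟩
    · rintro ⟨h, h'⟩
      exact ⟨Or.inr ⟨h, fun hh => (Finset.disjoint_left.1 hA hh) h'⟩, h'⟩
  have h9 := cd_inter hC hO.1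
  rw [h8] at h7
  omega

theorem c16a_eq : ∀ i, vec c16av i = if i ∈ S oct0 then 0 else 2 := by decide +kernel
theorem c16b_eq : ∀ i, vec c16bv i = if i ∈ S oct0 then 0 else if i = B 6 ∨ i = pt 6 then -2 else 2 := by decide +kernel

theorem eqvE16 {x : GolayPt → ℤ} (hx : ShE 16 0 0 0 x) : Eqv x (vec c16av) ∨ Eqv x (vec c16bv) := by
  classical
  have hval : ∀ i, (i ∈ TT x → x i = 2 ∨ x i = -2) ∧ (i ∉ TT x → x i = 0) := by
    intro i
    have h4 : i ∉ AK x 4 := by rw [Finset.card_eq_zero.1 hx.n4]; simp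
    have h6 : i ∉ AK x 6 := by rw [Finset.card_eq_zero.1 hx.n6]; simp
    have h8 : i ∉ AK x 8 := by rw [Finset.card_eq_zero.1 hx.n8]; simp
    rw [mem_AK] at h4 h6 h8
    rw [TT_even hx.even]
    rcases abs_even hx.le hx.even i with h | h | h | h | h
    · rw [h]; exact ⟨fun h' => absurd h' (by norm_num), fun _ => abs_eq_zero.1 h⟩
    · rw [h]; exact ⟨fun _ => (abs_eq (by norm_num)).1 h, fun h' => absurd rfl h'⟩
    · exact absurd h h4
    · exact absurd h h6
    · exact absurd h h8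
  obtain ⟨O, hO⟩ : ∃ O : Finset GolayPt, O = (TT x)ᶜ := ⟨_, rfl⟩
  have hOo : O ∈ octads := by
    refine ⟨by rw [hO]; exact cd_compl (mem_iff.1 hx.mem).1, ?_⟩
    rw [hO, Finset.card_compl, hx.nT, card_pt]
  have hmO : ∀ i, i ∈ O ↔ i ∉ TT x := by intro i; rw [hO, Finset.mem_compl]
  obtain ⟨A, hA⟩ : ∃ A : Finset GolayPt, A = Finset.univ.filter fun i => x i = -2 := ⟨_, rfl⟩
  have hmA : ∀ i, i ∈ A ↔ x i = -2 := by intro i; rw [hA]; simp
  have hdis : Disjoint A O := by
    rw [Finset.disjoint_left]; intro i h1 h2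
    have := (hval i).2 ((hmO i).1 h2)
    have := (hmA i).1 h1
    omega
  have hAe : 2 ∣ A.card := by
    have hs : (∑ i, x i) % 8 = 0 := by
      rcases (mem_iff.1 hx.mem).2 with ⟨_, h⟩ | ⟨h, _⟩
      · exact h
      · have h1 := h none
        have h2 := hx.even none
        omega
    have h1 : ∀ i, x i = 2 * ind (TT x) i - 4 * ind A i := by
      intro i; unfold ind
      by_cases h1 : i ∈ TT x
      · rcases (hval i).1 h1 with h | h
        · have : i ∉ A := by rw [hmA]; omega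
          rw [if_pos h1, if_neg this]; omega
        · have : i ∈ A := by rw [hmA]; omega
          rw [if_pos h1, if_pos this]; omega
      · have h2 := (hval i).2 h1
        have : i ∉ A := by rw [hmA]; omega
        rw [if_neg h1, if_neg this]; omega
    rw [Finset.sum_congr rfl (fun i _ => h1 i), Finset.sum_sub_distrib, ← Finset.mul_sum, ← Finset.mul_sum, sum_ind, sum_ind, hx.nT] at hs
    omega
  obtain ⟨C, hC, hcase⟩ := near_out hOo hdis hAe
  have hstep : Eqv x (signedPerm 1 C x) := ⟨_, mono_maps M24.one_mem hC hx.mem⟩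
  have hv : ∀ i, signedPerm 1 C x i = if i ∈ O then 0 else if i ∈ symmDiff A C \ O then -2 else 2 := by
    intro i
    have e1 : (1 : Equiv.Perm GolayPt).symm i = i := rfl
    simp only [signedPerm, e1, Finset.mem_sdiff, Finset.mem_symmDiff, hmA, hmO]
    by_cases h1 : i ∈ TT x
    · rcases (hval i).1 h1 with h | h <;> by_cases h2 : i ∈ C <;> simp [h1, h, h2]
    · have := (hval i).2 h1
      by_cases h2 : i ∈ C <;> simp [h1, this, h2]
  rcases hcase with h0 | h2
  · left
    obtain ⟨g, hg, hgO⟩ := octad_trans hOo oct0_mem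
    have h3 := perm_eqv hg hstep.mem'
    refine hstep.trans ?_
    convert h3 using 1
    funext i
    rw [c16a_eq, hv, Finset.card_eq_zero.1 h0]
    have := mem_smul_iff' hgO (g.symm i)
    rw [Equiv.apply_symm_apply] at this
    by_cases h : i ∈ S oct0
    · rw [if_pos h, if_pos (this.2 h)]
    · rw [if_neg h, if_neg (fun h' => h (this.1 h')), if_neg (Finset.notMem_empty _)]
  · right
    obtain ⟨p, q, hpq, hs⟩ := Finset.card_eq_two.1 h2
    have hp : p ∉ O := (Finset.mem_sdiff.1 (show p ∈ symmDiff A C \ O by rw [hs]; simp)).2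
    have hq : q ∉ O := (Finset.mem_sdiff.1 (show q ∈ symmDiff A C \ O by rw [hs]; simp)).2
    obtain ⟨g, hg, hgO, hgp, hgq⟩ := oct_out2_trans hOo oct0_mem hp (p' := B 6) B6_notMem hq (q' := pt 6)
      (by rw [mem_S_pt (by norm_num)]; decide +kernel) (Ne.symm hpq) (by decide +kernel)
    have h3 := perm_eqv hg hstep.mem'
    refine hstep.trans ?_
    convert h3 using 1
    funext i
    rw [c16b_eq, hv, hs]
    have := mem_smul_iff' hgO (g.symm i)
    rw [Equiv.apply_symm_apply] at this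
    have e1 : g.symm i = p ↔ i = B 6 := by rw [← hgp]; exact ⟨fun h => by rw [← h]; simp, fun h => by rw [h]; simp⟩
    have e2 : g.symm i = q ↔ i = pt 6 := by rw [← hgq]; exact ⟨fun h => by rw [← h]; simp, fun h => by rw [h]; simp⟩
    by_cases h : i ∈ S oct0
    · rw [if_pos h, if_pos (this.2 h)]
    · rw [if_neg h, if_neg (fun h' => h (this.1 h'))]
      simp only [Finset.mem_insert, Finset.mem_singleton, e1, e2]

theorem s64a : bE 0 0 0 1 e64av = true := by decide +kernel
theorem s64a' : bE 0 4 0 0 e64aw = true := by decide +kernel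
theorem s64b : bE 8 0 1 0 e64bv = true := by decide +kernel
theorem s64b' : bE 0 4 0 0 e64bw = true := by decide +kernel
theorem s64c : bE 8 2 0 0 e64cv = true := by decide +kernel
theorem s64c' : bE 0 4 0 0 e64cw = true := by decide +kernel
theorem s64d : bE 12 1 0 0 e64dv = true := by decide +kernel
theorem s64d' : bE 8 2 0 0 e64dw = true := by decide +kernel
theorem s64e : bO 2 1 e64ev = true := by decide +kernel
theorem s64e' : bE 8 0 1 0 e64ew = true := by decide +kernel
theorem sc35 : bO 5 0 c35v = true := by decide +kernel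
theorem sc35' : bO 2 1 c35w = true := by decide +kernel
theorem sc16a' : bE 8 0 1 0 c16aw = true := by decide +kernel
theorem sc16b' : bE 8 2 0 0 c16bw = true := by decide +kernel

theorem trans64 {x : GolayPt → ℤ} (hx : x ∈ leechLattice) (hn : sqNorm x = 64) : EqvC x (vec e64av) := by
  have ea := xi_of_chk e64a_ok
  have eb := xi_of_chk e64b_ok
  have ec := xi_of_chk e64c_ok
  have ed := xi_of_chk e64d_ok
  have ee := xi_of_chk e64e_ok
  have k4 : ∀ y, ShE 0 4 0 0 y → EqvC y (vec e64av) := fun y h =>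
    ((eqvE0 (by norm_num) h (bE_spec s64a' ea.mem')).trans (Eqv.symm ⟨_, ea⟩)).toC
  have k6 : ∀ y, ShE 8 0 1 0 y → EqvC y (vec e64av) := fun y h =>
    ((eqvE_oct6 h (bE_spec s64b eb.mem)).trans ⟨_, eb⟩).toC.trans (k4 _ (bE_spec s64b' eb.mem'))
  have k44 : ∀ y, ShE 8 2 0 0 y → EqvC y (vec e64av) := fun y h =>
    ((eqvE_oct44 h (bE_spec s64c ec.mem)).trans ⟨_, ec⟩).toC.trans (k4 _ (bE_spec s64c' ec.mem'))
  have k12 : ∀ y, ShE 12 1 0 0 y → EqvC y (vec e64av) := fun y h =>
    ((eqvE_dod4 h (bE_spec s64d ed.mem)).trans ⟨_, ed⟩).toC.trans (k44 _ (bE_spec s64d' ed.mem'))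
  have k21 : ∀ y, ShO 2 1 y → EqvC y (vec e64av) := fun y h =>
    ((eqvO1 (by norm_num) h (bO_spec s64e ee.mem)).trans ⟨_, ee⟩).toC.trans (k6 _ (bE_spec s64e' ee.mem'))
  rcases shapes64 hx hn with h | h | h | h | h | h | h | h
  · obtain ⟨m1, m2, hc⟩ := cong_of_chk c35_ok
    exact ((eqvO0 (by norm_num) h (bO_spec sc35 m1)).toC.trans (EqvC.of_cong m1 m2 hc)).trans (k21 _ (bO_spec sc35' m2))
  · exact k21 _ h
  · exact (eqvE8 h (bE_spec s64a ea.mem)).toC
  · exact k4 _ h
  · exact k6 _ h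
  · exact k44 _ h
  · exact k12 _ h
  · rcases eqvE16 h with h' | h'
    · obtain ⟨m1, m2, hc⟩ := cong_of_chk c16a_ok
      exact (h'.toC.trans (EqvC.of_cong m1 m2 hc)).trans (k6 _ (bE_spec sc16a' m2))
    · obtain ⟨m1, m2, hc⟩ := cong_of_chk c16b_ok
      exact (h'.toC.trans (EqvC.of_cong m1 m2 hc)).trans (k44 _ (bE_spec sc16b' m2))

theorem trans64' {x y : GolayPt → ℤ} (hx : x ∈ leechLattice) (hn : sqNorm x = 64) (hy : y ∈ leechLattice) (hny : sqNorm y = 64) :
    EqvC x y := (trans64 hx hn).trans (trans64 hy hny).symm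

end Cfsg.Agent.H9.Leech
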