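import Cfsg.Agent.H9.Leech.Quot
set_option autoImplicit false

/-! Elements of the automorphism group of the lattice. -/

namespace Cfsg.Agent.H9.Leech
open Cfsg Cfsg.Agent.H9
open scoped Pointwise

/-- induction principle with few generators -/
theorem gen_ind2 (K : AddSubgroup (GolayPt → ℤ))
    (h2 : ∀ p : GolayPt, Pi.single p 4 - Pi.single none 4 ∈ K) (h8 : Pi.single none 8 ∈ K)
    (h3 : ∀ i < 12, (fun j => 2 * ind (S (enc (2 ^ i))) j) ∈ K)
    (h4 : (fun i => 1 - (Pi.single none 4 : GolayPt → ℤ) i) ∈ K) : leechLattice ≤ K := by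
  have h4z : ∀ z : GolayPt → ℤ, (∑ i, z i) % 2 = 0 → (fun i => 4 * z i) ∈ K := by
    intro z hz
    have e1 : (fun i => 4 * z i) = ∑ p, (z p) • (Pi.single p 4 - Pi.single none 4 : GolayPt → ℤ) + ((∑ i, z i) / 2) • (Pi.single none 8) := by
      funext i
      rw [Pi.add_apply, Finset.sum_apply]
      simp only [Pi.smul_apply, Pi.sub_apply, single_apply', smul_eq_mul, mul_sub, Finset.sum_sub_distrib]
      have e2 : ∑ x, z x * (if i = x then 4 else 0) = 4 * z i := by
        simp only [mul_ite, mul_zero, Finset.sum_ite_eq, Finset.mem_univ, if_true]; ring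
      rw [e2]
      by_cases hi : i = none
      · simp only [hi, if_true, ← Finset.sum_mul]; omega
      · simp only [hi, if_false, mul_zero, Finset.sum_const_zero]; ring
    rw [e1]
    refine K.add_mem (K.sum_mem fun p _ => ?_) (K.zsmul_mem h8 _)
    exact K.zsmul_mem (h2 p) _
  -- the code words
  let D : Submodule (ZMod 2) (GolayPt → ZMod 2) :=
    { carrier := {w | (fun i => 2 * ind (support₂ w) i) ∈ K ∧ Even (support₂ w).card ∧ w ∈ golayCode}
      zero_mem' := by
        refine ⟨?_, ?_, golayCode.zero_mem⟩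
        · have : (fun i => 2 * ind (support₂ (0 : GolayPt → ZMod 2)) i) = 0 := by
            funext i; simp [ind, support₂]
          rw [this]; exact K.zero_mem
        · simp [support₂]
      add_mem' := by
        rintro a b ⟨ha, ha2, ha3⟩ ⟨hb, hb2, hb3⟩
        have hs : support₂ (a + b) = symmDiff (support₂ a) (support₂ b) := by
          obtain ⟨k, hk, rfl⟩ := mem_golay_iff.1 ha3
          obtain ⟨l, hl, rfl⟩ := mem_golay_iff.1 hb3
          rw [← wd_xor, support_wd, support_wd, support_wd, S_xor]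
        have hca : support₂ a ∈ Cd := ⟨a, ha3, rfl⟩
        have hcb : support₂ b ∈ Cd := ⟨b, hb3, rfl⟩
        refine ⟨?_, ?_, golayCode.add_mem ha3 hb3⟩
        · have : (fun i => 2 * ind (support₂ (a + b)) i) = (fun i => 2 * ind (support₂ a) i) + (fun i => 2 * ind (support₂ b) i)
              - (fun i => 4 * ind (support₂ a ∩ support₂ b) i) := by
            funext i
            rw [hs]
            have := ind_add (support₂ a) (support₂ b) i
            simp only [Pi.add_apply, Pi.sub_apply]; linarith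
          rw [this]
          refine K.sub_mem (K.add_mem ha hb) (h4z _ ?_)
          rw [sum_ind]
          have := cd_inter hca hcb
          omega
        · have := cd_dvd (cd_symm hca hcb)
          rw [hs]; rw [even_iff_two_dvd]; omega
      smul_mem' := by
        rintro c a ⟨ha, ha2, ha3⟩
        have : c = 0 ∨ c = 1 := by revert c; decide
        rcases this with rfl | rfl
        · rw [zero_smul]
          refine ⟨?_, ?_, golayCode.zero_mem⟩
          · have : (fun i => 2 * ind (support₂ (0 : GolayPt → ZMod 2)) i) = 0 := by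
              funext i; simp [ind, support₂]
            rw [this]; exact K.zero_mem
          · simp [support₂]
        · rw [one_smul]; exact ⟨ha, ha2, ha3⟩ }
  have hD : ∀ k < 4096, wd (enc k) ∈ D := by
    intro k hk
    apply enc_mem_of D _ hk
    intro i hi
    have h8' : allN (fun i => Nat.beq (pc (enc (2 ^ i))) 8) 12 = true := by decide +kernel
    have h8 : pc (enc (2 ^ i)) = 8 := Nat.eq_of_beq_eq_true ((allN_iff _ _).1 h8' i hi)
    refine ⟨?_, ?_, basis_mem hi⟩
    · rw [support_wd]; exact h3 i hi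
    · rw [support_wd, card_S, h8]; decide
  intro x hx
  obtain ⟨m, C, z, hC, h5, rfl⟩ := param hx
  have hCK : (fun i => 2 * ind C i) ∈ K := by
    obtain ⟨k, hk, rfl⟩ := mem_supports_iff.1 hC
    have := (hD k hk).1
    rwa [support_wd] at this
  have e1 : (fun i => m + 2 * ind C i + 4 * z i) = m • (fun i => 1 - (Pi.single none 4 : GolayPt → ℤ) i) + (fun i => 2 * ind C i) +
      fun i => 4 * (z i + m * (if i = none then 1 else 0)) := by
    funext i
    simp only [Pi.add_apply, Pi.smul_apply, smul_eq_mul, single_apply']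
    split_ifs <;> ring
  rw [e1]
  refine K.add_mem (K.add_mem (K.zsmul_mem h4 _) hCK) (h4z _ ?_)
  rw [Finset.sum_add_distrib, ← Finset.mul_sum]
  simp only [Finset.sum_ite_eq', Finset.mem_univ, if_true, mul_one]
  exact h5


/-! ### constructing automorphisms -/

/-- `g` maps the lattice vector `x` to `y` -/
def Maps (g : Co0) (x y : GolayPt → ℤ) : Prop := ∃ h : x ∈ leechLattice, ((g • (⟨x, h⟩ : leechLattice) : leechLattice) : GolayPt → ℤ) = y

theorem Maps.mem {g : Co0} {x y : GolayPt → ℤ} (h : Maps g x y) : x ∈ leechLattice := h.1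
theorem Maps.mem' {g : Co0} {x y : GolayPt → ℤ} (h : Maps g x y) : y ∈ leechLattice := by
  obtain ⟨h1, h2⟩ := h; rw [← h2]; exact Subtype.coe_prop _

theorem Maps.mul {g h : Co0} {x y z : GolayPt → ℤ} (h1 : Maps g x y) (h2 : Maps h y z) : Maps (h * g) x z := by
  obtain ⟨a, ha⟩ := h1
  obtain ⟨b, hb⟩ := h2
  refine ⟨a, ?_⟩
  rw [mul_smul]
  have : g • (⟨x, a⟩ : leechLattice) = ⟨y, b⟩ := Subtype.ext ha
  rw [this]; exact hb

theorem Maps.inv {g : Co0} {x y : GolayPt → ℤ} (h1 : Maps g x y) : Maps g⁻¹ y x := by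
  have h2 := h1.mem'
  obtain ⟨a, ha⟩ := h1
  refine ⟨h2, ?_⟩
  have : g • (⟨x, a⟩ : leechLattice) = ⟨y, h2⟩ := Subtype.ext ha
  rw [← this, inv_smul_smul]

theorem maps_smul (g : Co0) (v : leechLattice) : Maps g v ((g • v : leechLattice) : GolayPt → ℤ) := ⟨v.2, rfl⟩

theorem Maps.eq {g : Co0} {v : leechLattice} {y : GolayPt → ℤ} (h : Maps g v y) : ((g • v : leechLattice) : GolayPt → ℤ) = y := h.2

theorem smul_add' (g : Co0) (v w : leechLattice) : g • (v + w) = g • v + g • w := g.2.1 v w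

theorem sqNorm_smul (g : Co0) (v : leechLattice) : sqNorm ((g • v : leechLattice) : GolayPt → ℤ) = sqNorm (v : GolayPt → ℤ) := g.2.2 v

theorem Maps.norm {g : Co0} {x y : GolayPt → ℤ} (h : Maps g x y) : sqNorm y = sqNorm x := by
  obtain ⟨a, ha⟩ := h
  rw [← ha, sqNorm_smul]

theorem Maps.add {g : Co0} {x y x' y' : GolayPt → ℤ} (h : Maps g x y) (h' : Maps g x' y') : Maps g (x + x') (y + y') := by
  obtain ⟨a, ha⟩ := h
  obtain ⟨b, hb⟩ := h'
  refine ⟨leechLattice.add_mem a b, ?_⟩
  have : (⟨x + x', leechLattice.add_mem a b⟩ : leechLattice) = ⟨x, a⟩ + ⟨x', b⟩ := rfl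
  rw [this, smul_add']
  change _ + _ = _
  rw [ha, hb]

theorem Maps.unique {g : Co0} {x y y' : GolayPt → ℤ} (h : Maps g x y) (h' : Maps g x y') : y = y' := by
  obtain ⟨_, ha⟩ := h
  obtain ⟨_, hb⟩ := h'
  rw [← ha, ← hb]

theorem smul_neg' (g : Co0) (v : leechLattice) : g • (-v) = -(g • v) := by
  have h : g • (0 : leechLattice) = 0 := by
    have := smul_add' g 0 0
    rw [add_zero] at this
    exact left_eq_add.1 this
  have := smul_add' g (-v) v
  rw [neg_add_cancel, h] at this
  exact eq_neg_of_add_eq_zero_left this.symm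

theorem Maps.neg {g : Co0} {x y : GolayPt → ℤ} (h : Maps g x y) : Maps g (-x) (-y) := by
  obtain ⟨a, ha⟩ := h
  refine ⟨leechLattice.neg_mem a, ?_⟩
  have : (⟨-x, leechLattice.neg_mem a⟩ : leechLattice) = -⟨x, a⟩ := rfl
  rw [this, smul_neg']
  change -_ = _
  rw [ha]

theorem Maps.sub {g : Co0} {x y x' y' : GolayPt → ℤ} (h : Maps g x y) (h' : Maps g x' y') : Maps g (x - x') (y - y') := by
  rw [sub_eq_add_neg, sub_eq_add_neg]; exact h.add h'.neg

theorem Maps.dot {g : Co0} {x y x' y' : GolayPt → ℤ} (h : Maps g x y) (h' : Maps g x' y') : dotInt y y' = dotInt x x' := by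
  have h1 := (h.add h').norm
  have h2 := h.norm
  have h3 := h'.norm
  rw [sqNorm_add, sqNorm_add] at h1
  omega

/-- automorphism from a pair of mutually inverse maps -/
noncomputable def mkCo0 (f g : (GolayPt → ℤ) → (GolayPt → ℤ)) (hf : ∀ x ∈ leechLattice, f x ∈ leechLattice)
    (hg : ∀ x ∈ leechLattice, g x ∈ leechLattice) (hgf : ∀ x ∈ leechLattice, g (f x) = x) (hfg : ∀ x ∈ leechLattice, f (g x) = x)
    (hadd : ∀ x ∈ leechLattice, ∀ y ∈ leechLattice, f (x + y) = f x + f y)
    (hn : ∀ x ∈ leechLattice, sqNorm (f x) = sqNorm x) : Co0 :=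
  ⟨{ toFun := fun v => ⟨f v, hf v v.2⟩
     invFun := fun v => ⟨g v, hg v v.2⟩
     left_inv := fun v => Subtype.ext (hgf v v.2)
     right_inv := fun v => Subtype.ext (hfg v v.2) },
   ⟨fun v w => Subtype.ext (hadd v v.2 w w.2), fun v => hn v v.2⟩⟩

theorem mkCo0_maps (f g : (GolayPt → ℤ) → (GolayPt → ℤ)) (hf : ∀ x ∈ leechLattice, f x ∈ leechLattice)
    (hg : ∀ x ∈ leechLattice, g x ∈ leechLattice) (hgf : ∀ x ∈ leechLattice, g (f x) = x) (hfg : ∀ x ∈ leechLattice, f (g x) = x)
    (hadd : ∀ x ∈ leechLattice, ∀ y ∈ leechLattice, f (x + y) = f x + f y)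
    (hn : ∀ x ∈ leechLattice, sqNorm (f x) = sqNorm x) {x : GolayPt → ℤ} (hx : x ∈ leechLattice) :
    Maps (mkCo0 f g hf hg hgf hfg hadd hn) x (f x) := ⟨hx, rfl⟩

theorem signedPerm_add (σ : Equiv.Perm GolayPt) (c : Finset GolayPt) (x y : GolayPt → ℤ) :
    signedPerm σ c (x + y) = signedPerm σ c x + signedPerm σ c y := by
  funext i; unfold signedPerm; simp only [Pi.add_apply]; split_ifs <;> ring

theorem signedPerm_inv (σ : Equiv.Perm GolayPt) (c : Finset GolayPt) (x : GolayPt → ℤ) :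
    signedPerm σ⁻¹ (σ⁻¹ • c) (signedPerm σ c x) = x := by
  funext i
  unfold signedPerm
  have h1 : (i ∈ σ⁻¹ • c) ↔ σ i ∈ c := mem_smul_fin
  have h2 : (σ⁻¹ : Equiv.Perm GolayPt).symm i = σ i := rfl
  rw [h2]
  by_cases h : σ i ∈ c
  · rw [if_pos (h1.2 h), if_pos h]; simp
  · rw [if_neg (fun h' => h (h1.1 h')), if_neg h]; simp

theorem signedPerm_inv' (σ : Equiv.Perm GolayPt) (c : Finset GolayPt) (x : GolayPt → ℤ) :
    signedPerm σ c (signedPerm σ⁻¹ (σ⁻¹ • c) x) = x := by
  have := signedPerm_inv σ⁻¹ (σ⁻¹ • c) x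
  rw [inv_inv, smul_inv_smul] at this
  exact this

/-- the monomial automorphisms -/
noncomputable def mono (σ : Equiv.Perm GolayPt) (hσ : σ ∈ M24) (c : Finset GolayPt) (hc : c ∈ Cd) : Co0 :=
  mkCo0 (signedPerm σ c) (signedPerm σ⁻¹ (σ⁻¹ • c)) (fun _ hx => signedPerm_mem hσ hc hx)
    (fun _ hx => signedPerm_mem (M24.inv_mem hσ) ((M24_cd (M24.inv_mem hσ)).2 hc) hx)
    (fun x _ => signedPerm_inv σ c x) (fun x _ => signedPerm_inv' σ c x) (fun x _ y _ => signedPerm_add σ c x y)
    (fun x _ => sqNorm_signedPerm σ c x)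

theorem mono_maps {σ : Equiv.Perm GolayPt} (hσ : σ ∈ M24) {c : Finset GolayPt} (hc : c ∈ Cd) {x : GolayPt → ℤ}
    (hx : x ∈ leechLattice) : Maps (mono σ hσ c hc) x (signedPerm σ c x) := mkCo0_maps _ _ _ _ _ _ _ _ hx

/-! ### symmetric matrices with square 4 -/

def mv (M : GolayPt → GolayPt → ℤ) (x : GolayPt → ℤ) : GolayPt → ℤ := fun p => ∑ q, M p q * x q
def hf (x : GolayPt → ℤ) : GolayPt → ℤ := fun p => x p / 2

theorem mv_add (M : GolayPt → GolayPt → ℤ) (x y : GolayPt → ℤ) : mv M (x + y) = mv M x + mv M y := by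
  funext p; simp only [mv, Pi.add_apply, mul_add, Finset.sum_add_distrib]

def mvHom (M : GolayPt → GolayPt → ℤ) : (GolayPt → ℤ) →+ (GolayPt → ℤ) := AddMonoidHom.mk' (mv M) (mv_add M)

structure IsSym (M : GolayPt → GolayPt → ℤ) : Prop where
  symm : ∀ p q, M p q = M q p
  sq : ∀ p q, ∑ r, M p r * M r q = if p = q then 4 else 0
  map : ∀ x ∈ leechLattice, ∃ y ∈ leechLattice, mv M x = y + y

theorem IsSym.mv_mv {M : GolayPt → GolayPt → ℤ} (h : IsSym M) (x : GolayPt → ℤ) : mv M (mv M x) = fun p => 4 * x p := by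
  funext p
  simp only [mv, Finset.mul_sum]
  rw [Finset.sum_comm]
  have : ∀ r, ∑ q, M p q * (M q r * x r) = (if p = r then 4 else 0) * x r := by
    intro r; rw [← h.sq p r, Finset.sum_mul]; exact Finset.sum_congr rfl fun _ _ => by ring
  rw [Finset.sum_congr rfl (fun r _ => this r)]
  simp

theorem IsSym.dot {M : GolayPt → GolayPt → ℤ} (h : IsSym M) (x y : GolayPt → ℤ) : dotInt (mv M x) y = dotInt x (mv M y) := by
  simp only [dotInt, mv, Finset.mul_sum, Finset.sum_mul]
  rw [Finset.sum_comm]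
  refine Finset.sum_congr rfl fun p _ => Finset.sum_congr rfl fun q _ => ?_
  rw [h.symm q p]; ring

theorem IsSym.hf_mem {M : GolayPt → GolayPt → ℤ} (h : IsSym M) {x : GolayPt → ℤ} (hx : x ∈ leechLattice) :
    hf (mv M x) ∈ leechLattice ∧ mv M x = hf (mv M x) + hf (mv M x) := by
  obtain ⟨y, hy, h1⟩ := h.map x hx
  have : hf (mv M x) = y := by
    funext p
    have := congrFun h1 p
    simp only [Pi.add_apply] at this
    unfold hf
    omega
  rw [this]; exact ⟨hy, h1⟩

theorem IsSym.inv {M : GolayPt → GolayPt → ℤ} (h : IsSym M) {x : GolayPt → ℤ} (hx : x ∈ leechLattice) :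
    hf (mv M (hf (mv M x))) = x := by
  obtain ⟨h1, h2⟩ := h.hf_mem hx
  obtain ⟨h3, h4⟩ := h.hf_mem h1
  have h5 := h.mv_mv x
  rw [h2, mv_add, h4] at h5
  funext p
  have := congrFun h5 p
  simp only [Pi.add_apply] at this
  omega

noncomputable def symCo0 (M : GolayPt → GolayPt → ℤ) (h : IsSym M) : Co0 :=
  mkCo0 (fun x => hf (mv M x)) (fun x => hf (mv M x)) (fun _ hx => (h.hf_mem hx).1) (fun _ hx => (h.hf_mem hx).1)
    (fun _ hx => h.inv hx) (fun _ hx => h.inv hx)
    (fun x hx y hy => by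
      have h1 := (h.hf_mem hx).2
      have h2 := (h.hf_mem hy).2
      have h3 := (h.hf_mem (leechLattice.add_mem hx hy)).2
      rw [mv_add] at h3
      funext p
      have e1 := congrFun h1 p
      have e2 := congrFun h2 p
      have e3 := congrFun h3 p
      rw [← mv_add] at e3
      have e4 := congrFun (mv_add M x y) p
      simp only [Pi.add_apply] at e1 e2 e3 e4 ⊢
      omega)
    (fun x hx => by
      have h1 := (h.hf_mem hx).2
      have h2 : dotInt (mv M x) (mv M x) = 4 * sqNorm x := by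
        rw [h.dot, h.mv_mv, ← dotInt_self]
        simp only [dotInt, Finset.mul_sum]
        exact Finset.sum_congr rfl fun _ _ => by ring
      rw [dotInt_self, h1, sqNorm_add, dotInt_self] at h2
      omega)

theorem sym_maps {M : GolayPt → GolayPt → ℤ} (h : IsSym M) {x : GolayPt → ℤ} (hx : x ∈ leechLattice) :
    Maps (symCo0 M h) x (hf (mv M x)) := mkCo0_maps _ _ _ _ _ _ _ _ hx

/-! ### the standard element -/

/-- tetrad number of a point -/
def tet (p : GolayPt) : ℕ := lookW 4 15 0x235545244251313413210000 (idx p)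

def xiM (p q : GolayPt) : ℤ := if tet p = tet q then (if tet p = 0 then -1 else 1) * (if p = q then -1 else 1) else 0

theorem xiM_symm : ∀ p q, xiM p q = xiM q p := by decide +kernel
theorem xiM_sq : ∀ p q, ∑ r, xiM p r * xiM r q = if p = q then 4 else 0 := by decide +kernel

end Cfsg.Agent.H9.Leech
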