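import Cfsg.Agent.H9.Leech.Hs2
set_option autoImplicit false

/-! Transitivity on the configurations. -/

namespace Cfsg.Agent.H9.Leech
open Cfsg Cfsg.Agent.H9
open scoped Pointwise

theorem norm3 {u s x : leechLattice} (hu : sqNorm (u : GolayPt → ℤ) = 48) (hs : sqNorm (s : GolayPt → ℤ) = 32) (hx : sqNorm (x : GolayPt → ℤ) = 32)
    (h : E3 u s x 40 32 32) : ∃ g : Co0, ((g • u : leechLattice) : GolayPt → ℤ) none = 5 ∧
      (∀ i, i ≠ none → ((g • u : leechLattice) : GolayPt → ℤ) i = 1 ∨ ((g • u : leechLattice) : GolayPt → ℤ) i = -1) ∧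
      ∃ j, j ≠ none ∧ ∃ δ : ℤ, (δ = 1 ∨ δ = -1) ∧ Sh (g • s) j δ ∧ ∃ k, k ≠ none ∧ ∃ ε : ℤ, (ε = 1 ∨ ε = -1) ∧ Sh (g • x) k ε := by
  obtain ⟨f, hf, h1, h2, h3⟩ := h
  obtain ⟨g, hg⟩ := T64 f hf
  have e1 := dot_smul g u f
  have e2 := dot_smul g s f
  have e3 := dot_smul g x f
  rw [hg, dot_e8] at e1 e2 e3
  obtain ⟨j, hj, δ, hδ, hsj⟩ := sh_of (v := g • s) (by rw [sqNorm_smul, hs]) (by omega)
  obtain ⟨k, hk, ε, hε, hsk⟩ := sh_of (v := g • x) (by rw [sqNorm_smul, hx]) (by omega)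
  have h5 : ((g • u : leechLattice) : GolayPt → ℤ) none = 5 := by omega
  exact ⟨g, h5, five_shape (by rw [sqNorm_smul, hu]) h5, j, hj, δ, hδ, hsj, k, hk, ε, hε, hsk⟩

theorem sh_sh {s x : leechLattice} {j k : GolayPt} {δ ε : ℤ} (hj : j ≠ none) (hk : k ≠ none) (hs : Sh s j δ) (hx : Sh x k ε) :
    dotInt (s : GolayPt → ℤ) (x : GolayPt → ℤ) = 16 + if k = j then 16 * δ * ε else 0 := by
  rw [hx.dot hk, hs none, if_pos rfl, hs k, if_neg hk]
  split_ifs <;> ring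

theorem joint {u s x u' s' x' : leechLattice} (hu : sqNorm (u : GolayPt → ℤ) = 48) (hs : sqNorm (s : GolayPt → ℤ) = 32) (hx : sqNorm (x : GolayPt → ℤ) = 32)
    (hu' : sqNorm (u' : GolayPt → ℤ) = 48) (hs' : sqNorm (s' : GolayPt → ℤ) = 32) (hx' : sqNorm (x' : GolayPt → ℤ) = 32)
    (h : E3 u s x 40 32 32) (h' : E3 u' s' x' 40 32 32)
    (d1 : dotInt (u : GolayPt → ℤ) (s : GolayPt → ℤ) = dotInt (u' : GolayPt → ℤ) (s' : GolayPt → ℤ))
    (d2 : dotInt (u : GolayPt → ℤ) (x : GolayPt → ℤ) = dotInt (u' : GolayPt → ℤ) (x' : GolayPt → ℤ))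
    (d3 : dotInt (s : GolayPt → ℤ) (x : GolayPt → ℤ) = dotInt (s' : GolayPt → ℤ) (x' : GolayPt → ℤ)) :
    ∃ g : Co0, g • u = u' ∧ g • s = s' ∧ g • x = x' := by
  obtain ⟨g, g5, g1, j, hj, δ, hδ, hsj, k, hk, ε, hε, hsk⟩ := norm3 hu hs hx h
  obtain ⟨g', g5', g1', j', hj', δ', hδ', hsj', k', hk', ε', hε', hsk'⟩ := norm3 hu' hs' hx' h'
  have e1 := sh_sh hj hk hsj hsk
  have e2 := sh_sh hj' hk' hsj' hsk'
  rw [dot_smul] at e1 e2
  have hjk : k = j ↔ k' = j' := by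
    rw [d3, e2] at e1
    by_cases h1 : k = j <;> by_cases h2 : k' = j'
    · simp [h1, h2]
    · rw [if_pos h1, if_neg h2] at e1
      rcases hδ with rfl | rfl <;> rcases hε with rfl | rfl <;> omega
    · rw [if_neg h1, if_pos h2] at e1
      rcases hδ' with rfl | rfl <;> rcases hε' with rfl | rfl <;> omega
    · simp [h1, h2]
  obtain ⟨σ, hσ, h0, hσj, hσk⟩ : ∃ σ ∈ M24, σ none = none ∧ σ j = j' ∧ σ k = k' := by
    by_cases h1 : k = j
    · obtain ⟨σ, hσ, hσi⟩ := m24_transOn [none, j] [none, j'] (by simp [hj.symm]) (by simp [hj'.symm]) rfl (by simp)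
        (fun _ _ => Finset.mem_univ _) (fun _ _ => Finset.mem_univ _)
      simp only [List.map_cons, List.map_nil, List.cons.injEq, and_true] at hσi
      refine ⟨σ, hσ, hσi.1, hσi.2, ?_⟩
      rw [h1, hjk.1 h1]; exact hσi.2
    · have h2 : k' ≠ j' := fun h => h1 (hjk.2 h)
      obtain ⟨σ, hσ, hσi⟩ := m24_transOn [none, j, k] [none, j', k'] (by simp [hj.symm, hk.symm, Ne.symm h1]) (by simp [hj'.symm, hk'.symm, h2.symm]) rfl (by simp)
        (fun _ _ => Finset.mem_univ _) (fun _ _ => Finset.mem_univ _)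
      simp only [List.map_cons, List.map_nil, List.cons.injEq, and_true] at hσi
      exact ⟨σ, hσ, hσi.1, hσi.2.1, hσi.2.2⟩
  obtain ⟨c, hc, hm⟩ := match48 g5 g1 g5' g1' hσ h0
  have m1 := finish g5 g1 g5' g1' hsj hsj' hj hj' hδ hδ' (by rw [dot_smul, dot_smul, d1]) hσ h0 hσj hc hm
  have m2 := finish g5 g1 g5' g1' hsk hsk' hk hk' hε hε' (by rw [dot_smul, dot_smul, d2]) hσ h0 hσk hc hm
  refine ⟨g'⁻¹ * (mono 1 M24.one_mem c hc * (mono σ hσ ∅ cd_empty * g)), ?_, ?_, ?_⟩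
  · rw [mul_smul, mul_smul, mul_smul, hm, inv_smul_smul]
  · rw [mul_smul, mul_smul, mul_smul, m1, inv_smul_smul]
  · rw [mul_smul, mul_smul, mul_smul, m2, inv_smul_smul]

theorem vA_norm {s : leechLattice} {j : GolayPt} {δ : ℤ} (hs : Sh s j δ) (hδ : δ = 1 ∨ δ = -1) (hj : j ≠ none) : sqNorm (s : GolayPt → ℤ) = 32 := by
  rw [← dotInt_self, sh_sh hj hj hs hs, if_pos rfl]
  rcases hδ with rfl | rfl <;> norm_num

theorem yS_norm : sqNorm (yS : GolayPt → ℤ) = 32 := (vA_norm yS_sh (Or.inr rfl) pt0_ne)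
theorem vS_norm : sqNorm (vS : GolayPt → ℤ) = 32 := (vA_norm vS_sh (Or.inl rfl) pt0_ne)

theorem uy : dotInt (uS : GolayPt → ℤ) (yS : GolayPt → ℤ) = 16 := by
  rw [yS_sh.dot pt0_ne, uS_val, uS_val, if_pos rfl, if_neg pt0_ne]; norm_num

theorem uv : dotInt (uS : GolayPt → ℤ) (vS : GolayPt → ℤ) = 24 := by
  rw [vS_sh.dot pt0_ne, uS_val, uS_val, if_pos rfl, if_neg pt0_ne]; norm_num

theorem ncard_move (h : Co0) {A B : Set leechLattice} (hAB : ∀ x, x ∈ A ↔ h • x ∈ B) : A.ncard = B.ncard := by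
  have : B = (fun x => h • x) '' A := by
    ext y
    constructor
    · intro hy
      exact ⟨h⁻¹ • y, (hAB _).2 (by rw [smul_inv_smul]; exact hy), smul_inv_smul h y⟩
    · rintro ⟨x, hx, rfl⟩
      exact (hAB x).1 hx
  rw [this, Set.ncard_image_of_injective _ (MulAction.injective h)]

/-- the Higman–Sims configuration -/
theorem hs_main {v w : leechLattice} (hv : sqNorm (v : GolayPt → ℤ) = 48) (hw : sqNorm (w : GolayPt → ℤ) = 48)
    (hvw : dotInt (v : GolayPt → ℤ) (w : GolayPt → ℤ) = -32) {A : Set leechLattice}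
    (hA : A = {x : leechLattice | sqNorm (x : GolayPt → ℤ) = 32 ∧ dotInt (v : GolayPt → ℤ) (x : GolayPt → ℤ) = 24 ∧ dotInt (w : GolayPt → ℤ) (x : GolayPt → ℤ) = -24}) :
    A.ncard = 100 ∧ ∀ x ∈ A, ∀ x' ∈ A, ∃ g : Co0, g • v = v ∧ g • w = w ∧ g • x = x' := by
  have h1 := norm_add v w
  rw [hv, hw, hvw] at h1
  have h2 := dot_add_right' v v w
  rw [dot_self', hv, hvw] at h2
  have hneg : ∀ a b : leechLattice, dotInt (a : GolayPt → ℤ) ((-b : leechLattice) : GolayPt → ℤ) = -dotInt (a : GolayPt → ℤ) (b : GolayPt → ℤ) := by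
    intro a b; rw [dot_comm' a (-b), neg_dot, dot_comm' b a]
  obtain ⟨h, e1, e2⟩ := pair48 (u := v) (x := -(v + w)) (u' := uS) (x' := -yS) hv (by rw [neg_norm]; omega) uS_norm (by rw [neg_norm, yS_norm])
    (by rw [hneg]; omega) (by rw [hneg, uy])
  rw [smul_neg'] at e2
  have e3 := neg_injective e2
  have hmem : ∀ x, x ∈ A ↔ X24 (h • x) ∧ ((h • x : leechLattice) : GolayPt → ℤ) none = ((h • x : leechLattice) : GolayPt → ℤ) (pt 0) := by
    intro x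
    have k1 : dotInt (yS : GolayPt → ℤ) ((h • x : leechLattice) : GolayPt → ℤ) = dotInt (v : GolayPt → ℤ) (x : GolayPt → ℤ) + dotInt (w : GolayPt → ℤ) (x : GolayPt → ℤ) := by
      rw [← e3, dot_smul, dot_comm', dot_add_right', dot_comm' x v, dot_comm' x w]
    rw [dot_comm', yS_sh.dot pt0_ne] at k1
    have k2 : dotInt (uS : GolayPt → ℤ) ((h • x : leechLattice) : GolayPt → ℤ) = dotInt (v : GolayPt → ℤ) (x : GolayPt → ℤ) := by
      rw [← e1, dot_smul]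
    rw [hA]
    unfold X24
    rw [sqNorm_smul, k2]
    constructor
    · rintro ⟨a1, a2, a3⟩
      exact ⟨⟨a1, a2⟩, by omega⟩
    · rintro ⟨⟨a1, a2⟩, a3⟩
      exact ⟨a1, a2, by omega⟩
  refine ⟨by rw [← hs100]; exact ncard_move h hmem, ?_⟩
  intro x hx x' hx'
  have m1 := (hmem x).1 hx
  have m2 := (hmem x').1 hx'
  have k1 : ∀ x, X24 (h • x) ∧ ((h • x : leechLattice) : GolayPt → ℤ) none = ((h • x : leechLattice) : GolayPt → ℤ) (pt 0) →
      dotInt (yS : GolayPt → ℤ) ((h • x : leechLattice) : GolayPt → ℤ) = 0 := by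
    intro x hx
    rw [dot_comm', yS_sh.dot pt0_ne]; omega
  obtain ⟨g, g1, g2, g3⟩ := joint uS_norm yS_norm m1.1.1 uS_norm yS_norm m2.1.1 (existsH m1.1 m1.2) (existsH m2.1 m2.2) rfl
    (m1.1.2.trans m2.1.2.symm) ((k1 x m1).trans (k1 x' m2).symm)
  have f1 : (h⁻¹ * (g * h)) • v = v := by rw [mul_smul, mul_smul, e1, g1, ← e1, inv_smul_smul]
  have f2 : (h⁻¹ * (g * h)) • (v + w) = v + w := by rw [mul_smul, mul_smul, e3, g2, ← e3, inv_smul_smul]
  refine ⟨h⁻¹ * (g * h), f1, ?_, by rw [mul_smul, mul_smul, g3, inv_smul_smul]⟩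
  rw [smul_add', f1] at f2
  exact add_left_cancel f2

/-- the McLaughlin configuration -/
theorem mc_main {u v : leechLattice} (hu : sqNorm (u : GolayPt → ℤ) = 48) (hv : sqNorm (v : GolayPt → ℤ) = 32)
    (huv : dotInt (u : GolayPt → ℤ) (v : GolayPt → ℤ) = 24) {A : Set leechLattice}
    (hA : A = {x : leechLattice | sqNorm (x : GolayPt → ℤ) = 32 ∧ dotInt (u : GolayPt → ℤ) (x : GolayPt → ℤ) = 24 ∧ dotInt (v : GolayPt → ℤ) (x : GolayPt → ℤ) = 16}) :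
    A.ncard = 275 ∧ ∀ x ∈ A, ∀ x' ∈ A, ∃ g : Co0, g • u = u ∧ g • v = v ∧ g • x = x' := by
  have key : ∀ u v : leechLattice, sqNorm (u : GolayPt → ℤ) = 48 → sqNorm (v : GolayPt → ℤ) = 32 → dotInt (u : GolayPt → ℤ) (v : GolayPt → ℤ) = 24 →
      sqNorm ((u - v : leechLattice) : GolayPt → ℤ) = 32 ∧ dotInt (v : GolayPt → ℤ) ((u - v : leechLattice) : GolayPt → ℤ) = -8 := by
    intro u v hu hv huv
    have h1 := norm_sub' u v
    have h2 := dot_add_right' v (u - v) v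
    rw [sub_add_cancel, dot_self', dot_comm' v u] at h2
    omega
  obtain ⟨k1, k2⟩ := key u v hu hv huv
  obtain ⟨k3, k4⟩ := key uS vS uS_norm vS_norm uv
  obtain ⟨h, e1, e2⟩ := pair8 hv k1 vS_norm k3 k2 k4
  have e3 : h • u = uS := by
    have : h • u = h • v + h • (u - v) := by rw [← smul_add', add_sub_cancel]
    rw [this, e1, e2, add_sub_cancel]
  have hmem : ∀ x, x ∈ A ↔ X24 (h • x) ∧ ((h • x : leechLattice) : GolayPt → ℤ) none + ((h • x : leechLattice) : GolayPt → ℤ) (pt 0) = 4 := by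
    intro x
    have k1 : dotInt (vS : GolayPt → ℤ) ((h • x : leechLattice) : GolayPt → ℤ) = dotInt (v : GolayPt → ℤ) (x : GolayPt → ℤ) := by
      rw [← e1, dot_smul]
    rw [dot_comm', vS_sh.dot pt0_ne] at k1
    have k2 : dotInt (uS : GolayPt → ℤ) ((h • x : leechLattice) : GolayPt → ℤ) = dotInt (u : GolayPt → ℤ) (x : GolayPt → ℤ) := by
      rw [← e3, dot_smul]
    rw [hA]
    unfold X24
    rw [sqNorm_smul, k2]
    constructor
    · rintro ⟨a1, a2, a3⟩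
      exact ⟨⟨a1, a2⟩, by omega⟩
    · rintro ⟨⟨a1, a2⟩, a3⟩
      exact ⟨a1, a2, by omega⟩
  refine ⟨by rw [← mc275]; exact ncard_move h hmem, ?_⟩
  intro x hx x' hx'
  have m1 := (hmem x).1 hx
  have m2 := (hmem x').1 hx'
  have k1 : ∀ x, X24 (h • x) ∧ ((h • x : leechLattice) : GolayPt → ℤ) none + ((h • x : leechLattice) : GolayPt → ℤ) (pt 0) = 4 →
      dotInt (vS : GolayPt → ℤ) ((h • x : leechLattice) : GolayPt → ℤ) = 16 := by
    intro x hx
    rw [dot_comm', vS_sh.dot pt0_ne]; omega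
  obtain ⟨g, g1, g2, g3⟩ := joint uS_norm vS_norm m1.1.1 uS_norm vS_norm m2.1.1 (existsM m1.1 m1.2) (existsM m2.1 m2.2) rfl
    (m1.1.2.trans m2.1.2.symm) ((k1 x m1).trans (k1 x' m2).symm)
  refine ⟨h⁻¹ * (g * h), ?_, ?_, ?_⟩
  · rw [mul_smul, mul_smul, e3, g1, ← e3, inv_smul_smul]
  · rw [mul_smul, mul_smul, e1, g2, ← e1, inv_smul_smul]
  · rw [mul_smul, mul_smul, g3, inv_smul_smul]

end Cfsg.Agent.H9.Leech
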