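import Cfsg.Agent.H9.Leech.Hs3
set_option autoImplicit false

/-! Rank three. -/

namespace Cfsg.Agent.H9.Leech
open Cfsg Cfsg.Agent.H9
open scoped Pointwise

theorem vS_X : X24 vS := vA_X pt0_ne vS_sh
theorem vS_val : (vS : GolayPt → ℤ) none = 4 ∧ (vS : GolayPt → ℤ) (pt 0) = 4 := by
  refine ⟨by rw [vS_sh none, if_pos rfl], ?_⟩
  rw [vS_sh (pt 0), if_neg pt0_ne, if_pos rfl]; norm_num

/-- the stabiliser of the configuration and of the base point is transitive on the two remaining parts -/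
theorem hs_std {y y' : leechLattice} (hy : X24 y) (he : (y : GolayPt → ℤ) none = (y : GolayPt → ℤ) (pt 0))
    (hy' : X24 y') (he' : (y' : GolayPt → ℤ) none = (y' : GolayPt → ℤ) (pt 0)) (h4 : (y : GolayPt → ℤ) none ≠ 4) (h4' : (y' : GolayPt → ℤ) none ≠ 4)
    (h : (y : GolayPt → ℤ) none = 1 ↔ (y' : GolayPt → ℤ) none = 1) :
    ∃ g : Co0, g • uS = uS ∧ g • yS = yS ∧ g • vS = vS ∧ g • y = y' := by
  have fin : ∀ {σ : Equiv.Perm GolayPt} (hσ : σ ∈ M24), σ none = none → σ (pt 0) = pt 0 → (∀ i, (y' : GolayPt → ℤ) (σ i) = (y : GolayPt → ℤ) i) →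
      ∃ g : Co0, g • uS = uS ∧ g • yS = yS ∧ g • vS = vS ∧ g • y = y' := fun hσ h0 h1 hv =>
    ⟨mono _ hσ ∅ cd_empty, perm_uS hσ h0, perm_sh hσ h0 h1 yS_sh, perm_sh hσ h0 h1 vS_sh, eq_of_perm hσ hv⟩
  rcases types24 hy.1 hy.2 with ⟨b, hb, hs⟩ | ⟨O, hO, h0, hv⟩ | ⟨r, hr, hv⟩ | ⟨O, hO, h0, hv⟩
  · exact absurd (by rw [hs none, if_pos rfl]) h4
  · rcases types24 hy'.1 hy'.2 with ⟨b', hb', hs'⟩ | ⟨O', hO', h0', hv'⟩ | ⟨r', hr', hv'⟩ | ⟨O', hO', h0', hv'⟩
    · exact absurd (by rw [hs' none, if_pos rfl]) h4'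
    · have h1 : pt 0 ∈ O := by
        by_contra hh
        rw [hv, hv, if_pos h0, if_neg hh] at he; norm_num at he
      have h1' : pt 0 ∈ O' := by
        by_contra hh
        rw [hv', hv', if_pos h0', if_neg hh] at he'; norm_num at he'
      obtain ⟨σ, hσ, e1, e2, e3⟩ := oct2 hO hO' h0 h1 h0' h1'
      refine fin hσ e2 e3 fun i => ?_
      rw [hv', hv, ← e1]
      have m1 := mem_smul_iff' (rfl : σ • O = σ • O) i
      simp only [m1]
    · exfalso
      have a := hv none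
      have b := hv' none
      rw [if_pos h0] at a
      rw [if_neg hr'.symm] at b
      have := h.2 b; omega
    · exfalso
      have a := hv' none
      have b := hv' (pt 0)
      rw [if_pos rfl] at a
      rw [if_neg pt0_ne] at b
      split_ifs at b <;> omega
  · rcases types24 hy'.1 hy'.2 with ⟨b', hb', hs'⟩ | ⟨O', hO', h0', hv'⟩ | ⟨r', hr', hv'⟩ | ⟨O', hO', h0', hv'⟩
    · exact absurd (by rw [hs' none, if_pos rfl]) h4'
    · exfalso
      have a := hv none
      have b := hv' none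
      rw [if_neg hr.symm] at a
      rw [if_pos h0'] at b
      have := h.1 a; omega
    · have h1 : r ≠ pt 0 := by
        rintro rfl
        rw [hv, hv, if_neg hr.symm, if_pos rfl] at he; norm_num at he
      have h1' : r' ≠ pt 0 := by
        rintro rfl
        rw [hv', hv', if_neg hr'.symm, if_pos rfl] at he'; norm_num at he'
      obtain ⟨σ, hσ, hσi⟩ := m24_transOn [none, pt 0, r] [none, pt 0, r'] (by simp [pt0_ne.symm, hr.symm, h1.symm]) (by simp [pt0_ne.symm, hr'.symm, h1'.symm]) rfl (by simp)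
        (fun _ _ => Finset.mem_univ _) (fun _ _ => Finset.mem_univ _)
      simp only [List.map_cons, List.map_nil, List.cons.injEq, and_true] at hσi
      obtain ⟨e2, e3, e4⟩ := hσi
      refine fin hσ e2 e3 fun i => ?_
      rw [hv', hv, ← e4]
      simp only [σ.injective.eq_iff]
    · exfalso
      have a := hv' none
      have b := hv' (pt 0)
      rw [if_pos rfl] at a
      rw [if_neg pt0_ne] at b
      split_ifs at b <;> omega
  · exfalso
    have a := hv none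
    have b := hv (pt 0)
    rw [if_pos rfl] at a
    rw [if_neg pt0_ne] at b
    split_ifs at b <;> omega

def HsC (v w : leechLattice) : Set leechLattice :=
  {x | sqNorm (x : GolayPt → ℤ) = 32 ∧ dotInt (v : GolayPt → ℤ) (x : GolayPt → ℤ) = 24 ∧ dotInt (w : GolayPt → ℤ) (x : GolayPt → ℤ) = -24}

theorem hs_move {v w x : leechLattice} (hv : sqNorm (v : GolayPt → ℤ) = 48) (hw : sqNorm (w : GolayPt → ℤ) = 48)
    (hvw : dotInt (v : GolayPt → ℤ) (w : GolayPt → ℤ) = -32) (hx : x ∈ HsC v w) :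
    ∃ h : Co0, h • v = uS ∧ h • (v + w) = yS ∧ h • x = vS ∧
      ∀ y, y ∈ HsC v w ↔ X24 (h • y) ∧ ((h • y : leechLattice) : GolayPt → ℤ) none = ((h • y : leechLattice) : GolayPt → ℤ) (pt 0) := by
  have h1 := norm_add v w
  rw [hv, hw, hvw] at h1
  have h2 := dot_add_right' v v w
  rw [dot_self', hv, hvw] at h2
  have hneg : ∀ a b : leechLattice, dotInt (a : GolayPt → ℤ) ((-b : leechLattice) : GolayPt → ℤ) = -dotInt (a : GolayPt → ℤ) (b : GolayPt → ℤ) := by
    intro a b; rw [dot_comm' a (-b), neg_dot, dot_comm' b a]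
  obtain ⟨h, e1, e2⟩ := pair48 (u := v) (x := -(v + w)) (u' := uS) (x' := -yS) hv (by rw [neg_norm]; omega) uS_norm (by rw [neg_norm, yS_norm])
    (by rw [hneg]; omega) (by rw [hneg, uy])
  rw [smul_neg'] at e2
  have e3 := neg_injective e2
  have hmem : ∀ k : Co0, k • v = uS → k • (v + w) = yS → ∀ x, x ∈ HsC v w ↔ X24 (k • x) ∧ ((k • x : leechLattice) : GolayPt → ℤ) none = ((k • x : leechLattice) : GolayPt → ℤ) (pt 0) := by
    intro k e1 e3 x
    have k1 : dotInt (yS : GolayPt → ℤ) ((k • x : leechLattice) : GolayPt → ℤ) = dotInt (v : GolayPt → ℤ) (x : GolayPt → ℤ) + dotInt (w : GolayPt → ℤ) (x : GolayPt → ℤ) := by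
      rw [← e3, dot_smul, dot_comm', dot_add_right', dot_comm' x v, dot_comm' x w]
    rw [dot_comm', yS_sh.dot pt0_ne] at k1
    have k2 : dotInt (uS : GolayPt → ℤ) ((k • x : leechLattice) : GolayPt → ℤ) = dotInt (v : GolayPt → ℤ) (x : GolayPt → ℤ) := by
      rw [← e1, dot_smul]
    unfold HsC X24
    rw [sqNorm_smul, k2]
    constructor
    · rintro ⟨a1, a2, a3⟩
      exact ⟨⟨a1, a2⟩, by omega⟩
    · rintro ⟨⟨a1, a2⟩, a3⟩
      exact ⟨a1, a2, by omega⟩
  have hvS : h⁻¹ • vS ∈ HsC v w := by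
    rw [hmem h e1 e3, smul_inv_smul]
    exact ⟨vS_X, by rw [vS_val.1, vS_val.2]⟩
  obtain ⟨g, g1, g2, g3⟩ := (hs_main hv hw hvw rfl).2 x hx _ hvS
  have f1 : (h * g) • v = uS := by rw [mul_smul, g1, e1]
  have f2 : (h * g) • (v + w) = yS := by rw [mul_smul, smul_add', g1, g2, e3]
  exact ⟨h * g, f1, f2, by rw [mul_smul, g3, smul_inv_smul], hmem _ f1 f2⟩

theorem hs_vals {y : leechLattice} (hy : X24 y) (he : (y : GolayPt → ℤ) none = (y : GolayPt → ℤ) (pt 0)) :
    y = vS ∨ y ∈ NS 2 2 ∨ y ∈ NS 1 1 := by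
  rcases types24 hy.1 hy.2 with ⟨b, hb, hs⟩ | ⟨O, hO, h0, hv⟩ | ⟨r, hr, hv⟩ | ⟨O, hO, h0, hv⟩
  · left
    have h1 := hs none
    have h2 := hs (pt 0)
    rw [if_pos rfl] at h1
    rw [if_neg pt0_ne] at h2
    by_cases hh : pt 0 = b
    · subst hh; exact hs.unique vS_sh
    · rw [if_neg hh] at h2; omega
  · have := hv none; rw [if_pos h0] at this
    exact Or.inr (Or.inl ⟨hy, this, by omega⟩)
  · have := hv none; rw [if_neg hr.symm] at this
    exact Or.inr (Or.inr ⟨hy, this, by omega⟩)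
  · exfalso
    have := hv none; rw [if_pos rfl] at this
    have h2 := hv (pt 0); rw [if_neg pt0_ne] at h2
    split_ifs at h2 <;> omega

theorem hs_rank {v w x : leechLattice} (hv : sqNorm (v : GolayPt → ℤ) = 48) (hw : sqNorm (w : GolayPt → ℤ) = 48)
    (hvw : dotInt (v : GolayPt → ℤ) (w : GolayPt → ℤ) = -32) (hx : x ∈ HsC v w) :
    {y | y ∈ HsC v w ∧ dotInt (x : GolayPt → ℤ) (y : GolayPt → ℤ) = 8}.ncard = 22 ∧
    {y | y ∈ HsC v w ∧ y ≠ x ∧ dotInt (x : GolayPt → ℤ) (y : GolayPt → ℤ) ≠ 8}.ncard = 77 ∧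
    ∀ y ∈ HsC v w, ∀ y' ∈ HsC v w, y ≠ x → y' ≠ x → (dotInt (x : GolayPt → ℤ) (y : GolayPt → ℤ) = 8 ↔ dotInt (x : GolayPt → ℤ) (y' : GolayPt → ℤ) = 8) →
      ∃ g : Co0, g • v = v ∧ g • w = w ∧ g • x = x ∧ g • y = y' := by
  obtain ⟨h, e1, e2, e3, hmem⟩ := hs_move hv hw hvw hx
  have hdot : ∀ y : leechLattice, dotInt (x : GolayPt → ℤ) (y : GolayPt → ℤ) = 4 * ((h • y : leechLattice) : GolayPt → ℤ) none + 4 * ((h • y : leechLattice) : GolayPt → ℤ) (pt 0) := by
    intro y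
    rw [← dot_smul h, e3, dot_comm', vS_sh.dot pt0_ne]; ring
  have hne : ∀ y, y ≠ x ↔ h • y ≠ vS := by
    intro y
    rw [← e3]
    exact not_congr (smul_left_cancel_iff h).symm
  refine ⟨?_, ?_, ?_⟩
  · refine Eq.trans ?_ cntR
    apply ncard_move h
    intro y
    constructor
    · rintro ⟨a, b⟩
      rw [hdot] at b
      have a' := (hmem y).1 a
      exact ⟨a'.1, by omega, by omega⟩
    · rintro ⟨a, b, c⟩
      exact ⟨(hmem y).2 ⟨a, b.trans c.symm⟩, by rw [hdot, b, c]; norm_num⟩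
  · refine Eq.trans ?_ cntB
    apply ncard_move h
    intro y
    constructor
    · rintro ⟨a, b, c⟩
      rw [hdot] at c
      rw [hne] at b
      have a' := (hmem y).1 a
      rcases hs_vals a'.1 a'.2 with k | k | k
      · exact absurd k b
      · exact k
      · have := k.2; omega
    · rintro ⟨a, b, c⟩
      refine ⟨(hmem y).2 ⟨a, b.trans c.symm⟩, ?_, by rw [hdot, b, c]; norm_num⟩
      rw [hne]
      intro hh
      rw [hh, vS_val.1] at b
      norm_num at b
  · intro y hy y' hy' hn hn' hd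
    rw [hdot, hdot] at hd
    rw [hne] at hn hn'
    have a := (hmem y).1 hy
    have a' := (hmem y').1 hy'
    have n4 : ∀ y : leechLattice, X24 y → (y : GolayPt → ℤ) none = (y : GolayPt → ℤ) (pt 0) → y ≠ vS → (y : GolayPt → ℤ) none ≠ 4 := by
      intro y hy he hne
      rcases hs_vals hy he with k | k | k
      · exact absurd k hne
      · have := k.2; omega
      · have := k.2; omega
    obtain ⟨g, g1, g2, g3, g4⟩ := hs_std a.1 a.2 a'.1 a'.2 (n4 _ a.1 a.2 hn) (n4 _ a'.1 a'.2 hn') (by omega)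
    have f1 : (h⁻¹ * (g * h)) • v = v := by rw [mul_smul, mul_smul, e1, g1, ← e1, inv_smul_smul]
    have f2 : (h⁻¹ * (g * h)) • (v + w) = v + w := by rw [mul_smul, mul_smul, e2, g2, ← e2, inv_smul_smul]
    rw [smul_add', f1] at f2
    exact ⟨h⁻¹ * (g * h), f1, add_left_cancel f2, by rw [mul_smul, mul_smul, e3, g3, ← e3, inv_smul_smul], by rw [mul_smul, mul_smul, g4, inv_smul_smul]⟩

end Cfsg.Agent.H9.Leech
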