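import Cfsg.Agent.H9.Leech.Hs4
set_option autoImplicit false

/-! An involution without fixed points on the 100 points. -/

namespace Cfsg.Agent.H9.Leech
open Cfsg Cfsg.Agent.H9
open scoped Pointwise

def v2l : List ℤ := [2, 2, 2, 2, 2, 0, 2, 0, 2, 2, 0, 0, 2, 2, 0, 0, 2, 0, 2, 0, 0, 0, 0, 0]
def w2l : List ℤ := [2, 2, -2, -2, -2, 0, -2, 0, -2, -2, 0, 0, -2, -2, 0, 0, -2, 0, -2, 0, 0, 0, 0, 0]
theorem v2l_ok : chkL (vec v2l) = true := by decide +kernel
theorem w2l_ok : chkL (vec w2l) = true := by decide +kernel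
def v2 : leechLattice := ⟨vec v2l, mem_of_chk v2l_ok⟩
def w2 : leechLattice := ⟨vec w2l, mem_of_chk w2l_ok⟩
theorem v2_val : ∀ i, (v2 : GolayPt → ℤ) i = if i ∈ S dod0 then 2 else 0 := by
  have : ∀ i, vec v2l i = if i ∈ S dod0 then 2 else 0 := by decide +kernel
  exact this
theorem w2_val : ∀ i, i ∉ S dod0 → (w2 : GolayPt → ℤ) i = 0 := by
  have : ∀ i, i ∉ S dod0 → vec w2l i = 0 := by decide +kernel
  exact this
theorem v2_norm : sqNorm (v2 : GolayPt → ℤ) = 48 := sq_vec _ _ (by decide +kernel)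
theorem w2_norm : sqNorm (w2 : GolayPt → ℤ) = 48 := sq_vec _ _ (by decide +kernel)
theorem v2w2 : dotInt (v2 : GolayPt → ℤ) (w2 : GolayPt → ℤ) = -32 := by
  have : dotInt (vec v2l) (vec w2l) = -32 := by decide +kernel
  exact this

theorem hs_pairs {v w v' w' : leechLattice} (hv : sqNorm (v : GolayPt → ℤ) = 48) (hw : sqNorm (w : GolayPt → ℤ) = 48)
    (hvw : dotInt (v : GolayPt → ℤ) (w : GolayPt → ℤ) = -32) (hv' : sqNorm (v' : GolayPt → ℤ) = 48) (hw' : sqNorm (w' : GolayPt → ℤ) = 48)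
    (hvw' : dotInt (v' : GolayPt → ℤ) (w' : GolayPt → ℤ) = -32) : ∃ g : Co0, g • v = v' ∧ g • w = w' := by
  have hneg : ∀ a b : leechLattice, dotInt (a : GolayPt → ℤ) ((-b : leechLattice) : GolayPt → ℤ) = -dotInt (a : GolayPt → ℤ) (b : GolayPt → ℤ) := by
    intro a b; rw [dot_comm' a (-b), neg_dot, dot_comm' b a]
  have key : ∀ v w : leechLattice, sqNorm (v : GolayPt → ℤ) = 48 → sqNorm (w : GolayPt → ℤ) = 48 → dotInt (v : GolayPt → ℤ) (w : GolayPt → ℤ) = -32 →
      sqNorm ((-(v + w) : leechLattice) : GolayPt → ℤ) = 32 ∧ dotInt (v : GolayPt → ℤ) ((-(v + w) : leechLattice) : GolayPt → ℤ) = -16 := by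
    intro v w hv hw hvw
    have h1 := norm_add v w
    rw [hv, hw, hvw] at h1
    have h2 := dot_add_right' v v w
    rw [dot_self', hv, hvw] at h2
    rw [neg_norm, hneg]
    omega
  obtain ⟨k1, k2⟩ := key v w hv hw hvw
  obtain ⟨k3, k4⟩ := key v' w' hv' hw' hvw'
  obtain ⟨g, g1, g2⟩ := pair48 hv k1 hv' k3 k2 k4
  refine ⟨g, g1, ?_⟩
  rw [smul_neg'] at g2
  have h4 := neg_injective g2
  rw [smul_add', g1] at h4
  exact add_left_cancel h4

theorem dc_mem : (S dod0)ᶜ ∈ Cd := cd_compl dod0_mem.1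

theorem fpf_std : ∃ g : Co0, g • v2 = v2 ∧ g • w2 = w2 ∧ orderOf g = 2 ∧ ∀ x : leechLattice, sqNorm (x : GolayPt → ℤ) = 32 →
    dotInt (v2 : GolayPt → ℤ) (x : GolayPt → ℤ) = 24 → g • x ≠ x := by
  refine ⟨eps _ dc_mem, ?_, ?_, ?_, ?_⟩
  · apply Subtype.ext; funext i
    rw [eps_smul]
    by_cases h : i ∈ (S dod0)ᶜ
    · rw [if_pos h, v2_val, if_neg (Finset.mem_compl.1 h)]; rfl
    · rw [if_neg h]
  · apply Subtype.ext; funext i
    rw [eps_smul]
    by_cases h : i ∈ (S dod0)ᶜ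
    · rw [if_pos h, w2_val i (Finset.mem_compl.1 h)]; rfl
    · rw [if_neg h]
  · apply orderOf_eq_prime
    · apply co0_ext
      intro v
      funext i
      rw [sq, mul_smul, eps_smul, eps_smul, one_smul]
      split_ifs <;> ring
    · intro h
      have h1 := eps_smul dc_mem (e8 none) none
      rw [h, one_smul, if_pos (Finset.mem_compl.2 (by decide +kernel))] at h1
      have h2 : ((e8 none : leechLattice) : GolayPt → ℤ) none = 8 := by
        change (Pi.single none 8 : GolayPt → ℤ) none = 8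
        simp
      omega
  · intro x hx hd hfix
    have h0 : ∀ i, i ∉ S dod0 → (x : GolayPt → ℤ) i = 0 := by
      intro i hi
      have h1 := eps_smul dc_mem x i
      rw [hfix, if_pos (Finset.mem_compl.2 hi)] at h1
      omega
    have hsum : dotInt (v2 : GolayPt → ℤ) (x : GolayPt → ℤ) = 2 * ∑ i, (x : GolayPt → ℤ) i := by
      unfold dotInt
      rw [Finset.mul_sum]
      apply Finset.sum_congr rfl
      intro i _
      rw [v2_val]
      by_cases h : i ∈ S dod0
      · rw [if_pos h]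
      · rw [if_neg h, h0 i h]; ring
    rw [hsum] at hd
    have hn : (none : GolayPt) ∉ S dod0 := by decide +kernel
    rcases shapes32 x.2 hx with h | h | h
    · have := h.odd none
      rw [h0 none hn] at this
      norm_num at this
    · obtain ⟨a, b, _, ha, hb, _, hs⟩ := twoT h
      rw [hs] at hd
      omega
    · obtain ⟨O, hO, M, hM, hv, _⟩ := octT h
      have hOD : O ⊆ S dod0 := by
        intro i hi
        by_contra hh
        have h1 := h0 i hh
        rw [hv i] at h1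
        unfold ind at h1
        rw [if_pos hi] at h1
        split_ifs at h1 <;> omega
      have h1 := cd_symm hO.1 dod0_mem.1
      have h2 := card_symmDiff' O (S dod0)
      rw [Finset.inter_eq_left.2 hOD, octad_card hO, dodecad_card dod0_mem] at h2
      rcases cd_card h1 with h | h | h | h | h <;> omega

theorem fpf {v w : leechLattice} (hv : sqNorm (v : GolayPt → ℤ) = 48) (hw : sqNorm (w : GolayPt → ℤ) = 48)
    (hvw : dotInt (v : GolayPt → ℤ) (w : GolayPt → ℤ) = -32) : ∃ g : Co0, g • v = v ∧ g • w = w ∧ orderOf g = 2 ∧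
    ∀ x ∈ {x : leechLattice | sqNorm (x : GolayPt → ℤ) = 32 ∧ dotInt (v : GolayPt → ℤ) (x : GolayPt → ℤ) = 24 ∧ dotInt (w : GolayPt → ℤ) (x : GolayPt → ℤ) = -24},
      g • x ≠ x := by
  obtain ⟨h, h1, h2⟩ := hs_pairs hv hw hvw v2_norm w2_norm v2w2
  obtain ⟨g, g1, g2, g3, g4⟩ := fpf_std
  refine ⟨h⁻¹ * g * h, ?_, ?_, ?_, ?_⟩
  · rw [mul_smul, mul_smul, h1, g1, ← h1, inv_smul_smul]
  · rw [mul_smul, mul_smul, h2, g2, ← h2, inv_smul_smul]
  · rw [← g3]
    have e : h⁻¹ * g * h = MulAut.conj h⁻¹ g := by rw [MulAut.conj_apply, inv_inv]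
    rw [e]
    exact orderOf_injective (MulAut.conj h⁻¹).toMonoidHom (MulAut.conj h⁻¹).injective g
  · rintro x ⟨x1, x2, _⟩ hfix
    refine g4 (h • x) (by rw [sqNorm_smul, x1]) (by rw [← h1, dot_smul, x2]) ?_
    rw [mul_smul, mul_smul, inv_smul_eq_iff] at hfix
    exact hfix

end Cfsg.Agent.H9.Leech
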