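import Cfsg.Agent.H9.Leech.Gen
set_option autoImplicit false

namespace Cfsg.Agent.H9.Leech
open Matrix

theorem lat_mat (B : Matrix (Fin 24) (Fin 24) ℤ) (hsymm : B.IsSymm) (hpos : ∀ x : Fin 24 → ℤ, x ≠ 0 → 0 < x ⬝ᵥ (B *ᵥ x))
    (heven : ∀ x : Fin 24 → ℤ, (2 : ℤ) ∣ x ⬝ᵥ (B *ᵥ x)) (h2 : ∀ x : Fin 24 → ℤ, x ⬝ᵥ (B *ᵥ x) ≠ 2) :
    Lat (fun x y : Fin 24 → ℤ => x ⬝ᵥ (B *ᵥ y)) where
  add_left x y z := by simp only [add_dotProduct]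
  symm x y := by
    rw [dotProduct_mulVec, ← mulVec_transpose, hsymm.eq, dotProduct_comm]
  pos := hpos
  even := heven
  noroot := h2

theorem dvd_iff (x y : Fin 24 → ℤ) : (∀ i, (2 : ℤ) ∣ (x - y) i) ↔ ∃ z, x - y = z + z := by
  constructor
  · intro h
    refine ⟨fun i => (x - y) i / 2, ?_⟩
    funext i
    have := h i
    simp only [Pi.add_apply]; omega
  · rintro ⟨z, hz⟩ i
    rw [hz]; exact ⟨z i, by simp only [Pi.add_apply]; ring⟩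

theorem mat_class (B : Matrix (Fin 24) (Fin 24) ℤ) (hsymm : B.IsSymm) (hpos : ∀ x : Fin 24 → ℤ, x ≠ 0 → 0 < x ⬝ᵥ (B *ᵥ x))
    (heven : ∀ x : Fin 24 → ℤ, (2 : ℤ) ∣ x ⬝ᵥ (B *ᵥ x)) (h2 : ∀ x : Fin 24 → ℤ, x ⬝ᵥ (B *ᵥ x) ≠ 2)
    (h4 : {x : Fin 24 → ℤ | x ⬝ᵥ (B *ᵥ x) = 4}.ncard = 196560) (h6 : {x : Fin 24 → ℤ | x ⬝ᵥ (B *ᵥ x) = 6}.ncard = 16773120)
    (h8 : {x : Fin 24 → ℤ | x ⬝ᵥ (B *ᵥ x) = 8}.ncard = 398034000) (x : Fin 24 → ℤ) (hx : x ⬝ᵥ (B *ᵥ x) = 8) :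
    {y : Fin 24 → ℤ | y ⬝ᵥ (B *ᵥ y) = 8 ∧ ∀ i, (2 : ℤ) ∣ (x - y) i}.ncard = 48 := by
  have hL := lat_mat B hsymm hpos heven h2
  have h := (hL.main (R := Fin 24 → ZMod 2) (by simp) (fun x i => (x i : ZMod 2)) red_iff
    (fun s h0 h1 => hL.rank_bound (by simp) s h0 h1) h4 h6 h8).1 x hx
  rw [← h]
  congr 1
  ext y
  simp only [Set.mem_ofPred_eq]
  refine and_congr_right fun _ => ?_
  rw [dvd_iff, red_iff]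

end Cfsg.Agent.H9.Leech
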