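import Cfsg.Agent.H9.Leech.Mc2
set_option autoImplicit false

/-! Rank three on 275 points: conclusion. -/

namespace Cfsg.Agent.H9.Leech
open Cfsg Cfsg.Agent.H9
open scoped Pointwise

/-- the configuration in standard position -/
def MX (y : leechLattice) : Prop := X24 y ∧ (y : GolayPt → ℤ) none + (y : GolayPt → ℤ) (pt 0) = 4

theorem MX_iff {y : leechLattice} : MX y ↔ X24 y ∧ dotInt (vS : GolayPt → ℤ) (y : GolayPt → ℤ) = 16 := by
  unfold MX
  rw [dot_comm', vS_sh.dot pt0_ne]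
  constructor
  · rintro ⟨h1, h2⟩; exact ⟨h1, by omega⟩
  · rintro ⟨h1, h2⟩; exact ⟨h1, by omega⟩

theorem MX_smul {g : Co0} (h1 : g • uS = uS) (h2 : g • vS = vS) {y : leechLattice} (hy : MX y) : MX (g • y) := by
  rw [MX_iff] at hy ⊢
  obtain ⟨⟨a, b⟩, c⟩ := hy
  refine ⟨⟨by rw [sqNorm_smul, a], ?_⟩, ?_⟩
  · rw [← h1, dot_smul, b]
  · rw [← h2, dot_smul, c]

theorem dot_xv (y : leechLattice) : dotInt (xv (pt 1) : GolayPt → ℤ) (y : GolayPt → ℤ) = 4 * (y : GolayPt → ℤ) none + 4 * (y : GolayPt → ℤ) (pt 1) := by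
  rw [dot_comm', (xv_sh pt1_ne).dot pt1_ne]; ring

theorem MX_xv : MX (xv (pt 1)) := by
  refine ⟨vA_X pt1_ne (xv_sh pt1_ne), ?_⟩
  rw [xv_sh pt1_ne none, xv_sh pt1_ne (pt 0), if_pos rfl, if_neg pt0_ne, if_neg pt01]
  norm_num

theorem mc_cases {y : leechLattice} (hy : MX y) : y = xv (pt 1) ∨ (y : GolayPt → ℤ) none + (y : GolayPt → ℤ) (pt 1) = 4 ∨
    (y : GolayPt → ℤ) none + (y : GolayPt → ℤ) (pt 1) = 2 := by
  obtain ⟨hy, he⟩ := hy
  rcases types24 hy.1 hy.2 with ⟨b, hb, hs⟩ | ⟨O, hO, h0, hv⟩ | ⟨r, hr, hv⟩ | ⟨O, hO, h0, hv⟩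
  · by_cases h : b = pt 1
    · left; rw [h] at hs; exact hs.unique (xv_sh pt1_ne)
    · right; left
      rw [hs none, hs (pt 1), if_pos rfl, if_neg pt1_ne, if_neg (fun hh => h hh.symm)]; norm_num
  · right
    rw [hv, hv, if_pos h0]
    split_ifs <;> norm_num
  · exfalso
    have h2 := hv (pt 0)
    have h3 := hv none
    rw [if_neg hr.symm] at h3
    split_ifs at h2 <;> omega
  · right
    rw [hv, hv, if_pos rfl, if_neg pt1_ne]
    split_ifs <;> norm_num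

theorem mc_trans16 {y y' : leechLattice} (hy : MX y) (hy' : MX y') (hn : y ≠ xv (pt 1)) (hn' : y' ≠ xv (pt 1))
    (hd : (y : GolayPt → ℤ) none + (y : GolayPt → ℤ) (pt 1) = 4) (hd' : (y' : GolayPt → ℤ) none + (y' : GolayPt → ℤ) (pt 1) = 4) :
    ∃ g : Co0, g • uS = uS ∧ g • vS = vS ∧ g • xv (pt 1) = xv (pt 1) ∧ g • y = y' := by
  have key : ∀ y : leechLattice, MX y → y ≠ xv (pt 1) → (y : GolayPt → ℤ) none + (y : GolayPt → ℤ) (pt 1) = 4 →
      ∃ g : Co0, g • uS = uS ∧ g • vS = vS ∧ g • xv (pt 1) = xv (pt 1) ∧ ∃ b, b ≠ none ∧ b ≠ pt 0 ∧ b ≠ pt 1 ∧ Sh (g • y) b 1 := by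
    intro y hy hn hd
    obtain ⟨g, g1, g2, g3, g4⟩ := fix4 (exists16' hy.1 hy.2 hd)
    refine ⟨g, g1, g2, g3, ?_⟩
    have hgy := MX_smul g1 g2 hy
    rcases types24 hgy.1.1 hgy.1.2 with ⟨b, hb, hs⟩ | ⟨O, hO, h0, hv⟩ | ⟨r, hr, hv⟩ | ⟨O, hO, h0, hv⟩
    · refine ⟨b, hb, ?_, ?_, hs⟩
      · rintro rfl
        have h5 := hgy.2
        rw [hs none, hs (pt 0), if_pos rfl, if_neg pt0_ne, if_pos rfl] at h5
        norm_num at h5
      · rintro rfl
        have h5 := hs.unique (xv_sh pt1_ne)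
        rw [← g3] at h5
        exact hn (smul_left_cancel g h5)
    · exfalso; rw [hv none, if_pos h0] at g4; omega
    · exfalso; rw [hv none, if_neg hr.symm] at g4; omega
    · exfalso; rw [hv none, if_pos rfl] at g4; omega
  obtain ⟨g, g1, g2, g3, b, b0, b1, b2, hs⟩ := key y hy hn hd
  obtain ⟨k, k1, k2, k3, b', b0', b1', b2', hs'⟩ := key y' hy' hn' hd'
  obtain ⟨σ, hσ, hσi⟩ := m24_transOn [none, pt 0, pt 1, b] [none, pt 0, pt 1, b'] (by simp [pt0_ne.symm, pt1_ne.symm, pt01, b0.symm, b1.symm, b2.symm])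
    (by simp [pt0_ne.symm, pt1_ne.symm, pt01, b0'.symm, b1'.symm, b2'.symm]) rfl (by simp) (fun _ _ => Finset.mem_univ _) (fun _ _ => Finset.mem_univ _)
  simp only [List.map_cons, List.map_nil, List.cons.injEq, and_true] at hσi
  obtain ⟨h0, h1, h2, h3⟩ := hσi
  have hm : mono σ hσ ∅ cd_empty • g • y = k • y' :=
    (mono_sh hσ cd_empty h0 h3 b0' (Finset.notMem_empty _) (by rw [if_neg (Finset.notMem_empty _)]) hs).unique hs'
  refine ⟨k⁻¹ * (mono σ hσ ∅ cd_empty * g), ?_, ?_, ?_, ?_⟩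
  · rw [mul_smul, mul_smul, g1, perm_uS hσ h0, inv_smul_eq_iff, k1]
  · rw [mul_smul, mul_smul, g2, perm_sh hσ h0 h1 vS_sh, inv_smul_eq_iff, k2]
  · rw [mul_smul, mul_smul, g3, perm_xv hσ h0 pt1_ne pt1_ne h2, inv_smul_eq_iff, k3]
  · rw [mul_smul, mul_smul, hm, inv_smul_smul]

theorem mc_trans8 {y y' : leechLattice} (hy : MX y) (hy' : MX y')
    (hd : (y : GolayPt → ℤ) none + (y : GolayPt → ℤ) (pt 1) = 2) (hd' : (y' : GolayPt → ℤ) none + (y' : GolayPt → ℤ) (pt 1) = 2) :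
    ∃ g : Co0, g • uS = uS ∧ g • vS = vS ∧ g • xv (pt 1) = xv (pt 1) ∧ g • y = y' := by
  have key : ∀ y : leechLattice, MX y → (y : GolayPt → ℤ) none + (y : GolayPt → ℤ) (pt 1) = 2 →
      ∃ g : Co0, g • uS = uS ∧ g • vS = vS ∧ g • xv (pt 1) = xv (pt 1) ∧ ∃ O ∈ octads, none ∈ O ∧ pt 0 ∈ O ∧ pt 1 ∉ O ∧
        ∀ i, ((g • y : leechLattice) : GolayPt → ℤ) i = if i ∈ O then 2 else 0 := by
    intro y hy hd
    obtain ⟨g, g1, g2, g3, g4⟩ := fix4 (exists8' hy.1 hy.2 hd)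
    refine ⟨g, g1, g2, g3, ?_⟩
    have hgy := MX_smul g1 g2 hy
    have hd2 : ((g • y : leechLattice) : GolayPt → ℤ) none + ((g • y : leechLattice) : GolayPt → ℤ) (pt 1) = 2 := by
      have q1 := dot_xv (g • y)
      have q2 := dot_xv y
      rw [← dot_smul g, g3] at q2
      omega
    rcases types24 hgy.1.1 hgy.1.2 with ⟨b, hb, hs⟩ | ⟨O, hO, h0, hv⟩ | ⟨r, hr, hv⟩ | ⟨O, hO, h0, hv⟩
    · exfalso; rw [hs none, if_pos rfl] at g4; omega
    · refine ⟨O, hO, h0, ?_, ?_, hv⟩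
      · by_contra hh
        have h5 := hgy.2
        rw [hv none, hv (pt 0), if_pos h0, if_neg hh] at h5
        norm_num at h5
      · intro hh
        rw [hv none, hv (pt 1), if_pos h0, if_pos hh] at hd2
        norm_num at hd2
    · exfalso; rw [hv none, if_neg hr.symm] at g4; omega
    · exfalso; rw [hv none, if_pos rfl] at g4; omega
  obtain ⟨g, g1, g2, g3, O, hO, b0, b1, b2, hs⟩ := key y hy hd
  obtain ⟨k, k1, k2, k3, O', hO', b0', b1', b2', hs'⟩ := key y' hy' hd'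
  obtain ⟨σ, hσ, e1, h0, h1, h2⟩ := octr hO hO' b0 b1 b2 pt0_ne b0' b1' b2' pt0_ne
  have hm : mono σ hσ ∅ cd_empty • g • y = k • y' := by
    apply eq_of_perm hσ
    intro i
    rw [hs', hs, ← e1]
    have m1 := mem_smul_iff' (rfl : σ • O = σ • O) i
    simp only [m1]
  refine ⟨k⁻¹ * (mono σ hσ ∅ cd_empty * g), ?_, ?_, ?_, ?_⟩
  · rw [mul_smul, mul_smul, g1, perm_uS hσ h0, inv_smul_eq_iff, k1]
  · rw [mul_smul, mul_smul, g2, perm_sh hσ h0 h1 vS_sh, inv_smul_eq_iff, k2]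
  · rw [mul_smul, mul_smul, g3, perm_xv hσ h0 pt1_ne pt1_ne h2, inv_smul_eq_iff, k3]
  · rw [mul_smul, mul_smul, hm, inv_smul_smul]

/-! ### counting -/

theorem cA56 : (H9.cnt fun k => band (Nat.beq (pc (enc k)) 8) (band (Nat.beq (bt (enc k) 23) 1) (band (Nat.beq (bt (enc k) 0) 1) (Nat.beq (bt (enc k) 1) 0)))) = 56 := by decide +kernel
theorem cB56 : (H9.cnt fun k => band (Nat.beq (pc (enc k)) 8) (band (Nat.beq (bt (enc k) 23) 1) (band (Nat.beq (bt (enc k) 0) 0) (Nat.beq (bt (enc k) 1) 1)))) = 56 := by decide +kernel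

theorem octA56 : {O | O ∈ octads ∧ (none ∈ O ∧ pt 0 ∈ O ∧ pt 1 ∉ O)}.ncard = 56 := by
  rw [← cA56]
  exact ncard_words _ (fun O => none ∈ O ∧ pt 0 ∈ O ∧ pt 1 ∉ O) fun k _ => by
    rw [band_iff, band_iff, mem_test (by norm_num), mem_test (by norm_num), notMem_test (by norm_num), pt23]

theorem octB56 : {O | O ∈ octads ∧ (none ∈ O ∧ pt 0 ∉ O ∧ pt 1 ∈ O)}.ncard = 56 := by
  rw [← cB56]
  exact ncard_words _ (fun O => none ∈ O ∧ pt 0 ∉ O ∧ pt 1 ∈ O) fun k _ => by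
    rw [band_iff, band_iff, mem_test (by norm_num), mem_test (by norm_num), notMem_test (by norm_num), pt23]

def A8 : Set leechLattice := {y | MX y ∧ (y : GolayPt → ℤ) none + (y : GolayPt → ℤ) (pt 1) = 2}

theorem A8_card : A8.ncard = 112 := by
  have h : A8 = {y | A8 y ∧ (y : GolayPt → ℤ) none = 2} ∪ {y | A8 y ∧ (y : GolayPt → ℤ) none = 3} := by
    ext y
    constructor
    · intro hy
      have hy' := hy
      obtain ⟨⟨hy1, he⟩, hd⟩ := hy
      rcases types24 hy1.1 hy1.2 with ⟨b, hb, hs⟩ | ⟨O, hO, h0, hv⟩ | ⟨r, hr, hv⟩ | ⟨O, hO, h0, hv⟩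
      · exfalso
        rw [hs none, hs (pt 1), if_pos rfl, if_neg pt1_ne] at hd
        split_ifs at hd <;> omega
      · exact Or.inl ⟨hy', by rw [hv, if_pos h0]⟩
      · exfalso
        rw [hv none, hv (pt 0), if_neg hr.symm] at he
        split_ifs at he <;> omega
      · exact Or.inr ⟨hy', by rw [hv, if_pos rfl]⟩
    · rintro (h | h) <;> exact h.1
  have f1 : A8.Finite := f32.subset fun y hy => hy.1.1.1
  have hfin : ∀ a : ℤ, {y | A8 y ∧ (y : GolayPt → ℤ) none = a}.Finite := fun a => f1.subset fun y hy => hy.1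
  rw [h, Set.ncard_union_eq (by
    rw [Set.disjoint_left]
    rintro y ⟨_, h1⟩ ⟨_, h2⟩
    omega) (hfin 2) (hfin 3)]
  have k1 : {y | A8 y ∧ (y : GolayPt → ℤ) none = 2}.ncard = 56 := by
    refine Eq.trans (Eq.symm ?_) octA56
    refine Set.ncard_congr (fun O hO => (⟨_, vB_mem hO.1⟩ : leechLattice)) ?_ ?_ ?_
    · rintro O ⟨hO, h0, h1, h2⟩
      have q : ∀ i, ((⟨_, vB_mem hO⟩ : leechLattice) : GolayPt → ℤ) i = if i ∈ O then 2 else 0 := fun i => rfl
      refine ⟨⟨⟨vB_X hO h0 q, ?_⟩, ?_⟩, ?_⟩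
      · rw [q, q, if_pos h0, if_pos h1]; norm_num
      · rw [q, q, if_pos h0, if_neg h2]; norm_num
      · rw [q, if_pos h0]
    · rintro O O' _ _ h
      ext i
      have h1 := congrFun (congrArg (fun v : leechLattice => (v : GolayPt → ℤ)) h) i
      change (if i ∈ O then 2 else 0 : ℤ) = (if i ∈ O' then 2 else 0 : ℤ) at h1
      by_cases h2 : i ∈ O <;> by_cases h3 : i ∈ O' <;> simp [h2, h3] at h1 ⊢
    · rintro x ⟨⟨⟨hx, he⟩, hd⟩, h4⟩
      rcases types24 hx.1 hx.2 with ⟨b, hb, hs⟩ | ⟨O, hO, h0, hv⟩ | ⟨r, hr, hv⟩ | ⟨O, hO, h0, hv⟩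
      · exfalso; rw [hs none, if_pos rfl] at h4; omega
      · refine ⟨O, ⟨hO, h0, ?_, ?_⟩, Subtype.ext (funext fun i => (hv i).symm)⟩
        · by_contra hh
          rw [hv none, hv (pt 0), if_pos h0, if_neg hh] at he; norm_num at he
        · intro hh
          rw [hv none, hv (pt 1), if_pos h0, if_pos hh] at hd; norm_num at hd
      · exfalso; rw [hv none, if_neg hr.symm] at h4; omega
      · exfalso; rw [hv none, if_pos rfl] at h4; omega
  have k2 : {y | A8 y ∧ (y : GolayPt → ℤ) none = 3}.ncard = 56 := by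
    refine Eq.trans (Eq.symm ?_) octB56
    refine Set.ncard_congr (fun O hO => (⟨_, vC_mem hO.1 hO.2.1⟩ : leechLattice)) ?_ ?_ ?_
    · rintro O ⟨hO, h0, h1, h2⟩
      have q : ∀ i, ((⟨_, vC_mem hO h0⟩ : leechLattice) : GolayPt → ℤ) i = if i = none then 3 else if i ∈ O then -1 else 1 := fun i => rfl
      refine ⟨⟨⟨vC_X hO h0 q, ?_⟩, ?_⟩, ?_⟩
      · rw [q, q, if_pos rfl, if_neg pt0_ne, if_neg h1]; norm_num
      · rw [q, q, if_pos rfl, if_neg pt1_ne, if_pos h2]; norm_num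
      · rw [q, if_pos rfl]
    · rintro O O' hO hO' h
      ext i
      have h1 := congrFun (congrArg (fun v : leechLattice => (v : GolayPt → ℤ)) h) i
      change (if i = none then 3 else if i ∈ O then -1 else 1 : ℤ) = (if i = none then 3 else if i ∈ O' then -1 else 1 : ℤ) at h1
      by_cases hi : i = none
      · subst hi
        exact ⟨fun _ => hO'.2.1, fun _ => hO.2.1⟩
      · rw [if_neg hi, if_neg hi] at h1
        by_cases h2 : i ∈ O <;> by_cases h3 : i ∈ O' <;> simp [h2, h3] at h1 ⊢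
    · rintro x ⟨⟨⟨hx, he⟩, hd⟩, h4⟩
      rcases types24 hx.1 hx.2 with ⟨b, hb, hs⟩ | ⟨O, hO, h0, hv⟩ | ⟨r, hr, hv⟩ | ⟨O, hO, h0, hv⟩
      · exfalso; rw [hs none, if_pos rfl] at h4; omega
      · exfalso; rw [hv none, if_pos h0] at h4; omega
      · exfalso; rw [hv none, if_neg hr.symm] at h4; omega
      · refine ⟨O, ⟨hO, h0, ?_, ?_⟩, Subtype.ext (funext fun i => (hv i).symm)⟩
        · intro hh
          rw [hv none, hv (pt 0), if_pos rfl, if_neg pt0_ne, if_pos hh] at he; norm_num at he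
        · by_contra hh
          rw [hv none, hv (pt 1), if_pos rfl, if_neg pt1_ne, if_neg hh] at hd; norm_num at hd
  rw [k1, k2]

def A16 : Set leechLattice := {y | MX y ∧ y ≠ xv (pt 1) ∧ (y : GolayPt → ℤ) none + (y : GolayPt → ℤ) (pt 1) = 4}

theorem A16_card : A16.ncard = 162 := by
  have h : {x : leechLattice | X24 x ∧ (x : GolayPt → ℤ) none + (x : GolayPt → ℤ) (pt 0) = 4} = {xv (pt 1)} ∪ A8 ∪ A16 := by
    ext y
    constructor
    · intro hy
      have hy' : MX y := hy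
      by_cases hh : y = xv (pt 1)
      · exact Or.inl (Or.inl hh)
      · rcases mc_cases hy' with k | k | k
        · exact absurd k hh
        · exact Or.inr ⟨hy', hh, k⟩
        · exact Or.inl (Or.inr ⟨hy', k⟩)
    · rintro ((h | h) | h)
      · rw [Set.mem_singleton_iff] at h
        rw [h]; exact MX_xv
      · exact h.1
      · exact h.1
  have f1 : A8.Finite := f32.subset fun y hy => hy.1.1.1
  have f2 : A16.Finite := f32.subset fun y hy => hy.1.1.1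
  have hc := mc275
  rw [h, three_sets (Set.finite_singleton _) f1 f2 (by
      rw [Set.disjoint_left]
      intro y hy hy'
      rw [Set.mem_singleton_iff] at hy
      have h2 := hy'.2
      rw [hy, xv_sh pt1_ne none, xv_sh pt1_ne (pt 1), if_pos rfl, if_neg pt1_ne, if_pos rfl] at h2
      norm_num at h2) (by
      rw [Set.disjoint_left]
      intro y hy hy'
      exact hy'.2.1 hy) (by
      rw [Set.disjoint_left]
      intro y hy hy'
      have h1 := hy.2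
      have h2 := hy'.2.2
      omega), Set.ncard_singleton, A8_card] at hc
  omega

def McC (u v : leechLattice) : Set leechLattice :=
  {x | sqNorm (x : GolayPt → ℤ) = 32 ∧ dotInt (u : GolayPt → ℤ) (x : GolayPt → ℤ) = 24 ∧ dotInt (v : GolayPt → ℤ) (x : GolayPt → ℤ) = 16}

theorem mc_rank {u v x : leechLattice} (hu : sqNorm (u : GolayPt → ℤ) = 48) (hv : sqNorm (v : GolayPt → ℤ) = 32)
    (huv : dotInt (u : GolayPt → ℤ) (v : GolayPt → ℤ) = 24) (hx : x ∈ McC u v) :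
    {y | y ∈ McC u v ∧ dotInt (x : GolayPt → ℤ) (y : GolayPt → ℤ) = 8}.ncard = 112 ∧
    {y | y ∈ McC u v ∧ y ≠ x ∧ dotInt (x : GolayPt → ℤ) (y : GolayPt → ℤ) = 16}.ncard = 162 ∧
    ∀ y ∈ McC u v, ∀ y' ∈ McC u v, y ≠ x → y' ≠ x → dotInt (x : GolayPt → ℤ) (y : GolayPt → ℤ) = dotInt (x : GolayPt → ℤ) (y' : GolayPt → ℤ) →
      ∃ g : Co0, g • u = u ∧ g • v = v ∧ g • x = x ∧ g • y = y' := by
  have key : ∀ u v : leechLattice, sqNorm (u : GolayPt → ℤ) = 48 → sqNorm (v : GolayPt → ℤ) = 32 → dotInt (u : GolayPt → ℤ) (v : GolayPt → ℤ) = 24 →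
      sqNorm ((u - v : leechLattice) : GolayPt → ℤ) = 32 ∧ dotInt (v : GolayPt → ℤ) ((u - v : leechLattice) : GolayPt → ℤ) = -8 := by
    intro u v hu hv huv
    have h1 := norm_sub' u v
    have h2 := dot_add_right' v (u - v) v
    rw [sub_add_cancel, dot_self', dot_comm' v u] at h2
    omega
  obtain ⟨k1, k2⟩ := key u v hu hv huv
  obtain ⟨k3, k4⟩ := key uS vS uS_norm vS_norm uv
  obtain ⟨h0, e1, e2⟩ := pair8 hv k1 vS_norm k3 k2 k4
  have e3 : h0 • u = uS := by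
    have : h0 • u = h0 • v + h0 • (u - v) := by rw [← smul_add', add_sub_cancel]
    rw [this, e1, e2, add_sub_cancel]
  have hmem : ∀ h : Co0, h • u = uS → h • v = vS → ∀ x, x ∈ McC u v ↔ MX (h • x) := by
    intro h e3 e1 x
    rw [MX_iff]
    unfold McC X24
    rw [sqNorm_smul, ← e3, ← e1, dot_smul, dot_smul]
    exact ⟨fun ⟨a, b, c⟩ => ⟨⟨a, b⟩, c⟩, fun ⟨⟨a, b⟩, c⟩ => ⟨a, b, c⟩⟩
  have hx1 : h0⁻¹ • xv (pt 1) ∈ McC u v := by
    rw [hmem h0 e3 e1, smul_inv_smul]; exact MX_xv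
  obtain ⟨g, g1, g2, g3⟩ := (mc_main hu hv huv rfl).2 x hx _ hx1
  obtain ⟨h, hh⟩ : ∃ h, h = h0 * g := ⟨_, rfl⟩
  have f1 : h • u = uS := by rw [hh, mul_smul, g1, e3]
  have f2 : h • v = vS := by rw [hh, mul_smul, g2, e1]
  have f3 : h • x = xv (pt 1) := by rw [hh, mul_smul, g3, smul_inv_smul]
  have hdot : ∀ y : leechLattice, dotInt (x : GolayPt → ℤ) (y : GolayPt → ℤ) = 4 * ((h • y : leechLattice) : GolayPt → ℤ) none + 4 * ((h • y : leechLattice) : GolayPt → ℤ) (pt 1) := by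
    intro y
    rw [← dot_smul h, f3, dot_xv]
  have hne : ∀ y, y ≠ x ↔ h • y ≠ xv (pt 1) := by
    intro y
    rw [← f3]
    exact not_congr (smul_left_cancel_iff h).symm
  refine ⟨?_, ?_, ?_⟩
  · refine Eq.trans ?_ A8_card
    apply ncard_move h
    intro y
    constructor
    · rintro ⟨a, b⟩
      rw [hdot] at b
      exact ⟨(hmem h f1 f2 y).1 a, by omega⟩
    · rintro ⟨a, b⟩
      exact ⟨(hmem h f1 f2 y).2 a, by rw [hdot]; omega⟩
  · refine Eq.trans ?_ A16_card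
    apply ncard_move h
    intro y
    constructor
    · rintro ⟨a, b, c⟩
      rw [hdot] at c
      exact ⟨(hmem h f1 f2 y).1 a, (hne y).1 b, by omega⟩
    · rintro ⟨a, b, c⟩
      exact ⟨(hmem h f1 f2 y).2 a, (hne y).2 b, by rw [hdot]; omega⟩
  · intro y hy y' hy' hn hn' hd
    rw [hdot, hdot] at hd
    rw [hne] at hn hn'
    have a := (hmem h f1 f2 y).1 hy
    have a' := (hmem h f1 f2 y').1 hy'
    obtain ⟨g, g1, g2, g3, g4⟩ : ∃ g : Co0, g • uS = uS ∧ g • vS = vS ∧ g • xv (pt 1) = xv (pt 1) ∧ g • (h • y) = h • y' := by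
      rcases mc_cases a with k | k | k
      · exact absurd k hn
      · exact mc_trans16 a a' hn hn' k (by omega)
      · exact mc_trans8 a a' k (by omega)
    refine ⟨h⁻¹ * (g * h), ?_, ?_, ?_, ?_⟩
    · rw [mul_smul, mul_smul, f1, g1, ← f1, inv_smul_smul]
    · rw [mul_smul, mul_smul, f2, g2, ← f2, inv_smul_smul]
    · rw [mul_smul, mul_smul, f3, g3, ← f3, inv_smul_smul]
    · rw [mul_smul, mul_smul, g4, inv_smul_smul]

end Cfsg.Agent.H9.Leech
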