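import Cfsg.Agent.H9.Leech.V4
import Cfsg.Agent.H6.ExtraSplit
set_option autoImplicit false

/-! Extraspecial groups whose central quotient is the lattice modulo 2. -/

namespace Cfsg.Agent.H9.Leech
open Cfsg Cfsg.Agent.H9 Cfsg.Agent.H6
open scoped Pointwise

section ext
variable {P : Type*} [Group P] {c : P}

open Classical in
noncomputable def kap (c : P) (a : ZMod 2) : P := if a = 0 then 1 else c

theorem kap_zero : kap c 0 = 1 := if_pos rfl
theorem kap_one : kap c 1 = c := if_neg (by decide)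

theorem kap_add (h : EData c) (a b : ZMod 2) : kap c (a + b) = kap c a * kap c b := by
  rcases (z2 a).2 with rfl | rfl <;> rcases (z2 b).2 with rfl | rfl
  · rw [add_zero, kap_zero, mul_one]
  · rw [zero_add, kap_zero, one_mul]
  · rw [add_zero, kap_zero, mul_one]
  · rw [show (1 : ZMod 2) + 1 = 0 by decide, kap_zero, kap_one, h.zz]

theorem kap_inj (h : EData c) {a b : ZMod 2} (hab : kap c a = kap c b) : a = b := by
  rcases (z2 a).2 with rfl | rfl <;> rcases (z2 b).2 with rfl | rfl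
  · rfl
  · rw [kap_zero, kap_one] at hab; exact absurd hab.symm h.ne
  · rw [kap_zero, kap_one] at hab; exact absurd hab h.ne
  · rfl

theorem kap_comm (h : EData c) (a : ZMod 2) (x : P) : x * kap c a = kap c a * x := by
  rcases (z2 a).2 with rfl | rfl
  · rw [kap_zero, mul_one, one_mul]
  · rw [kap_one]; exact h.central x

open Classical in
/-- the squaring form -/
noncomputable def sqf (x : P) : ZMod 2 := if x * x = 1 then 0 else 1

open Classical in
/-- the commutator form -/
noncomputable def bl (x y : P) : ZMod 2 := if x * y = y * x then 0 else 1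

theorem sqf_zero {x : P} : sqf x = 0 ↔ x * x = 1 := by
  unfold sqf
  by_cases h : x * x = 1
  · rw [if_pos h]; simp [h]
  · rw [if_neg h]; simp [h]

theorem bl_zero {x y : P} : bl x y = 0 ↔ x * y = y * x := by
  unfold bl
  by_cases h : x * y = y * x
  · rw [if_pos h]; simp [h]
  · rw [if_neg h]; simp [h]

theorem sqf_spec (h : EData c) (x : P) : x * x = kap c (sqf x) := by
  unfold sqf
  by_cases h1 : x * x = 1
  · rw [if_pos h1, kap_zero, h1]
  · rw [if_neg h1, kap_one]; exact (h.sq x).resolve_left h1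

theorem bl_spec (h : EData c) (x y : P) : x * y = kap c (bl x y) * (y * x) := by
  unfold bl
  by_cases h1 : x * y = y * x
  · rw [if_pos h1, kap_zero, h1, one_mul]
  · rw [if_neg h1, kap_one]; exact (h.comm x y).resolve_left h1

theorem bl_symm (x y : P) : bl x y = bl y x := by
  unfold bl
  by_cases h1 : x * y = y * x
  · rw [if_pos h1, if_pos h1.symm]
  · rw [if_neg h1, if_neg (fun h => h1 h.symm)]

theorem sqf_mul (h : EData c) (x y : P) : sqf (x * y) = sqf x + sqf y + bl x y := by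
  apply kap_inj h
  have h1 : x * y * (x * y) = x * (y * x) * y := by group
  have h2 := bl_spec h y x
  rw [← sqf_spec h, h1, h2, kap_add h, kap_add h, ← sqf_spec h x, ← sqf_spec h y, bl_symm x y]
  have h3 : x * (kap c (bl y x) * (x * y)) * y = (x * kap c (bl y x)) * (x * (y * y)) := by group
  rw [h3, kap_comm h (bl y x) x, kap_comm h (bl y x) (x * x * (y * y))]; group

theorem bl_mul (h : EData c) (x y w : P) : bl (x * y) w = bl x w + bl y w := by
  apply kap_inj h
  have h1 := bl_spec h (x * y) w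
  have h2 : x * y * w = kap c (bl x w + bl y w) * (w * (x * y)) := by
    calc x * y * w = x * (y * w) := by group
      _ = x * (kap c (bl y w) * (w * y)) := by rw [← bl_spec h]
      _ = (x * kap c (bl y w)) * (w * y) := by group
      _ = kap c (bl y w) * (x * w) * y := by rw [kap_comm h]; group
      _ = kap c (bl y w) * (kap c (bl x w) * (w * x)) * y := by rw [← bl_spec h]
      _ = (kap c (bl y w) * kap c (bl x w)) * (w * (x * y)) := by group
      _ = _ := by rw [← kap_add h, add_comm]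
  exact mul_right_cancel (h1.symm.trans h2)

theorem kap_center (h : EData c) : c ∈ Subgroup.center P := Subgroup.mem_center_iff.2 fun x => h.central x

theorem mem_center_ed (h : EData c) {x : P} : x ∈ Subgroup.center P ↔ x = 1 ∨ x = c := by
  constructor
  · intro hx; exact h.cen x fun y => (Subgroup.mem_center_iff.1 hx y).symm
  · rintro (rfl | rfl)
    · exact Subgroup.one_mem _
    · exact kap_center h

theorem mk_eq_iff (h : EData c) {x y : P} : (QuotientGroup.mk x : P ⧸ Subgroup.center P) = QuotientGroup.mk y ↔ y = x ∨ y = c * x := by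
  rw [QuotientGroup.eq, mem_center_ed h]
  constructor
  · rintro (h1 | h1)
    · left; exact (inv_mul_eq_one.1 h1).symm
    · right
      have : y = x * c := by rw [← h1]; group
      rw [this, h.central]
  · rintro (rfl | rfl)
    · left; group
    · right; rw [← h.central]; group

theorem mk_one_iff (h : EData c) {x : P} : (QuotientGroup.mk x : P ⧸ Subgroup.center P) = 1 ↔ x = 1 ∨ x = c := by
  rw [QuotientGroup.eq_one_iff, mem_center_ed h]

theorem sqf_c (h : EData c) (x : P) : sqf (c * x) = sqf x := by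
  apply kap_inj h
  rw [← sqf_spec h, ← sqf_spec h]
  have : c * x * (c * x) = c * (x * c) * x := by group
  rw [this, h.central]
  have : c * (c * x) * x = (c * c) * (x * x) := by group
  rw [this, h.zz, one_mul]

end ext

variable {C : Type*} [Group C] {Q : Subgroup C} [Q.Normal]

/-- conjugation on `Q` -/
def cj (Q : Subgroup C) [hQ : Q.Normal] (h : C) (x : Q) : Q := ⟨h * x * h⁻¹, hQ.conj_mem x x.2 h⟩

structure MT (c : Q) (e : C ⧸ Q ≃* Spor.Co1) (ψ : leechLattice → Q ⧸ Subgroup.center Q) : Prop where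
  ed : EData c
  add : ∀ v w : leechLattice, ψ (v + w) = ψ v * ψ w
  surj : Function.Surjective ψ
  ker : ∀ v : leechLattice, ψ v = 1 ↔ ∃ w : leechLattice, v = w + w
  act : ∀ (h : C) (g : Co0), (QuotientGroup.mk g : Spor.Co1) = e (QuotientGroup.mk h) →
    ∀ (v : leechLattice) (q : Q), ψ v = QuotientGroup.mk q → ψ (g • v) = QuotientGroup.mk (cj Q h q)

namespace MT
variable {c : Q} {e : C ⧸ Q ≃* Spor.Co1} {ψ : leechLattice → Q ⧸ Subgroup.center Q}

theorem zero (m : MT c e ψ) : ψ 0 = 1 := (m.ker 0).2 ⟨0, by simp⟩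

theorem neg (m : MT c e ψ) (v : leechLattice) : ψ (-v) = (ψ v)⁻¹ := by
  have := m.add v (-v)
  rw [add_neg_cancel, m.zero] at this
  exact (inv_eq_of_mul_eq_one_right this.symm).symm

theorem sub (m : MT c e ψ) (v w : leechLattice) : ψ (v - w) = ψ v * (ψ w)⁻¹ := by
  rw [sub_eq_add_neg, m.add, m.neg]

theorem eq_iff (m : MT c e ψ) {v w : leechLattice} : ψ v = ψ w ↔ ∃ z : leechLattice, v - w = z + z := by
  rw [← m.ker, m.sub, mul_inv_eq_one]

theorem exists_h (_ : MT c e ψ) (g : Co0) : ∃ h : C, (QuotientGroup.mk g : Spor.Co1) = e (QuotientGroup.mk h) := by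
  obtain ⟨h, hh⟩ := QuotientGroup.mk_surjective (e.symm (QuotientGroup.mk g))
  exact ⟨h, by rw [hh, MulEquiv.apply_symm_apply]⟩

theorem exists_g (_ : MT c e ψ) (h : C) : ∃ g : Co0, (QuotientGroup.mk g : Spor.Co1) = e (QuotientGroup.mk h) :=
  QuotientGroup.mk_surjective _

theorem lift (_ : MT c e ψ) (v : leechLattice) : ∃ x : Q, ψ v = QuotientGroup.mk x := by
  obtain ⟨x, hx⟩ := QuotientGroup.mk_surjective (ψ v)
  exact ⟨x, hx.symm⟩

theorem sqf_cj (h : C) (x : Q) : sqf (cj Q h x) = sqf x := by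
  have h1 : cj Q h x * cj Q h x = 1 ↔ x * x = 1 := by
    rw [Subtype.ext_iff, Subtype.ext_iff]
    change h * x * h⁻¹ * (h * x * h⁻¹) = 1 ↔ (x : C) * x = 1
    have : h * (x : C) * h⁻¹ * (h * x * h⁻¹) = h * (x * x) * h⁻¹ := by group
    rw [this, mul_inv_eq_one, mul_eq_left]
  unfold sqf
  by_cases h2 : x * x = 1
  · rw [if_pos h2, if_pos (h1.2 h2)]
  · rw [if_neg h2, if_neg (fun h => h2 (h1.1 h))]

open Classical in
theorem exists_form (m : MT c e ψ) : ∀ v : leechLattice, ∀ x : Q, ψ v = QuotientGroup.mk x →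
    sqf x = ((sqNorm (v : GolayPt → ℤ) / 16 : ℤ) : ZMod 2) := by
  choose l hl using m.lift
  have hq : ∀ v : leechLattice, ∀ x : Q, ψ v = QuotientGroup.mk x → sqf (l v) = sqf x := by
    intro v x hx
    rcases (mk_eq_iff m.ed).1 ((hl v).symm.trans hx) with h | h
    · rw [h]
    · rw [h, sqf_c m.ed]
  have key := form_unique (fun v => sqf (l v)) ?_ ?_ ?_ ?_
  · intro v x hx
    rw [← hq v x hx]; exact key v
  · intro v w
    apply hq
    rw [← hl v, m.eq_iff]
    exact ⟨w, by abel⟩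
  · intro u v w
    have h1 : sqf (l (u + v + w)) = sqf (l u * l v * l w) := hq _ _ (by rw [m.add, m.add, hl u, hl v, hl w]; rfl)
    have h2 : sqf (l (u + v)) = sqf (l u * l v) := hq _ _ (by rw [m.add, hl u, hl v]; rfl)
    have h3 : sqf (l (u + w)) = sqf (l u * l w) := hq _ _ (by rw [m.add, hl u, hl w]; rfl)
    have h4 : sqf (l (v + w)) = sqf (l v * l w) := hq _ _ (by rw [m.add, hl v, hl w]; rfl)
    change sqf (l (u + v + w)) + sqf (l u) + sqf (l v) + sqf (l w) = sqf (l (u + v)) + sqf (l (u + w)) + sqf (l (v + w))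
    rw [h1, h2, h3, h4, sqf_mul m.ed (l u * l v), sqf_mul m.ed (l u) (l v), sqf_mul m.ed (l u) (l w), sqf_mul m.ed (l v) (l w), bl_mul m.ed]
    generalize sqf (l u) = a
    generalize sqf (l v) = b
    generalize sqf (l w) = d
    generalize bl (l u) (l v) = p
    generalize bl (l u) (l w) = q
    generalize bl (l v) (l w) = r
    revert a b d p q r; decide
  · intro g v
    obtain ⟨h, hh⟩ := m.exists_h g
    have h1 := m.act h g hh v (l v) (hl v)
    change sqf (l (g • v)) = sqf (l v)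
    rw [hq _ _ h1, sqf_cj]
  · by_contra hcon
    push Not at hcon
    have hsq : ∀ x : Q, x * x = 1 := by
      intro x
      obtain ⟨v, hv⟩ := m.surj (QuotientGroup.mk x)
      rw [← sqf_zero, ← hq v x hv]; exact hcon v
    have hab : ∀ x y : Q, x * y = y * x := by
      intro x y
      rw [← bl_zero]
      have := sqf_mul m.ed x y
      rw [sqf_zero.2 (hsq _), sqf_zero.2 (hsq _), sqf_zero.2 (hsq _)] at this
      simpa using this.symm
    obtain ⟨x, hx⟩ := m.lift aU
    have h1 : ψ aU = 1 := by rw [hx, mk_one_iff m.ed]; exact m.ed.cen x (hab x)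
    obtain ⟨w, hw⟩ := (m.ker aU).1 h1
    have h2 := congrFun (congrArg Subtype.val hw) (pt 0)
    rw [show ((aU : leechLattice) : GolayPt → ℤ) (pt 0) = 4 by rw [aU_val]; simp] at h2
    have h3 : sqNorm ((aU : leechLattice) : GolayPt → ℤ) = 4 * sqNorm (w : GolayPt → ℤ) := by
      rw [hw]
      change sqNorm ((w : GolayPt → ℤ) + (w : GolayPt → ℤ)) = _
      unfold sqNorm
      rw [Finset.mul_sum]
      apply Finset.sum_congr rfl
      intro i _
      change ((w : GolayPt → ℤ) i + (w : GolayPt → ℤ) i) ^ 2 = _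
      ring
    have h4 : sqNorm ((aU : leechLattice) : GolayPt → ℤ) = 32 := by
      change sqNorm (vec etaA0) = 32
      exact sq_vec _ _ (by decide +kernel)
    have h5 := norm_dvd w.2
    omega

theorem sq_iff (m : MT c e ψ) {v : leechLattice} {x : Q} (h : ψ v = QuotientGroup.mk x) :
    x * x = 1 ↔ (32 : ℤ) ∣ sqNorm (v : GolayPt → ℤ) := by
  rw [← sqf_zero, m.exists_form v x h, ZMod.intCast_zmod_eq_zero_iff_dvd]
  have := norm_dvd v.2
  push_cast
  omega

theorem comm_iff (m : MT c e ψ) {v w : leechLattice} {x y : Q} (hv : ψ v = QuotientGroup.mk x) (hw : ψ w = QuotientGroup.mk y) :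
    x * y = y * x ↔ dotInt (v : GolayPt → ℤ) (w : GolayPt → ℤ) % 16 = 0 := by
  have h1 := m.exists_form v x hv
  have h2 := m.exists_form w y hw
  have h3 := m.exists_form (v + w) (x * y) (by rw [m.add, hv, hw]; rfl)
  have h4 := sqf_mul m.ed x y
  rw [h1, h2, h3] at h4
  have h5 : sqNorm ((v + w : leechLattice) : GolayPt → ℤ) = sqNorm (v : GolayPt → ℤ) + 2 * dotInt (v : GolayPt → ℤ) (w : GolayPt → ℤ) + sqNorm (w : GolayPt → ℤ) := by
    change sqNorm ((v : GolayPt → ℤ) + (w : GolayPt → ℤ)) = _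
    rw [sqNorm_add]; ring
  obtain ⟨a, ha⟩ := norm_dvd v.2
  obtain ⟨b, hb⟩ := norm_dvd w.2
  obtain ⟨d, hd⟩ := dot_dvd v.2 w.2
  rw [ha, hb, hd] at h5
  rw [h5, ha, hb] at h4
  have e1 : (16 * a / 16 : ℤ) = a := by omega
  have e2 : (16 * b / 16 : ℤ) = b := by omega
  have e3 : ((16 * a + 2 * (8 * d) + 16 * b) / 16 : ℤ) = a + b + d := by omega
  rw [e1, e2, e3] at h4
  push_cast at h4
  have h6 : bl x y = (d : ZMod 2) := (add_left_cancel h4).symm
  rw [← bl_zero, h6, hd, ZMod.intCast_zmod_eq_zero_iff_dvd]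
  push_cast
  omega

/-- fusion in the centralizer -/
theorem trans (m : MT c e ψ) {v w : leechLattice} (h : EqvC (v : GolayPt → ℤ) (w : GolayPt → ℤ)) (hw : ψ w ≠ 1) {x y : Q}
    (hx : ψ v = QuotientGroup.mk x) (hy : ψ w = QuotientGroup.mk y) : ∃ k : C, cj Q k x = y := by
  obtain ⟨_, g, w', ⟨hvm, hg⟩, u, hu, hu'⟩ := h
  obtain ⟨k, hk⟩ := m.exists_h g
  have h1 := m.act k g hk v x hx
  have h2 : ψ (g • v) = ψ w := by
    rw [m.eq_iff]
    refine ⟨⟨u, hu⟩, Subtype.ext ?_⟩
    change ((g • v : leechLattice) : GolayPt → ℤ) - (w : GolayPt → ℤ) = u + u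
    rw [← hu', ← hg]
  rw [h1, hy] at h2
  rcases (mk_eq_iff m.ed).1 h2 with h3 | h3
  · exact ⟨k, h3.symm⟩
  · have hyc : ¬ ∀ q, y * q = q * y := by
      intro hc
      exact hw (hy.trans ((mk_one_iff m.ed).2 (m.ed.cen y hc)))
    push Not at hyc
    obtain ⟨q, hq⟩ := hyc
    refine ⟨q * k, ?_⟩
    have h4 : cj Q ((q : C) * k) x = q * cj Q k x * q⁻¹ := Subtype.ext (by
      change (q : C) * k * x * ((q : C) * k)⁻¹ = q * (k * x * k⁻¹) * (q : C)⁻¹
      group)
    rw [h4]
    have h5 : cj Q k x = c * y := by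
      rw [h3, ← mul_assoc, m.ed.zz, one_mul]
    have h6 : q * y = c * (y * q) := (m.ed.comm q y).resolve_left (fun h => hq h.symm)
    rw [h5]
    calc q * (c * y) * q⁻¹ = (q * c) * y * q⁻¹ := by group
      _ = c * (q * y) * q⁻¹ := by rw [m.ed.central]; group
      _ = (c * c) * y := by rw [h6]; group
      _ = y := by rw [m.ed.zz, one_mul]

/-- the subgroup of the lattice corresponding to a subgroup of `Q` -/
def bar (m : MT c e ψ) (D : Subgroup Q) : AddSubgroup leechLattice where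
  carrier := {v | ∃ x ∈ D, ψ v = QuotientGroup.mk x}
  zero_mem' := ⟨1, D.one_mem, m.zero⟩
  add_mem' := by
    rintro v w ⟨x, hx, hv⟩ ⟨y, hy, hw⟩
    exact ⟨x * y, D.mul_mem hx hy, by rw [m.add, hv, hw]; rfl⟩
  neg_mem' := by
    rintro v ⟨x, hx, hv⟩
    exact ⟨x⁻¹, D.inv_mem hx, by rw [m.neg, hv]; rfl⟩

def hom (m : MT c e ψ) : Multiplicative leechLattice →* Q ⧸ Subgroup.center Q where
  toFun v := ψ v.toAdd
  map_one' := m.zero
  map_mul' v w := m.add _ _

theorem bar_index (m : MT c e ψ) {D : Subgroup Q} (hc : c ∈ D) : (m.bar D).index = D.index := by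
  have h1 : (D.map (QuotientGroup.mk' (Subgroup.center Q))).index = D.index := by
    apply Subgroup.index_map_eq _ (QuotientGroup.mk'_surjective _)
    rw [QuotientGroup.ker_mk']
    intro x hx
    rcases (mem_center_ed m.ed).1 hx with rfl | rfl
    · exact D.one_mem
    · exact hc
  have h2 : ((D.map (QuotientGroup.mk' (Subgroup.center Q))).comap m.hom).index = (D.map (QuotientGroup.mk' (Subgroup.center Q))).index :=
    Subgroup.index_comap_of_surjective _ (fun y => by obtain ⟨v, hv⟩ := m.surj y; exact ⟨Multiplicative.ofAdd v, hv⟩)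
  rw [← h1, ← h2]
  have h3 : (D.map (QuotientGroup.mk' (Subgroup.center Q))).comap m.hom = AddSubgroup.toSubgroup (m.bar D) := by
    ext v
    rw [Subgroup.mem_comap, Subgroup.mem_map]
    constructor
    · rintro ⟨x, hx, hxv⟩; exact ⟨x, hx, hxv.symm⟩
    · rintro ⟨x, hx, hxv⟩; exact ⟨x, hx, hxv.symm⟩
  rw [h3]; rfl

/-- a subgroup of `Q` from a subgroup of the lattice -/
def unbar (m : MT c e ψ) (A : AddSubgroup leechLattice) : Subgroup Q where
  carrier := {x | ∃ v ∈ A, ψ v = QuotientGroup.mk x}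
  one_mem' := ⟨0, A.zero_mem, m.zero⟩
  mul_mem' := by
    rintro x y ⟨v, hv, h1⟩ ⟨w, hw, h2⟩
    exact ⟨v + w, A.add_mem hv hw, by rw [m.add, h1, h2]; rfl⟩
  inv_mem' := by
    rintro x ⟨v, hv, h1⟩
    exact ⟨-v, A.neg_mem hv, by rw [m.neg, h1]; rfl⟩

theorem bar_unbar (m : MT c e ψ) {A : AddSubgroup leechLattice} (h2 : ∀ v, v + v ∈ A) : m.bar (m.unbar A) = A := by
  ext v
  constructor
  · rintro ⟨x, ⟨w, hw, h1⟩, h3⟩
    obtain ⟨z, hz⟩ := m.eq_iff.1 (h3.trans h1.symm)
    have : v = w + (z + z) := by rw [← hz]; abel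
    rw [this]; exact A.add_mem hw (h2 z)
  · intro hv
    obtain ⟨x, hx⟩ := m.lift v
    exact ⟨x, ⟨v, hv, hx⟩, hx⟩

theorem c_mem_unbar (m : MT c e ψ) (A : AddSubgroup leechLattice) : c ∈ m.unbar A :=
  ⟨0, A.zero_mem, by rw [m.zero]; exact ((mk_one_iff m.ed).2 (Or.inr rfl)).symm⟩

end MT

theorem V4_two (v : leechLattice) : v + v ∈ V4 := by
  rcases (mem_iff.1 v.2).2 with ⟨h, _⟩ | ⟨h, _⟩
  · refine ⟨0, fun i => ?_⟩
    change ((v : GolayPt → ℤ) i + (v : GolayPt → ℤ) i) % 4 = _
    have := h i; omega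
  · refine ⟨1, fun i => ?_⟩
    change ((v : GolayPt → ℤ) i + (v : GolayPt → ℤ) i) % 4 = _
    have := h i; omega

theorem MT.elem {c : Q} {e : C ⧸ Q ≃* Spor.Co1} {ψ : leechLattice → Q ⧸ Subgroup.center Q} (m : MT c e ψ) (hcard : Nat.card Q = 2 ^ 25) :
    ∃ E : Subgroup Q, IsElementaryAbelian 2 E ∧ Nat.card E = 2 ^ 13 := by
  refine ⟨m.unbar V4, ⟨⟨⟨?_⟩⟩, ?_⟩, ?_⟩
  · rintro ⟨x, v, hv, h1⟩ ⟨y, w, hw, h2⟩
    exact Subtype.ext ((m.comm_iff h1 h2).2 (V4_form hv hw))
  · rintro x ⟨v, hv, h1⟩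
    rw [pow_two]
    exact (m.sq_iff h1).2 (V4_norm hv)
  · have h1 := m.bar_index (m.c_mem_unbar V4)
    rw [m.bar_unbar V4_two, V4_index] at h1
    have h2 := (m.unbar V4).card_mul_index
    rw [← h1, hcard] at h2
    exact Nat.eq_of_mul_eq_mul_right (show 0 < 2 ^ 12 by norm_num) (h2.trans (by norm_num))

end Cfsg.Agent.H9.Leech
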