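import Cfsg.Agent.H9.Leech.Mon2
import Cfsg.Prelude.Def_MonsterType
set_option autoImplicit false

/-! Groups of Monster type. -/

namespace Cfsg.Agent.H9.Leech
open Cfsg Cfsg.Agent.H9 Cfsg.Agent.H6
open scoped Pointwise

section ext
variable {P : Type*} [Group P] {c : P}

theorem z2' : ∀ a : ZMod 2, a ≠ 0 → a = 1 := by decide

theorem exists_noncomm_ed (h : EData c) {d s : P} (h1 : d ≠ 1) (h2 : d ≠ c) (h3 : d ≠ s) (h4 : d ≠ c * s) :
    ∃ y, y * s = s * y ∧ ¬ (y * d = d * y) := by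
  by_contra hcon
  push Not at hcon
  have key : ∀ y, bl y s = 0 → bl y d = 0 := fun y hy => bl_zero.2 (hcon y (bl_zero.1 hy))
  have hcen : ¬ ∀ y, bl y d = 0 := by
    intro hall
    rcases h.cen d (fun y => (bl_zero.1 (hall y)).symm) with h5 | h5
    · exact h1 h5
    · exact h2 h5
  by_cases hs : ∀ y, bl y s = 0
  · exact hcen fun y => key y (hs y)
  push Not at hs
  obtain ⟨x0, hx0⟩ := hs
  have hx0' := z2' _ hx0
  have hmul : ∀ y, bl y s = 1 → bl x0 d + bl y d = 0 := by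
    intro y hy
    rw [← bl_mul h]
    apply key
    rw [bl_mul h, hx0', hy]; decide
  by_cases hd : bl x0 d = 0
  · apply hcen
    intro y
    by_cases hy : bl y s = 0
    · exact key y hy
    · have := hmul y (z2' _ hy)
      rw [hd, zero_add] at this; exact this
  · have hd' := z2' _ hd
    have hall : ∀ y, bl (d * s) y = 0 := by
      intro y
      rw [bl_mul h, bl_symm d, bl_symm s]
      by_cases hy : bl y s = 0
      · rw [hy, key y hy, add_zero]
      · have hy' := z2' _ hy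
        have h5 := hmul y hy'
        rw [hd'] at h5
        rw [hy', add_comm]; exact h5
    have hss : s⁻¹ = s ∨ s⁻¹ = c * s := by
      rcases h.sq s with h6 | h6
      · left; exact inv_eq_of_mul_eq_one_left h6
      · right
        apply inv_eq_of_mul_eq_one_left
        rw [mul_assoc, h6, h.zz]
    rcases h.cen (d * s) (fun y => bl_zero.1 (hall y)) with h5 | h5
    · have h6 : d = s⁻¹ := eq_inv_of_mul_eq_one_left h5
      rcases hss with h7 | h7
      · exact h3 (h6.trans h7)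
      · exact h4 (h6.trans h7)
    · have h6 : d = c * s⁻¹ := by rw [← h5]; group
      rcases hss with h7 | h7
      · exact h4 (by rw [h6, h7])
      · exact h3 (by rw [h6, h7, ← mul_assoc, h.zz, one_mul])

/-- centralizers have index two -/
theorem card_centralizer_ed (h : EData c) {s : P} (hs : ∃ y, ¬ y * s = s * y) :
    2 * Nat.card (Subgroup.centralizer ({s} : Set P)) = Nat.card P := by
  obtain ⟨y, hy⟩ := hs
  let f : P →* Multiplicative (ZMod 2) :=
    { toFun := fun x => Multiplicative.ofAdd (bl x s)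
      map_one' := by rw [bl_zero.2 (by simp)]; rfl
      map_mul' := fun x y => by rw [bl_mul h]; rfl }
  have hker : f.ker = Subgroup.centralizer ({s} : Set P) := by
    ext x
    rw [MonoidHom.mem_ker, Subgroup.mem_centralizer_singleton_iff, ← bl_zero]
    exact Iff.rfl
  have hsurj : Function.Surjective f := by
    intro a
    rcases (z2 a.toAdd).2 with ha | ha
    · exact ⟨1, (map_one f).trans ha.symm⟩
    · refine ⟨y, ?_⟩
      have : bl y s = 1 := z2' _ (fun h => hy (bl_zero.1 h))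
      exact this.trans ha.symm
  have h1 : f.ker.index = 2 := by
    rw [Subgroup.index_ker, MonoidHom.range_eq_top.2 hsurj, Subgroup.card_top]
    exact Nat.card_zmod 2
  have h2 := f.ker.index_mul_card
  rw [h1, hker] at h2
  exact h2

end ext

variable {G : Type*} [Group G] {z : G} {Q : Subgroup (Subgroup.centralizer ({z} : Set G))} [Q.Normal]

def inc (Q : Subgroup (Subgroup.centralizer ({z} : Set G))) : Q →* G := (Subgroup.centralizer ({z} : Set G)).subtype.comp Q.subtype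

theorem inc_inj : Function.Injective (inc Q) := fun _ _ h => Subtype.ext (Subtype.ext h)

/-- the group `Q` inside `G` -/
def RG (Q : Subgroup (Subgroup.centralizer ({z} : Set G))) : Subgroup G := Q.map (Subgroup.centralizer ({z} : Set G)).subtype

theorem mem_RG {x : G} : x ∈ RG Q ↔ ∃ q : Q, inc Q q = x := by
  constructor
  · rintro ⟨y, hy, rfl⟩; exact ⟨⟨y, hy⟩, rfl⟩
  · rintro ⟨q, rfl⟩; exact ⟨q, q.2, rfl⟩

def DQ (Q : Subgroup (Subgroup.centralizer ({z} : Set G))) (g : G) : Subgroup Q :=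
  ((RG Q).map (MulAut.conj g).toMonoidHom).comap (inc Q)

theorem mem_DQ {g : G} {x : Q} : x ∈ DQ Q g ↔ ∃ y : Q, g * inc Q y * g⁻¹ = inc Q x := by
  unfold DQ
  rw [Subgroup.mem_comap, Subgroup.mem_map]
  constructor
  · rintro ⟨r, hr, h⟩
    obtain ⟨q, rfl⟩ := mem_RG.1 hr
    exact ⟨q, h⟩
  · rintro ⟨q, h⟩
    exact ⟨_, mem_RG.2 ⟨q, rfl⟩, h⟩

theorem RG_eq : RG Q = (inc Q).range := by
  ext x; rw [mem_RG]; rfl

theorem DQ_map (g : G) : (DQ Q g).map (inc Q) = RG Q ⊓ (RG Q).map (MulAut.conj g).toMonoidHom := by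
  unfold DQ
  rw [Subgroup.map_comap_eq, ← RG_eq]

theorem DQ_card_eq (g : G) : Nat.card ↥(RG Q ⊓ (RG Q).map (MulAut.conj g).toMonoidHom : Subgroup G) = Nat.card (DQ Q g) := by
  rw [← DQ_map]
  exact (Nat.card_congr ((DQ Q g).equivMapOfInjective (inc Q) inc_inj).toEquiv).symm

theorem inc_mem (x : Q) : inc Q x ∈ Subgroup.centralizer ({z} : Set G) := (x : Subgroup.centralizer ({z} : Set G)).2

structure Cf (c : Q) (g : G) (s : Q) : Prop where
  hc : inc Q c = z
  hs : inc Q s = g * z * g⁻¹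
  ne : s ≠ c

namespace Cf
variable {c : Q} {g : G} {s : Q} {e : (Subgroup.centralizer ({z} : Set G)) ⧸ Q ≃* Spor.Co1} {ψ : leechLattice → Q ⧸ Subgroup.center Q}

theorem ne1 (f : Cf c g s) (m : MT c e ψ) : s ≠ 1 := by
  intro h
  have h1 := f.hs
  rw [h, map_one] at h1
  have h2 : z = 1 := by
    have : g * z * g⁻¹ = 1 := h1.symm
    rw [mul_inv_eq_one, mul_eq_left] at this
    exact this
  apply m.ed.ne
  apply inc_inj
  rw [f.hc, map_one, h2]

theorem mem_DQ_s (f : Cf c g s) : s ∈ DQ Q g := mem_DQ.2 ⟨c, by rw [f.hc, f.hs]⟩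

/-- conjugation back -/
theorem back (f : Cf c g s) {k : G} (hks : k * inc Q s = inc Q s * k) :
    g⁻¹ * k * g ∈ Subgroup.centralizer ({z} : Set G) := by
  rw [Subgroup.mem_centralizer_singleton_iff]
  rw [f.hs] at hks
  calc g⁻¹ * k * g * z = g⁻¹ * (k * (g * z * g⁻¹)) * g := by group
    _ = g⁻¹ * ((g * z * g⁻¹) * k) * g := by rw [hks]
    _ = z * (g⁻¹ * k * g) := by group

theorem cj_mem (f : Cf c g s) {k : Subgroup.centralizer ({z} : Set G)} (hks : (k : G) * inc Q s = inc Q s * k) {x : Q}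
    (hx : x ∈ DQ Q g) : cj Q k x ∈ DQ Q g := by
  obtain ⟨y, hy⟩ := mem_DQ.1 hx
  refine mem_DQ.2 ⟨cj Q ⟨g⁻¹ * k * g, f.back hks⟩ y, ?_⟩
  change g * (g⁻¹ * k * g * inc Q y * (g⁻¹ * k * g)⁻¹) * g⁻¹ = (k : G) * inc Q x * (k : G)⁻¹
  rw [← hy]; group

theorem comm_s (f : Cf c g s) {x : Q} (hx : x ∈ DQ Q g) (m : MT c e ψ) : x * s = s * x := by
  obtain ⟨y, hy⟩ := mem_DQ.1 hx
  apply inc_inj
  rw [map_mul, map_mul, f.hs, ← hy]
  have h1 : inc Q y * z = z * inc Q y := by
    have := congrArg (inc Q) (m.ed.central y)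
    rw [map_mul, map_mul, f.hc] at this; exact this
  calc g * inc Q y * g⁻¹ * (g * z * g⁻¹) = g * (inc Q y * z) * g⁻¹ := by group
    _ = g * (z * inc Q y) * g⁻¹ := by rw [h1]
    _ = g * z * g⁻¹ * (g * inc Q y * g⁻¹) := by group

theorem DQ_comm (f : Cf c g s) (m : MT c e ψ) {x y : Q} (hx : x ∈ DQ Q g) (hy : y ∈ DQ Q g) : x * y = y * x := by
  rcases m.ed.comm x y with h | h
  · exact h
  exfalso
  obtain ⟨x', hx'⟩ := mem_DQ.1 hx
  obtain ⟨y', hy'⟩ := mem_DQ.1 hy
  rcases m.ed.comm x' y' with h' | h'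
  · have h1 : x * y = y * x := by
      apply inc_inj
      rw [map_mul, map_mul, ← hx', ← hy']
      have := congrArg (inc Q) h'
      rw [map_mul, map_mul] at this
      calc g * inc Q x' * g⁻¹ * (g * inc Q y' * g⁻¹) = g * (inc Q x' * inc Q y') * g⁻¹ := by group
        _ = g * (inc Q y' * inc Q x') * g⁻¹ := by rw [this]
        _ = _ := by group
    rw [h1] at h
    exact m.ed.ne (left_eq_mul₀' h)
  · have h1 : x * y = s * (y * x) := by
      apply inc_inj
      rw [map_mul, map_mul, map_mul, ← hx', ← hy', f.hs]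
      have := congrArg (inc Q) h'
      rw [map_mul, map_mul, map_mul, f.hc] at this
      calc g * inc Q x' * g⁻¹ * (g * inc Q y' * g⁻¹) = g * (inc Q x' * inc Q y') * g⁻¹ := by group
        _ = g * (z * (inc Q y' * inc Q x')) * g⁻¹ := by rw [this]
        _ = _ := by group
    exact f.ne (mul_right_cancel (h1.symm.trans h))
where
  left_eq_mul₀' {P : Type _} [Group P] {a b : P} (h : b = a * b) : a = 1 := by
    exact (mul_eq_right.1 h.symm)

theorem DQ_sq (f : Cf c g s) (m : MT c e ψ) {x : Q} (hx : x ∈ DQ Q g) : x * x = 1 := by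
  rcases m.ed.sq x with h | h
  · exact h
  exfalso
  obtain ⟨x', hx'⟩ := mem_DQ.1 hx
  rcases m.ed.sq x' with h' | h'
  · have h1 : x * x = 1 := by
      apply inc_inj
      rw [map_mul, ← hx', map_one]
      have := congrArg (inc Q) h'
      rw [map_mul, map_one] at this
      calc g * inc Q x' * g⁻¹ * (g * inc Q x' * g⁻¹) = g * (inc Q x' * inc Q x') * g⁻¹ := by group
        _ = 1 := by rw [this]; group
    exact m.ed.ne (h.symm.trans h1)
  · have h1 : x * x = s := by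
      apply inc_inj
      rw [map_mul, ← hx', f.hs]
      have := congrArg (inc Q) h'
      rw [map_mul, f.hc] at this
      calc g * inc Q x' * g⁻¹ * (g * inc Q x' * g⁻¹) = g * (inc Q x' * inc Q x') * g⁻¹ := by group
        _ = g * z * g⁻¹ := by rw [this]
    exact f.ne (h1.symm.trans h)

theorem noncomm (f : Cf c g s) (m : MT c e ψ) : ∃ y, ¬ y * s = s * y := by
  by_contra h
  push Not at h
  rcases m.ed.cen s (fun y => (h y).symm) with h1 | h1
  · exact f.ne1 m h1
  · exact f.ne h1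

theorem co1_card : Nat.card Spor.Co1 = 4157776806543360000 := by
  have h := (Subgroup.center Co0).card_mul_index
  rw [center_card, co0_card] at h
  have h2 : (Subgroup.center Co0).index = 4157776806543360000 := by omega
  exact h2

theorem card_ge (f : Cf c g s) (m : MT c e ψ) (hcard : Nat.card Q = 2 ^ 25) : 8 ≤ Nat.card (DQ Q g) := by
  haveI : Finite Q := Nat.finite_of_card_ne_zero (by rw [hcard]; norm_num)
  have h24 : Nat.card (Subgroup.centralizer ({s} : Set Q)) = 2 ^ 24 := by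
    have := card_centralizer_ed m.ed (f.noncomm m)
    rw [hcard] at this; omega
  -- the homomorphism to the quotient
  have hmem : ∀ x : Subgroup.centralizer ({s} : Set Q), g⁻¹ * inc Q x * g ∈ Subgroup.centralizer ({z} : Set G) := by
    intro x
    apply f.back
    have h1 := Subgroup.mem_centralizer_singleton_iff.1 x.2
    rw [← map_mul, ← map_mul, h1]
  let φ : Subgroup.centralizer ({s} : Set Q) →* Subgroup.centralizer ({z} : Set G) :=
    { toFun := fun x => ⟨g⁻¹ * inc Q x * g, hmem x⟩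
      map_one' := Subtype.ext (by
        change g⁻¹ * inc Q (1 : Q) * g = 1
        rw [map_one]; group)
      map_mul' := fun x y => Subtype.ext (by
        change g⁻¹ * inc Q ((x : Q) * y) * g = g⁻¹ * inc Q x * g * (g⁻¹ * inc Q y * g)
        rw [map_mul]; group) }
  let F := (QuotientGroup.mk' Q).comp φ
  have h1 : F.ker.map (Subgroup.centralizer ({s} : Set Q)).subtype = DQ Q g := by
    ext x
    constructor
    · rintro ⟨y, hy, rfl⟩
      have h2 : φ y ∈ Q := (QuotientGroup.eq_one_iff _).1 hy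
      refine mem_DQ.2 ⟨⟨φ y, h2⟩, ?_⟩
      change g * (g⁻¹ * inc Q y * g) * g⁻¹ = inc Q y
      group
    · intro hx
      refine ⟨⟨x, Subgroup.mem_centralizer_singleton_iff.2 (f.comm_s hx m)⟩, ?_, rfl⟩
      obtain ⟨y, hy⟩ := mem_DQ.1 hx
      change (QuotientGroup.mk _ : _ ⧸ Q) = 1
      rw [QuotientGroup.eq_one_iff]
      have : φ ⟨x, Subgroup.mem_centralizer_singleton_iff.2 (f.comm_s hx m)⟩ = (y : Subgroup.centralizer ({z} : Set G)) := by
        apply Subtype.ext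
        change g⁻¹ * inc Q x * g = inc Q y
        rw [← hy]; group
      rw [this]; exact y.2
  have h2 : Nat.card (DQ Q g) = Nat.card F.ker := by
    rw [← h1]
    exact (Nat.card_congr (F.ker.equivMapOfInjective _ (Subgroup.subtype_injective _)).toEquiv).symm
  have h3 : Nat.card F.ker * F.ker.index = 2 ^ 24 := by rw [F.ker.card_mul_index, h24]
  have h4 : F.ker.index ∣ 4157776806543360000 := by
    rw [Subgroup.index_ker, ← co1_card, ← Nat.card_congr e.toEquiv]
    exact Subgroup.card_subgroup_dvd_card _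
  obtain ⟨k, hk, hk2⟩ := (Nat.dvd_prime_pow Nat.prime_two).1 (Dvd.intro_left _ h3)
  rw [hk2] at h3 h4
  have hk21 : k ≤ 21 := by
    by_contra hcon
    push Not at hcon
    have : 2 ^ 22 ∣ 4157776806543360000 := (pow_dvd_pow 2 hcon).trans h4
    norm_num at this
  rw [h2]
  have h5 : 2 ^ k ≤ 2 ^ 21 := Nat.pow_le_pow_right (by norm_num) hk21
  by_contra hcon
  push Not at hcon
  have : Nat.card F.ker * 2 ^ k ≤ 7 * 2 ^ 21 := Nat.mul_le_mul (by omega) h5
  rw [h3] at this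
  norm_num at this

theorem exists_d (f : Cf c g s) (m : MT c e ψ) (hcard : Nat.card Q = 2 ^ 25) : ∃ d ∈ DQ Q g, d ≠ 1 ∧ d ≠ c ∧ d ≠ s ∧ d ≠ c * s := by
  by_contra hcon
  push Not at hcon
  haveI : Finite Q := Nat.finite_of_card_ne_zero (by rw [hcard]; norm_num)
  have h1 : (DQ Q g : Set Q) ⊆ {1, c, s, c * s} := by
    intro d hd
    by_cases h1 : d = 1
    · left; exact h1
    by_cases h2 : d = c
    · right; left; exact h2
    by_cases h3 : d = s
    · right; right; left; exact h3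
    · right; right; right; exact hcon d hd h1 h2 h3
  have h2 := Set.ncard_le_ncard h1 (Set.toFinite _)
  have h3 : Nat.card (DQ Q g) = (DQ Q g : Set Q).ncard := rfl
  have h4 : ({1, c, s, c * s} : Set Q).ncard ≤ 4 := by
    refine (Set.ncard_insert_le _ _).trans ?_
    have := (Set.ncard_insert_le c {s, c * s})
    have := (Set.ncard_insert_le s {c * s})
    rw [Set.ncard_singleton] at this
    omega
  have := f.card_ge m hcard
  omega

theorem c_mem (f : Cf c g s) (m : MT c e ψ) (hcard : Nat.card Q = 2 ^ 25) : c ∈ DQ Q g := by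
  obtain ⟨d, hd, h1, h2, h3, h4⟩ := f.exists_d m hcard
  obtain ⟨y, hy, hyd⟩ := exists_noncomm_ed m.ed h1 h2 h3 h4
  have h5 := f.cj_mem (k := (y : Subgroup.centralizer ({z} : Set G))) (by
    have := congrArg (inc Q) hy
    rw [map_mul, map_mul] at this; exact this) hd
  have h6 : cj Q (y : Subgroup.centralizer ({z} : Set G)) d = c * d := by
    have h7 : y * d = c * (d * y) := (m.ed.comm y d).resolve_left hyd
    have h8 : cj Q (y : Subgroup.centralizer ({z} : Set G)) d = y * d * y⁻¹ := Subtype.ext rfl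
    rw [h8, h7]; group
  rw [h6] at h5
  have := (DQ Q g).mul_mem h5 ((DQ Q g).inv_mem hd)
  rwa [mul_inv_cancel_right] at this

theorem exists_fix (f : Cf c g s) (m : MT c e ψ) {a : leechLattice} (ha : ψ a = QuotientGroup.mk s) {γ : Co0}
    (hγ : ∃ w : leechLattice, γ • a - a = w + w) : ∃ k : Subgroup.centralizer ({z} : Set G),
    (QuotientGroup.mk γ : Spor.Co1) = e (QuotientGroup.mk k) ∧ (k : G) * inc Q s = inc Q s * k := by
  obtain ⟨h, hh⟩ := m.exists_h γ
  have h1 := m.act h γ hh a s ha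
  rw [m.eq_iff.2 hγ, ha] at h1
  have hconv : ∀ k : Subgroup.centralizer ({z} : Set G), cj Q k s = s → (k : G) * inc Q s = inc Q s * k := by
    intro k hk
    have h2 : (k : G) * inc Q s * (k : G)⁻¹ = inc Q s := congrArg (inc Q) hk
    exact mul_inv_eq_iff_eq_mul.1 h2
  rcases (mk_eq_iff m.ed).1 h1 with h2 | h2
  · exact ⟨h, hh, hconv h h2⟩
  · obtain ⟨y, hy⟩ := f.noncomm m
    refine ⟨y * h, ?_, hconv _ ?_⟩
    · rw [hh, QuotientGroup.mk_mul, (QuotientGroup.eq_one_iff (y : Subgroup.centralizer ({z} : Set G))).2 y.2, one_mul]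
    · have h3 : cj Q ((y : Subgroup.centralizer ({z} : Set G)) * h) s = y * cj Q h s * y⁻¹ := Subtype.ext (by
        change (y : Subgroup.centralizer ({z} : Set G)) * h * s * ((y : Subgroup.centralizer ({z} : Set G)) * h)⁻¹ =
          y * (h * s * h⁻¹) * (y : Subgroup.centralizer ({z} : Set G))⁻¹
        group)
      rw [h3, h2]
      have h4 : y * s = c * (s * y) := (m.ed.comm y s).resolve_left hy
      calc y * (c * s) * y⁻¹ = (y * c) * s * y⁻¹ := by group
        _ = c * (y * s) * y⁻¹ := by rw [m.ed.central]; group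
        _ = (c * c) * s := by rw [h4]; group
        _ = s := by rw [m.ed.zz, one_mul]

theorem inv (f : Cf c g s) (m : MT c e ψ) {a : leechLattice} (ha : ψ a = QuotientGroup.mk s) : Inv a (m.bar (DQ Q g)) where
  two v := ⟨1, (DQ Q g).one_mem, (m.ker _).2 ⟨v, rfl⟩⟩
  mem := ⟨s, f.mem_DQ_s, ha⟩
  iso := by
    rintro v ⟨x, hx, h1⟩ w ⟨y, hy, h2⟩
    exact (m.comm_iff h1 h2).1 (f.DQ_comm m hx hy)
  inv := by
    rintro γ hγ v ⟨x, hx, h1⟩
    obtain ⟨k, hk, hks⟩ := f.exists_fix m ha hγ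
    exact ⟨cj Q k x, f.cj_mem hks hx, m.act k γ hk v x h1⟩

theorem short (m : MT c e ψ) {x : Q} (h1 : x ≠ 1) (hc : x ≠ c) (hx : x * x = 1) : ∃ a : leechLattice, ψ a = QuotientGroup.mk x ∧
    (sqNorm (a : GolayPt → ℤ) = 32 ∨ sqNorm (a : GolayPt → ℤ) = 64) := by
  obtain ⟨v, hv⟩ := m.surj (QuotientGroup.mk x)
  obtain ⟨y, hy, hyn, w, hw, hw'⟩ := short_rep (v : GolayPt → ℤ) v.2
  rw [two_nsmul] at hw'
  have h2 : ψ ⟨y, hy⟩ = QuotientGroup.mk x := by
    rw [← hv]; symm; rw [m.eq_iff]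
    exact ⟨⟨w, hw⟩, Subtype.ext hw'⟩
  refine ⟨⟨y, hy⟩, h2, ?_⟩
  have h3 := (m.sq_iff h2).1 hx
  have h4 : y ≠ 0 := by
    rintro rfl
    have h5 : ψ ⟨0, hy⟩ = 1 := m.zero
    rw [h2, mk_one_iff m.ed] at h5
    rcases h5 with h5 | h5
    · exact h1 h5
    · exact hc h5
  have h5 := norm_ge hy h4
  change (32 : ℤ) ∣ sqNorm y at h3
  change sqNorm y = 32 ∨ sqNorm y = 64
  omega

theorem sqNorm_double (w : leechLattice) : sqNorm ((w + w : leechLattice) : GolayPt → ℤ) = 4 * sqNorm (w : GolayPt → ℤ) := by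
  change sqNorm ((w : GolayPt → ℤ) + (w : GolayPt → ℤ)) = _
  unfold sqNorm
  rw [Finset.mul_sum]
  apply Finset.sum_congr rfl
  intro i _
  change ((w : GolayPt → ℤ) i + (w : GolayPt → ℤ) i) ^ 2 = _
  ring

theorem ne_one (m : MT c e ψ) {v : leechLattice} (h0 : 0 < sqNorm (v : GolayPt → ℤ)) (h1 : sqNorm (v : GolayPt → ℤ) ≤ 64) : ψ v ≠ 1 := by
  intro h
  obtain ⟨w, hw⟩ := (m.ker v).1 h
  have h2 := sqNorm_double w
  rw [← hw] at h2
  have h3 : (w : GolayPt → ℤ) ≠ 0 := by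
    intro h4
    rw [h4] at h2
    have : sqNorm (0 : GolayPt → ℤ) = 0 := by simp [sqNorm]
    omega
  have := norm_ge w.2 h3
  omega

theorem cong_of_eqv {v w : leechLattice} (h : EqvC (v : GolayPt → ℤ) (w : GolayPt → ℤ)) : ∃ γ : Co0, ∃ u : leechLattice, γ • v - w = u + u := by
  obtain ⟨_, γ, y', ⟨hm, hγ⟩, u, hu, hu'⟩ := h
  refine ⟨γ, ⟨u, hu⟩, Subtype.ext ?_⟩
  change ((γ • v : leechLattice) : GolayPt → ℤ) - (w : GolayPt → ℤ) = u + u
  rw [← hu', ← hγ]

theorem aU_norm : sqNorm (aU : GolayPt → ℤ) = 32 := by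
  change sqNorm (vec etaA0) = 32
  exact sq_vec _ _ (by decide +kernel)

/-- pulling back a congruence -/
theorem pull (m : MT c e ψ) {γ : Co0} {v w : leechLattice} (h : ∃ u : leechLattice, γ • v - γ • w = u + u) : ψ v = ψ w := by
  obtain ⟨u, hu⟩ := h
  rw [m.eq_iff]
  refine ⟨γ⁻¹ • u, ?_⟩
  rw [← smul_add', ← hu, smul_sub', inv_smul_smul, inv_smul_smul]

theorem type64 (f : Cf c g s) (m : MT c e ψ) (hcard : Nat.card Q = 2 ^ 25) {a : leechLattice} (ha : ψ a = QuotientGroup.mk s)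
    (hn : sqNorm (a : GolayPt → ℤ) = 32 ∨ sqNorm (a : GolayPt → ℤ) = 64) : sqNorm (a : GolayPt → ℤ) = 64 := by
  refine hn.resolve_left fun h32 => ?_
  obtain ⟨γ, u, hu⟩ := cong_of_eqv (trans32 a.2 aU.2 h32 aU_norm).toC
  have hI := (f.inv m ha).transport γ ⟨u, hu⟩
  obtain ⟨d, hd, h1, h2, h3, h4⟩ := f.exists_d m hcard
  obtain ⟨v, hv⟩ := m.surj (QuotientGroup.mk d)
  have hvD : γ • v ∈ (m.bar (DQ Q g)).map (smulHom γ) := ⟨v, ⟨d, hd, hv⟩, rfl⟩
  obtain ⟨y, hy | hy⟩ := L2 hI hvD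
  · have h5 : ψ v = ψ 0 := pull m (γ := γ) ⟨y, by
      have : γ • (0 : leechLattice) = 0 := (smulHom γ).map_zero
      rw [this, sub_zero]; exact hy⟩
    rw [m.zero, hv, mk_one_iff m.ed] at h5
    rcases h5 with h5 | h5
    · exact h1 h5
    · exact h2 h5
  · have h5 : ψ v = ψ a := pull m (γ := γ) ⟨y - u, by
      have : γ • v - γ • a = (γ • v - aU) - (γ • a - aU) := by abel
      rw [this, hy, hu]; abel⟩
    rw [hv, ha, mk_eq_iff m.ed] at h5
    rcases h5 with h5 | h5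
    · exact h3 h5.symm
    · exact h4 (by rw [h5, ← mul_assoc, m.ed.zz, one_mul])

theorem exists_e8 (a : leechLattice) (hn : sqNorm (a : GolayPt → ℤ) = 64) : ∃ γ : Co0, ∃ u : leechLattice, γ • a - e8 none = u + u :=
  cong_of_eqv (trans64' a.2 hn (e8 none).2 (e8_norm none))

theorem bar_V4 (f : Cf c g s) (m : MT c e ψ) (hcard : Nat.card Q = 2 ^ 25) {a : leechLattice} (ha : ψ a = QuotientGroup.mk s)
    {γ : Co0} (hγ : ∃ u : leechLattice, γ • a - e8 none = u + u) : (m.bar (DQ Q g)).map (smulHom γ) = V4 := by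
  obtain ⟨u, hu⟩ := hγ
  have hI := (f.inv m ha).transport γ ⟨u, hu⟩
  apply le_antisymm (L4_sub hI)
  obtain ⟨d, hd, h1, h2, h3, h4⟩ := f.exists_d m hcard
  obtain ⟨v, hv⟩ := m.surj (QuotientGroup.mk d)
  have hvD : γ • v ∈ (m.bar (DQ Q g)).map (smulHom γ) := ⟨v, ⟨d, hd, hv⟩, rfl⟩
  refine L4_top hI hvD fun y => ⟨fun hy => ?_, fun hy => ?_⟩
  · have h5 : ψ v = ψ 0 := pull m (γ := γ) ⟨y, by
      have : γ • (0 : leechLattice) = 0 := (smulHom γ).map_zero
      rw [this, sub_zero]; exact hy⟩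
    rw [m.zero, hv, mk_one_iff m.ed] at h5
    rcases h5 with h5 | h5
    · exact h1 h5
    · exact h2 h5
  · have h5 : ψ v = ψ a := pull m (γ := γ) ⟨y - u, by
      have : γ • v - γ • a = (γ • v - e8 none) - (γ • a - e8 none) := by abel
      rw [this, hy, hu]; abel⟩
    rw [hv, ha, mk_eq_iff m.ed] at h5
    rcases h5 with h5 | h5
    · exact h3 h5.symm
    · exact h4 (by rw [h5, ← mul_assoc, m.ed.zz, one_mul])

theorem smulHom_bij (γ : Co0) : Function.Bijective (smulHom γ) := MulAction.bijective γ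

theorem DQ_index (f : Cf c g s) (m : MT c e ψ) (hcard : Nat.card Q = 2 ^ 25) {a : leechLattice} (ha : ψ a = QuotientGroup.mk s)
    (hn : sqNorm (a : GolayPt → ℤ) = 64) : (DQ Q g).index = 2 ^ 12 := by
  obtain ⟨γ, hγ⟩ := exists_e8 a hn
  rw [← m.bar_index (f.c_mem m hcard), ← V4_index, ← f.bar_V4 m hcard ha hγ]
  exact (AddSubgroup.index_map_of_bijective (smulHom_bij γ) _).symm

theorem sq_s (f : Cf c g s) (m : MT c e ψ) (hcard : Nat.card Q = 2 ^ 25) : s * s = 1 := f.DQ_sq m f.mem_DQ_s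

theorem exists_a (f : Cf c g s) (m : MT c e ψ) (hcard : Nat.card Q = 2 ^ 25) : ∃ a : leechLattice, ψ a = QuotientGroup.mk s ∧
    sqNorm (a : GolayPt → ℤ) = 64 := by
  obtain ⟨a, ha, hn⟩ := short m (f.ne1 m) f.ne (f.sq_s m hcard)
  exact ⟨a, ha, f.type64 m hcard ha hn⟩

theorem DQ_card (f : Cf c g s) (m : MT c e ψ) (hcard : Nat.card Q = 2 ^ 25) : Nat.card (DQ Q g) = 2 ^ 13 := by
  obtain ⟨a, ha, hn⟩ := f.exists_a m hcard
  have h := (DQ Q g).card_mul_index
  rw [f.DQ_index m hcard ha hn, hcard] at h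
  exact Nat.eq_of_mul_eq_mul_right (show 0 < 2 ^ 12 by norm_num) (h.trans (by norm_num))

end Cf

variable {e : (Subgroup.centralizer ({z} : Set G)) ⧸ Q ≃* Spor.Co1} {ψ : leechLattice → Q ⧸ Subgroup.center Q}

theorem exists_mt [Finite G] (hM : IsExtraspecialCentralizerSetting z Q 12) (hψ : IsLeechModTwoIso Q e ψ) :
    ∃ c : Q, MT c e ψ ∧ inc Q c = z := by
  obtain ⟨hz, hF, hE, hcard, hg⟩ := hM
  obtain ⟨c, hc⟩ := edata_of_extraspecial hE
  refine ⟨c, ⟨hc, hψ.1, hψ.2.1, hψ.2.2.1, hψ.2.2.2⟩, ?_⟩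
  have hzC : z ∈ Subgroup.centralizer ({z} : Set G) := Subgroup.mem_centralizer_singleton_iff.2 rfl
  have hzQ : (⟨z, hzC⟩ : Subgroup.centralizer ({z} : Set G)) ∈ Q := by
    rw [← hF]
    refine (le_sup_right : fittingSubgroup _ ≤ _) ?_
    have hcen : (⟨z, hzC⟩ : Subgroup.centralizer ({z} : Set G)) ∈ Subgroup.center (Subgroup.centralizer ({z} : Set G)) := by
      rw [Subgroup.mem_center_iff]
      intro y
      exact Subtype.ext (Subgroup.mem_centralizer_singleton_iff.1 y.2)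
    refine (le_sSup (a := Subgroup.center (Subgroup.centralizer ({z} : Set G))) ⟨inferInstance, ?_⟩ : _ ≤ fittingSubgroup _) hcen
    letI : CommGroup (Subgroup.center (Subgroup.centralizer ({z} : Set G))) :=
      { (inferInstance : Group (Subgroup.center (Subgroup.centralizer ({z} : Set G)))) with
        mul_comm := fun a b => Subtype.ext ((Subgroup.mem_center_iff.1 b.2 a)) }
    exact CommGroup.isNilpotent
  have h1 : (⟨⟨z, hzC⟩, hzQ⟩ : Q) = 1 ∨ (⟨⟨z, hzC⟩, hzQ⟩ : Q) = c := by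
    apply hc.cen
    intro y
    apply Subtype.ext; apply Subtype.ext
    exact (Subgroup.mem_centralizer_singleton_iff.1 (y : Subgroup.centralizer ({z} : Set G)).2).symm
  rcases h1 with h1 | h1
  · exfalso
    have h2 : z = 1 := congrArg (inc Q) h1
    rw [h2, orderOf_one] at hz
    norm_num at hz
  · rw [← h1]; rfl

theorem exists_cf (hM : IsExtraspecialCentralizerSetting z Q 12) {c : Q} (hc : inc Q c = z) : ∃ g : G, ∃ s : Q, Cf c g s := by
  obtain ⟨hz, hF, hE, hcard, g, ⟨hq, hqQ⟩, hne⟩ := hM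
  refine ⟨g, ⟨⟨_, hq⟩, hqQ⟩, hc, rfl, ?_⟩
  intro h
  apply hne
  have := congrArg (inc Q) h
  rw [hc] at this; exact this

theorem cf_of_conj {c : Q} (hc : inc Q c = z) {x : Q} (h : IsConj z (inc Q x)) (hne : inc Q x ≠ z) : ∃ g : G, Cf c g x := by
  obtain ⟨g, hg⟩ := isConj_iff.1 h
  exact ⟨g, hc, hg.symm, fun h' => hne (by rw [h', hc])⟩

theorem conj_iff [Finite G] (hM : IsExtraspecialCentralizerSetting z Q 12) {c : Q} (m : MT c e ψ) (hc : inc Q c = z) (x : Q) :
    (IsConj z (inc Q x) ∧ inc Q x ≠ z) ↔ ∃ v : leechLattice, sqNorm (v : GolayPt → ℤ) = 64 ∧ ψ v = QuotientGroup.mk x := by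
  have hcard : Nat.card Q = 2 ^ 25 := hM.2.2.2.1
  constructor
  · rintro ⟨h1, h2⟩
    obtain ⟨g, f⟩ := cf_of_conj hc h1 h2
    obtain ⟨a, ha, hn⟩ := f.exists_a m hcard
    exact ⟨a, hn, ha⟩
  · rintro ⟨v, hv, hx⟩
    obtain ⟨g, s, f⟩ := exists_cf hM hc
    obtain ⟨a, ha, hn⟩ := f.exists_a m hcard
    obtain ⟨k, hk⟩ := m.trans (trans64' v.2 hv a.2 hn) (Cf.ne_one m (by omega) (by omega)) hx ha
    have h1 : IsConj (inc Q x) (inc Q s) := isConj_iff.2 ⟨k, congrArg (inc Q) hk⟩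
    have h2 : IsConj z (inc Q s) := isConj_iff.2 ⟨g, f.hs.symm⟩
    refine ⟨h2.trans h1.symm, fun h => ?_⟩
    have h3 : x = c := inc_inj (h.trans hc.symm)
    have h4 : ψ v = 1 := by rw [hx, mk_one_iff m.ed]; exact Or.inr h3
    exact Cf.ne_one m (by omega) (by omega) h4

theorem trans_central [Finite G] (hM : IsExtraspecialCentralizerSetting z Q 12) {c : Q} (m : MT c e ψ) (hc : inc Q c = z) {x y : Q}
    (hx : IsConj z (inc Q x)) (hy : IsConj z (inc Q y)) (hx1 : inc Q x ≠ z) (hy1 : inc Q y ≠ z) :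
    ∃ k ∈ Subgroup.centralizer ({z} : Set G), k * inc Q x * k⁻¹ = inc Q y := by
  obtain ⟨v, hv, h1⟩ := (conj_iff hM m hc x).1 ⟨hx, hx1⟩
  obtain ⟨w, hw, h2⟩ := (conj_iff hM m hc y).1 ⟨hy, hy1⟩
  obtain ⟨k, hk⟩ := m.trans (trans64' v.2 hv w.2 hw) (Cf.ne_one m (by omega) (by omega)) h1 h2
  exact ⟨k, k.2, congrArg (inc Q) hk⟩

theorem trans_noncentral [Finite G] (hM : IsExtraspecialCentralizerSetting z Q 12) {c : Q} (m : MT c e ψ) (hc : inc Q c = z) {x y : Q}
    (hx2 : x * x = 1) (hy2 : y * y = 1) (hx1 : x ≠ 1) (hy1 : y ≠ 1)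
    (hx : ¬ IsConj z (inc Q x)) (hy : ¬ IsConj z (inc Q y)) :
    ∃ k ∈ Subgroup.centralizer ({z} : Set G), k * inc Q x * k⁻¹ = inc Q y := by
  have key : ∀ x : Q, x * x = 1 → x ≠ 1 → ¬ IsConj z (inc Q x) → ∃ v : leechLattice, ψ v = QuotientGroup.mk x ∧ sqNorm (v : GolayPt → ℤ) = 32 := by
    intro x hx2 hx1 hx
    have hne : x ≠ c := by
      rintro rfl; rw [hc] at hx; exact hx (IsConj.refl z)
    obtain ⟨v, hv, hn⟩ := Cf.short m hx1 hne hx2
    refine ⟨v, hv, hn.resolve_right fun h64 => hx ?_⟩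
    exact ((conj_iff hM m hc x).2 ⟨v, h64, hv⟩).1
  obtain ⟨v, h1, hv⟩ := key x hx2 hx1 hx
  obtain ⟨w, h2, hw⟩ := key y hy2 hy1 hy
  obtain ⟨k, hk⟩ := m.trans (trans32 v.2 w.2 hv hw).toC (Cf.ne_one m (by omega) (by omega)) h1 h2
  exact ⟨k, k.2, congrArg (inc Q) hk⟩

end Cfsg.Agent.H9.Leech
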