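import Cfsg.Agent.H9.Leech.Mon3
import Cfsg.Agent.H9.M24Simple
set_option autoImplicit false

/-! The stabilizer of a conjugate. -/

namespace Cfsg.Agent.H9.Leech
open Cfsg Cfsg.Agent.H9 Cfsg.Agent.H6
open scoped Pointwise

noncomputable def permHom : M24 →* Co0 where
  toFun σ := mono σ σ.2 ∅ cd_empty
  map_one' := co0_ext fun v => by
    rw [mono_smul, one_smul]
    funext j
    unfold signedPerm
    rw [if_neg (Finset.notMem_empty _)]; rfl
  map_mul' σ τ := co0_ext fun v => by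
    rw [mul_smul, mono_smul, mono_smul, mono_smul]
    funext j
    unfold signedPerm
    rw [if_neg (Finset.notMem_empty _), if_neg (Finset.notMem_empty _), if_neg (Finset.notMem_empty _)]; rfl

theorem permHom_e8 (σ : M24) : ∃ u : leechLattice, permHom σ • e8 none - e8 none = u + u := e8_perm σ.2

/-- the map of `M24` to the quotient is injective -/
theorem permHom_inj {σ : M24} (h : permHom σ = 1 ∨ permHom σ = neg1) : σ = 1 := by
  apply Subtype.ext
  apply Equiv.ext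
  intro i
  have h1 : ((permHom σ • e8 i : leechLattice) : GolayPt → ℤ) = Pi.single ((σ : Equiv.Perm GolayPt) i) 8 := by
    change ((mono σ σ.2 ∅ cd_empty • e8 i : leechLattice) : GolayPt → ℤ) = _
    rw [mono_smul]
    change signedPerm σ ∅ (Pi.single i 8) = _
    rw [signedPerm_single, if_neg (Finset.notMem_empty _)]
  rcases h with h | h
  · rw [h, one_smul] at h1
    exact (single_eq (by norm_num) h1).1.symm
  · rw [h, neg1_smul] at h1
    exfalso
    have h2 := congrFun h1 i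
    change -(Pi.single i 8 : GolayPt → ℤ) i = _ at h2
    rw [single_apply', single_apply', if_pos rfl] at h2
    split_ifs at h2 <;> norm_num at h2

variable {G : Type*} [Group G] {z : G} {Q : Subgroup (Subgroup.centralizer ({z} : Set G))} [Q.Normal]

namespace Cf
variable {c : Q} {g : G} {s : Q} {e : (Subgroup.centralizer ({z} : Set G)) ⧸ Q ≃* Spor.Co1} {ψ : leechLattice → Q ⧸ Subgroup.center Q}

theorem exists_F (f : Cf c g s) (m : MT c e ψ) : ∃ F : Subgroup.centralizer ({s} : Set Q) →* (Subgroup.centralizer ({z} : Set G)) ⧸ Q,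
    (∀ x : Subgroup.centralizer ({s} : Set Q), ∃ h : Subgroup.centralizer ({z} : Set G), (h : G) = g⁻¹ * inc Q x * g ∧ F x = QuotientGroup.mk h) ∧
    Nat.card F.ker = Nat.card (DQ Q g) := by
  have hmem : ∀ x : Subgroup.centralizer ({s} : Set Q), g⁻¹ * inc Q x * g ∈ Subgroup.centralizer ({z} : Set G) := by
    intro x
    apply f.back
    have h1 := Subgroup.mem_centralizer_singleton_iff.1 x.2
    rw [← map_mul, ← map_mul, h1]
  let φ : Subgroup.centralizer ({s} : Set Q) →* Subgroup.centralizer ({z} : Set G) :=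
    { toFun := fun x => ⟨g⁻¹ * inc Q x * g, hmem x⟩
      map_one' := Subtype.ext (by
        change g⁻¹ * inc Q (1 : Q) * g = 1
        rw [map_one]; group)
      map_mul' := fun x y => Subtype.ext (by
        change g⁻¹ * inc Q ((x : Q) * y) * g = g⁻¹ * inc Q x * g * (g⁻¹ * inc Q y * g)
        rw [map_mul]; group) }
  let F := (QuotientGroup.mk' Q).comp φ
  refine ⟨F, fun x => ⟨φ x, rfl, rfl⟩, ?_⟩
  have h1 : F.ker.map (Subgroup.centralizer ({s} : Set Q)).subtype = DQ Q g := by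
    ext x
    constructor
    · rintro ⟨y, hy, rfl⟩
      have h2 : φ y ∈ Q := (QuotientGroup.eq_one_iff _).1 hy
      refine mem_DQ.2 ⟨⟨φ y, h2⟩, ?_⟩
      change g * (g⁻¹ * inc Q y * g) * g⁻¹ = inc Q y
      group
    · intro hx
      refine ⟨⟨x, Subgroup.mem_centralizer_singleton_iff.2 (f.comm_s hx m)⟩, ?_, rfl⟩
      obtain ⟨y, hy⟩ := mem_DQ.1 hx
      change (QuotientGroup.mk _ : _ ⧸ Q) = 1
      rw [QuotientGroup.eq_one_iff]
      have : φ ⟨x, Subgroup.mem_centralizer_singleton_iff.2 (f.comm_s hx m)⟩ = (y : Subgroup.centralizer ({z} : Set G)) := by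
        apply Subtype.ext
        change g⁻¹ * inc Q x * g = inc Q y
        rw [← hy]; group
      rw [this]; exact y.2
  rw [← h1]
  exact Nat.card_congr (F.ker.equivMapOfInjective _ (Subgroup.subtype_injective _)).toEquiv

/-- the reversed configuration -/
theorem rev (f : Cf c g s) (m : MT c e ψ) (hcard : Nat.card Q = 2 ^ 25) : ∃ y0 : Q, Cf c g⁻¹ y0 ∧ g * inc Q y0 * g⁻¹ = z := by
  obtain ⟨y0, hy0⟩ := mem_DQ.1 (f.c_mem m hcard)
  rw [f.hc] at hy0
  refine ⟨y0, ⟨f.hc, ?_, ?_⟩, hy0⟩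
  · calc inc Q y0 = g⁻¹ * (g * inc Q y0 * g⁻¹) * g⁻¹⁻¹ := by group
      _ = g⁻¹ * z * g⁻¹⁻¹ := by rw [hy0]
  · intro h
    rw [h, f.hc] at hy0
    apply f.ne
    apply inc_inj
    rw [f.hs, hy0, f.hc]

def XX (Q : Subgroup (Subgroup.centralizer ({z} : Set G))) [Q.Normal] (s : G) : Subgroup ((Subgroup.centralizer ({z} : Set G)) ⧸ Q) :=
  ((Subgroup.centralizer ({z} : Set G) ⊓ Subgroup.centralizer ({s} : Set G)).subgroupOf (Subgroup.centralizer ({z} : Set G))).map (QuotientGroup.mk' Q)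

theorem mem_XX {s' : G} {x : (Subgroup.centralizer ({z} : Set G)) ⧸ Q} : x ∈ XX Q s' ↔ ∃ k : Subgroup.centralizer ({z} : Set G),
    (k : G) * s' = s' * k ∧ QuotientGroup.mk k = x := by
  constructor
  · rintro ⟨k, hk, rfl⟩
    exact ⟨k, Subgroup.mem_centralizer_singleton_iff.1 (Subgroup.mem_inf.1 (Subgroup.mem_subgroupOf.1 hk)).2, rfl⟩
  · rintro ⟨k, hk, rfl⟩
    exact ⟨k, Subgroup.mem_subgroupOf.2 ⟨k.2, Subgroup.mem_centralizer_singleton_iff.2 hk⟩, rfl⟩

def EE (Q : Subgroup (Subgroup.centralizer ({z} : Set G))) [Q.Normal] (g : G) : Subgroup ((Subgroup.centralizer ({z} : Set G)) ⧸ Q) :=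
  (((Q.map (Subgroup.centralizer ({z} : Set G)).subtype).map (MulAut.conj g).toMonoidHom ⊓ Subgroup.centralizer ({z} : Set G)).subgroupOf
    (Subgroup.centralizer ({z} : Set G))).map (QuotientGroup.mk' Q)

theorem mem_EE {g' : G} {x : (Subgroup.centralizer ({z} : Set G)) ⧸ Q} : x ∈ EE Q g' ↔ ∃ k : Subgroup.centralizer ({z} : Set G),
    (∃ y : Q, g' * inc Q y * g'⁻¹ = (k : G)) ∧ QuotientGroup.mk k = x := by
  constructor
  · rintro ⟨k, hk, rfl⟩
    refine ⟨k, ?_, rfl⟩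
    obtain ⟨r, hr, h⟩ := (Subgroup.mem_inf.1 (Subgroup.mem_subgroupOf.1 hk)).1
    obtain ⟨q, rfl⟩ := mem_RG.1 hr
    exact ⟨q, h⟩
  · rintro ⟨k, ⟨y, hy⟩, rfl⟩
    exact ⟨k, Subgroup.mem_subgroupOf.2 ⟨⟨_, mem_RG.2 ⟨y, rfl⟩, hy⟩, k.2⟩, rfl⟩

theorem EE_le (f : Cf c g s) (m : MT c e ψ) : EE Q g ≤ XX Q (inc Q s) := by
  intro x hx
  obtain ⟨k, ⟨y, hy⟩, rfl⟩ := mem_EE.1 hx
  refine mem_XX.2 ⟨k, ?_, rfl⟩
  rw [← hy, f.hs]
  have h1 : inc Q y * z = z * inc Q y := by
    have := congrArg (inc Q) (m.ed.central y)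
    rw [map_mul, map_mul, f.hc] at this; exact this
  calc g * inc Q y * g⁻¹ * (g * z * g⁻¹) = g * (inc Q y * z) * g⁻¹ := by group
    _ = g * (z * inc Q y) * g⁻¹ := by rw [h1]
    _ = g * z * g⁻¹ * (g * inc Q y * g⁻¹) := by group

theorem EE_norm (f : Cf c g s) {x y : (Subgroup.centralizer ({z} : Set G)) ⧸ Q} (hx : x ∈ XX Q (inc Q s)) (hy : y ∈ EE Q g) :
    x * y * x⁻¹ ∈ EE Q g := by
  obtain ⟨k, hk, rfl⟩ := mem_XX.1 hx
  obtain ⟨h, ⟨u, hu⟩, rfl⟩ := mem_EE.1 hy
  refine mem_EE.2 ⟨k * h * k⁻¹, ⟨cj Q ⟨g⁻¹ * k * g, f.back hk⟩ u, ?_⟩, rfl⟩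
  change g * (g⁻¹ * k * g * inc Q u * (g⁻¹ * k * g)⁻¹) * g⁻¹ = (k : G) * h * (k : G)⁻¹
  rw [← hu]; group

theorem EE_range (f : Cf c g s) (m : MT c e ψ) (hcard : Nat.card Q = 2 ^ 25) :
    IsElementaryAbelian 2 (EE Q g) ∧ Nat.card (EE Q g) = 2 ^ 11 := by
  haveI : Finite Q := Nat.finite_of_card_ne_zero (by rw [hcard]; norm_num)
  obtain ⟨y0, f', hy0⟩ := f.rev m hcard
  obtain ⟨F, hF, hker⟩ := f'.exists_F m
  have hr : F.range = EE Q g := by
    ext x
    rw [mem_EE]
    constructor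
    · rintro ⟨y, rfl⟩
      obtain ⟨h, h1, h2⟩ := hF y
      exact ⟨h, ⟨y, by rw [h1]; group⟩, h2.symm⟩
    · rintro ⟨k, ⟨y, hy⟩, rfl⟩
      have hyc : y ∈ Subgroup.centralizer ({y0} : Set Q) := by
        rw [Subgroup.mem_centralizer_singleton_iff]
        apply inc_inj
        rw [map_mul, map_mul]
        have h1 := Subgroup.mem_centralizer_singleton_iff.1 k.2
        have h2 : inc Q y = g⁻¹ * k * g := by rw [← hy]; group
        have h3 : inc Q y0 = g⁻¹ * z * g := by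
          calc inc Q y0 = g⁻¹ * (g * inc Q y0 * g⁻¹) * g := by group
            _ = g⁻¹ * z * g := by rw [hy0]
        rw [h2, h3]
        calc g⁻¹ * (k : G) * g * (g⁻¹ * z * g) = g⁻¹ * (k * z) * g := by group
          _ = g⁻¹ * (z * k) * g := by rw [h1]
          _ = _ := by group
      obtain ⟨h, h1, h2⟩ := hF ⟨y, hyc⟩
      refine ⟨⟨y, hyc⟩, ?_⟩
      rw [h2]
      congr 1
      apply Subtype.ext
      rw [h1, ← hy]; group
  have hcc : c ∈ Subgroup.centralizer ({y0} : Set Q) := Subgroup.mem_centralizer_singleton_iff.2 (m.ed.central y0).symm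
  have hFc : F ⟨c, hcc⟩ = 1 := by
    obtain ⟨h, h1, h2⟩ := hF ⟨c, hcc⟩
    rw [h2, QuotientGroup.eq_one_iff]
    have : h = (s : Subgroup.centralizer ({z} : Set G)) := by
      apply Subtype.ext
      rw [h1]
      change g⁻¹⁻¹ * inc Q c * g⁻¹ = inc Q s
      rw [f.hc, f.hs]; group
    rw [this]; exact s.2
  have hcom : ∀ x y : Subgroup.centralizer ({y0} : Set Q), F x * F y = F y * F x := by
    intro x y
    rw [← map_mul, ← map_mul]
    rcases m.ed.comm (x : Q) y with h | h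
    · exact congrArg F (Subtype.ext h)
    · have : x * y = ⟨c, hcc⟩ * (y * x) := Subtype.ext h
      rw [this, map_mul, hFc, one_mul]
  have hsq : ∀ x : Subgroup.centralizer ({y0} : Set Q), F x ^ 2 = 1 := by
    intro x
    rw [pow_two, ← map_mul]
    rcases m.ed.sq (x : Q) with h | h
    · have : x * x = 1 := Subtype.ext h
      rw [this, map_one]
    · have : x * x = ⟨c, hcc⟩ := Subtype.ext h
      rw [this, hFc]
  refine ⟨⟨⟨⟨?_⟩⟩, ?_⟩, ?_⟩
  · rintro ⟨x, hx⟩ ⟨y, hy⟩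
    rw [← hr] at hx hy
    obtain ⟨x', rfl⟩ := hx
    obtain ⟨y', rfl⟩ := hy
    exact Subtype.ext (hcom x' y')
  · intro x hx
    rw [← hr] at hx
    obtain ⟨x', rfl⟩ := hx
    exact hsq x'
  · have h24 : Nat.card (Subgroup.centralizer ({y0} : Set Q)) = 2 ^ 24 := by
      have := card_centralizer_ed m.ed (f'.noncomm m)
      rw [hcard] at this; omega
    have h1 := F.ker.card_mul_index
    rw [hker, f'.DQ_card m hcard, Subgroup.index_ker, hr, h24] at h1
    exact Nat.eq_of_mul_eq_mul_left (show 0 < 2 ^ 13 by norm_num) (h1.trans (by norm_num))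

theorem center_le_N : Subgroup.center Co0 ≤ MulAction.stabilizer Co0 (crs (e8 none)) := by
  intro x hx
  rw [MulAction.mem_stabilizer_iff, smul_crs]
  rcases (center_eq x).1 hx with rfl | rfl
  · rw [one_smul]
  · apply crs_eq
    refine ⟨by rw [sqNorm_smul], e8 none, ?_⟩
    have : neg1 • e8 none = -e8 none := Subtype.ext (neg1_smul _)
    rw [this]; abel

theorem card_map_mk {H : Type*} [Group H] (Z N : Subgroup H) [Z.Normal] (hle : Z ≤ N) (a b : ℕ) (ha : Nat.card Z = a) (hb : Nat.card N = a * b)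
    (h0 : 0 < a) : Nat.card (N.map (QuotientGroup.mk' Z)) = b := by
  have h1 : (QuotientGroup.mk' Z).ker.relIndex N = Nat.card (N.map (QuotientGroup.mk' Z)) := Subgroup.relIndex_ker N _
  rw [QuotientGroup.ker_mk'] at h1
  have h3 := (Z.subgroupOf N).card_mul_index
  have h4 : Nat.card (Z.subgroupOf N) = a := by
    rw [← ha]; exact Nat.card_congr (Subgroup.subgroupOfEquivOfLe hle).toEquiv
  rw [h4, hb] at h3
  rw [← h1]
  exact Nat.eq_of_mul_eq_mul_left h0 h3

theorem N_card : Nat.card ((MulAction.stabilizer Co0 (crs (e8 none))).map (QuotientGroup.mk' (Subgroup.center Co0))) = 2 ^ 11 * 244823040 :=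
  card_map_mk _ _ center_le_N 2 (2 ^ 11 * 244823040) center_card (by rw [stab_card]; norm_num) (by norm_num)

/-- bound for the order of the stabilizer -/
theorem XX_card (f : Cf c g s) (m : MT c e ψ) (hcard : Nat.card Q = 2 ^ 25) : Nat.card (XX Q (inc Q s)) ≤ 2 ^ 11 * 244823040 ∧
    Finite (XX Q (inc Q s)) := by
  obtain ⟨a, ha, hn⟩ := f.exists_a m hcard
  obtain ⟨γ, u, hu⟩ := exists_e8 a hn
  haveI : Finite Co0 := Nat.finite_of_card_ne_zero (by rw [co0_card]; norm_num)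
  let N : Subgroup Co0 := MulAction.stabilizer Co0 (crs (e8 none))
  let π : Co0 →* Spor.Co1 := QuotientGroup.mk' (Subgroup.center Co0)
  have hN : Nat.card (N.map π) = 2 ^ 11 * 244823040 := N_card
  let ρ : (Subgroup.centralizer ({z} : Set G)) ⧸ Q →* Spor.Co1 := (MulAut.conj (π γ)).toMonoidHom.comp e.toMonoidHom
  have hρ : Function.Injective ρ := (MulAut.conj (π γ)).injective.comp e.injective
  have hle : (XX Q (inc Q s)).map ρ ≤ N.map π := by
    rintro _ ⟨x, hx, rfl⟩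
    obtain ⟨k, hk, rfl⟩ := mem_XX.1 hx
    obtain ⟨g1, hg1⟩ := m.exists_g k
    refine ⟨γ * g1 * γ⁻¹, ?_, ?_⟩
    · have h1 := m.act k g1 hg1 a s ha
      have h2 : cj Q k s = s := by
        apply inc_inj
        change (k : G) * inc Q s * (k : G)⁻¹ = inc Q s
        rw [hk]; group
      rw [h2, ← ha] at h1
      obtain ⟨w, hw⟩ := m.eq_iff.1 h1
      change γ * g1 * γ⁻¹ ∈ MulAction.stabilizer Co0 (crs (e8 none))
      rw [MulAction.mem_stabilizer_iff, smul_crs]
      apply Eq.symm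
      apply crs_eq
      refine ⟨by rw [sqNorm_smul], ?_⟩
      have h3 : e8 none = γ • a - (u + u) := by rw [← hu]; abel
      have h4 : g1 • a = a + (w + w) := by rw [← hw]; abel
      refine ⟨γ • w - (γ * g1 * γ⁻¹) • u + u, ?_⟩
      have h5 : (γ * g1 * γ⁻¹) • e8 none = γ • a + (γ • w + γ • w) - ((γ * g1 * γ⁻¹) • u + (γ * g1 * γ⁻¹) • u) := by
        nth_rewrite 1 [h3]
        rw [smul_sub', smul_add', mul_smul, mul_smul, inv_smul_smul, h4, smul_add', smul_add']
      rw [h5]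
      nth_rewrite 1 [h3]
      abel
    · change π (γ * g1 * γ⁻¹) = π γ * e (QuotientGroup.mk k) * (π γ)⁻¹
      rw [← hg1, map_mul, map_mul, map_inv]; rfl
  have h1 : Nat.card (XX Q (inc Q s)) = Nat.card ((XX Q (inc Q s)).map ρ) := Nat.card_congr ((XX Q (inc Q s)).equivMapOfInjective ρ hρ).toEquiv
  haveI : Finite Spor.Co1 := Nat.finite_of_card_ne_zero (by rw [co1_card]; norm_num)
  refine ⟨?_, ?_⟩
  · rw [h1, ← hN]
    exact Subgroup.card_le_of_le hle
  · haveI : Finite ((Subgroup.centralizer ({z} : Set G)) ⧸ Q) := Finite.of_equiv _ e.symm.toEquiv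
    infer_instance

theorem complement (f : Cf c g s) (m : MT c e ψ) (hcard : Nat.card Q = 2 ^ 25) :
    ∃ K : Subgroup ((Subgroup.centralizer ({z} : Set G)) ⧸ Q), K ≤ XX Q (inc Q s) ∧ EE Q g ⊓ K = ⊥ ∧ EE Q g ⊔ K = XX Q (inc Q s) ∧ Nonempty (K ≃* M24) := by
  obtain ⟨a, ha, hn⟩ := f.exists_a m hcard
  obtain ⟨γ, u, hu⟩ := exists_e8 a hn
  let π : Co0 →* Spor.Co1 := QuotientGroup.mk' (Subgroup.center Co0)
  let κ : M24 →* (Subgroup.centralizer ({z} : Set G)) ⧸ Q :=
    e.symm.toMonoidHom.comp (π.comp ((MulAut.conj γ⁻¹).toMonoidHom.comp permHom))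
  have hκ : ∀ σ, κ σ = e.symm (QuotientGroup.mk (γ⁻¹ * permHom σ * γ⁻¹⁻¹)) := fun σ => rfl
  have hinj : Function.Injective κ := by
    rw [injective_iff_map_eq_one]
    intro σ hσ
    rw [hκ, MulEquiv.map_eq_one_iff, QuotientGroup.eq_one_iff] at hσ
    apply permHom_inj
    rw [← center_eq]
    have := (inferInstance : (Subgroup.center Co0).Normal).conj_mem _ hσ γ
    have h2 : γ * (γ⁻¹ * permHom σ * γ⁻¹⁻¹) * γ⁻¹ = permHom σ := by group
    rw [h2] at this; exact this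
  have hKX : κ.range ≤ XX Q (inc Q s) := by
    rintro _ ⟨σ, rfl⟩
    obtain ⟨w, hw⟩ := permHom_e8 σ
    obtain ⟨k, hk, hks⟩ := f.exists_fix m ha (γ := γ⁻¹ * permHom σ * γ⁻¹⁻¹) (by
      have h3 : γ • a = e8 none + (u + u) := by rw [← hu]; abel
      have h4 : permHom σ • e8 none = e8 none + (w + w) := by rw [← hw]; abel
      have h6 : a = γ⁻¹ • e8 none + (γ⁻¹ • u + γ⁻¹ • u) := by
        rw [← smul_add', ← smul_add', ← h3, inv_smul_smul]
      refine ⟨γ⁻¹ • w + γ⁻¹ • (permHom σ • u) - γ⁻¹ • u, ?_⟩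
      have h5 : (γ⁻¹ * permHom σ * γ⁻¹⁻¹) • a = γ⁻¹ • e8 none + (γ⁻¹ • w + γ⁻¹ • w) + (γ⁻¹ • (permHom σ • u) + γ⁻¹ • (permHom σ • u)) := by
        rw [inv_inv, mul_smul, mul_smul, h3, smul_add', smul_add', h4, smul_add', smul_add', smul_add', smul_add']
      rw [h5]
      nth_rewrite 1 [h6]
      abel)
    refine mem_XX.2 ⟨k, hks, ?_⟩
    rw [hκ, hk, MulEquiv.symm_apply_apply]
  have hfin := (f.XX_card m hcard).2
  have hEcard := (f.EE_range m hcard).2
  haveI : Finite (EE Q g) := Nat.finite_of_card_ne_zero (by rw [hEcard]; norm_num)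
  have hKcard : Nat.card κ.range = 244823040 := by
    rw [← card_M24]; exact (Nat.card_congr (MonoidHom.ofInjective hinj).toEquiv).symm
  haveI : Finite κ.range := Nat.finite_of_card_ne_zero (by rw [hKcard]; norm_num)
  have hdis : EE Q g ⊓ κ.range = ⊥ := by
    haveI := m24_simple
    have hnorm : ((EE Q g).comap κ).Normal := ⟨fun x hx y => by
      rw [Subgroup.mem_comap] at hx ⊢
      rw [map_mul, map_mul, map_inv]
      exact f.EE_norm (hKX ⟨y, rfl⟩) hx⟩
    rcases hnorm.eq_bot_or_eq_top with h | h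
    · rw [eq_bot_iff]
      rintro x ⟨hx, σ, rfl⟩
      have : σ ∈ (EE Q g).comap κ := hx
      rw [h, Subgroup.mem_bot] at this
      rw [this, map_one]; exact Subgroup.one_mem _
    · exfalso
      have hle : κ.range ≤ EE Q g := by
        rintro _ ⟨σ, rfl⟩
        have : σ ∈ (EE Q g).comap κ := by rw [h]; exact Subgroup.mem_top _
        exact this
      have := Subgroup.card_le_of_le hle
      rw [hKcard, hEcard] at this
      norm_num at this
  refine ⟨κ.range, hKX, hdis, ?_, ⟨(MonoidHom.ofInjective hinj).symm⟩⟩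
  have hle : EE Q g ⊔ κ.range ≤ XX Q (inc Q s) := sup_le (f.EE_le m) hKX
  haveI : Finite ↥(EE Q g ⊔ κ.range : Subgroup _) := Finite.of_injective _ (Subgroup.inclusion_injective hle)
  apply Subgroup.eq_of_le_of_card_ge hle
  refine (f.XX_card m hcard).1.trans ?_
  rw [← hEcard, ← hKcard, ← Nat.card_prod]
  refine Nat.card_le_card_of_injective (fun p : EE Q g × κ.range => (⟨(p.1 : _ ⧸ Q) * p.2, Subgroup.mul_mem_sup p.1.2 p.2.2⟩ : ↥(EE Q g ⊔ κ.range : Subgroup _))) ?_
  intro p q h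
  exact Subgroup.mul_injective_of_disjoint (disjoint_iff.2 hdis) (congrArg Subtype.val h)

end Cf

end Cfsg.Agent.H9.Leech
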