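import Cfsg.Agent.H9.Leech.Stab
import Cfsg.Agent.H9.Leech.Mon1
set_option autoImplicit false

/-! Transitivity on pairs of minimal vectors. -/

namespace Cfsg.Agent.H9.Leech
open Cfsg Cfsg.Agent.H9
open scoped Pointwise

theorem exists_sign {Z A : Finset GolayPt} (hZ : Z.card ≤ 7) (hA : A ⊆ Z) : ∃ C ∈ Cd, ∀ p ∈ Z, p ∈ C ↔ p ∈ A := by
  refine restrict hA fun D hD hsub => ?_
  rcases Finset.eq_empty_or_nonempty D with h0 | h0
  · rw [h0]; simp
  · have h1 := Finset.card_le_card hsub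
    have h3 := Finset.card_pos.2 h0
    rcases cd_card hD with h | h | h | h | h <;> omega

/-- transitivity on all vectors of norm 64 -/
theorem T64 (a : leechLattice) (h : sqNorm (a : GolayPt → ℤ) = 64) : ∃ g : Co0, g • a = e8 none := by
  obtain ⟨g, hg⟩ := exists_crs h (e8_norm none)
  have h1 : g • a ∈ crs (e8 none) := by rw [← hg]; exact Set.smul_mem_smul_set (crs_self a)
  rw [← std_eq_crs none] at h1
  obtain ⟨i, s, hs, hv⟩ := std_iff.1 h1
  obtain ⟨σ, hσ, hσi⟩ := m24_transOn [i] [none] (by simp) (by simp) rfl (by simp) (fun _ _ => Finset.mem_univ _) (fun _ _ => Finset.mem_univ _)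
  have hσi' : σ i = none := by simpa using hσi
  rcases hs with rfl | rfl
  · refine ⟨mono σ hσ ∅ cd_empty * g, Subtype.ext ?_⟩
    rw [mul_smul, mono_smul, hv]
    change signedPerm σ ∅ (Pi.single i (8 * 1)) = Pi.single none 8
    rw [signedPerm_single, hσi', if_neg (Finset.notMem_empty _)]; norm_num
  · refine ⟨mono σ hσ Finset.univ cd_univ * g, Subtype.ext ?_⟩
    rw [mul_smul, mono_smul, hv]
    change signedPerm σ Finset.univ (Pi.single i (8 * -1)) = Pi.single none 8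
    rw [signedPerm_single, hσi', if_pos (Finset.mem_univ _)]; norm_num

def Sh (v : leechLattice) (j : GolayPt) (δ : ℤ) : Prop := ∀ i, (v : GolayPt → ℤ) i = if i = none then 4 else if i = j then 4 * δ else 0

theorem Sh.unique {v w : leechLattice} {j : GolayPt} {δ : ℤ} (hv : Sh v j δ) (hw : Sh w j δ) : v = w :=
  Subtype.ext (funext fun i => (hv i).trans (hw i).symm)

theorem sh_of {v : leechLattice} (hn : sqNorm (v : GolayPt → ℤ) = 32) (h4 : (v : GolayPt → ℤ) none = 4) :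
    ∃ j, j ≠ none ∧ ∃ δ : ℤ, (δ = 1 ∨ δ = -1) ∧ Sh v j δ := by
  have hmem : none ∈ AK (v : GolayPt → ℤ) 4 := by rw [mem_AK, h4]; norm_num
  rcases shapes32 v.2 hn with h | h | h
  · have := h.odd none; omega
  · obtain ⟨a, b, hab, hAB⟩ := Finset.card_eq_two.1 h.n4
    obtain ⟨j, hj, hAj⟩ : ∃ j, j ≠ none ∧ AK (v : GolayPt → ℤ) 4 = {none, j} := by
      rw [hAB, Finset.mem_insert, Finset.mem_singleton] at hmem
      rcases hmem with h1 | h1
      · exact ⟨b, fun h2 => hab (h1.symm.trans h2.symm), by rw [hAB, h1]⟩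
      · exact ⟨a, fun h2 => hab (h2.trans h1), by rw [hAB, h1, Finset.pair_comm]⟩
    have hj4 : |(v : GolayPt → ℤ) j| = 4 := by
      rw [← mem_AK, hAj]; simp
    have hval : ∀ i, i ≠ none → i ≠ j → (v : GolayPt → ℤ) i = 0 := by
      intro i h1 h2
      have h3 : i ∉ AK (v : GolayPt → ℤ) 4 := by rw [hAj]; simp [h1, h2]
      have h5 : i ∉ TT (v : GolayPt → ℤ) := by rw [Finset.card_eq_zero.1 h.nT]; simp
      have h6 : i ∉ AK (v : GolayPt → ℤ) 8 := by rw [Finset.card_eq_zero.1 h.n8]; simp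
      rw [mem_AK] at h3 h6
      have h7 : ¬ _ := fun hh => h5 (mem_TT.2 hh)
      have h8 := abs_le_8 rfl h.le i
      have h9 := h.even i
      by_contra h0
      have : (v : GolayPt → ℤ) i = 4 ∨ (v : GolayPt → ℤ) i = -4 ∨ (v : GolayPt → ℤ) i = 8 ∨ (v : GolayPt → ℤ) i = -8 := by omega
      rcases this with e | e | e | e
      · exact h3 (by rw [e]; norm_num)
      · exact h3 (by rw [e]; norm_num)
      · exact h6 (by rw [e]; norm_num)
      · exact h6 (by rw [e]; norm_num)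
    have hval' : ∀ δ : ℤ, (v : GolayPt → ℤ) j = 4 * δ → Sh v j δ := by
      intro δ hδ i
      by_cases h1 : i = none
      · rw [if_pos h1, h1, h4]
      · by_cases h2 : i = j
        · rw [if_neg h1, if_pos h2, h2, hδ]
        · rw [if_neg h1, if_neg h2, hval i h1 h2]
    rcases abs_eq (by norm_num : (0:ℤ) ≤ 4) |>.1 hj4 with h5 | h5
    · exact ⟨j, hj, 1, Or.inl rfl, hval' 1 (by rw [h5]; norm_num)⟩
    · exact ⟨j, hj, -1, Or.inr rfl, hval' (-1) (by rw [h5]; norm_num)⟩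
  · rw [Finset.card_eq_zero.1 h.n4] at hmem
    exact absurd hmem (Finset.notMem_empty _)

theorem mono_sh {σ : Equiv.Perm GolayPt} (hσ : σ ∈ M24) {c : Finset GolayPt} (hc : c ∈ Cd) {v : leechLattice} {j j' : GolayPt} {δ δ' : ℤ}
    (h0 : σ none = none) (hj : σ j = j') (hj0 : j' ≠ none) (hc0 : none ∉ c) (hcj : (if j' ∈ c then -δ else δ) = δ') (hv : Sh v j δ) : Sh (mono σ hσ c hc • v) j' δ' := by
  intro i
  rw [mono_smul]
  unfold signedPerm
  have h1 : σ.symm none = none := by rw [Equiv.symm_apply_eq, h0]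
  have h2 : σ.symm j' = j := by rw [Equiv.symm_apply_eq, hj]
  have hj0' : j ≠ none := by rintro rfl; exact hj0 (hj.symm.trans h0)
  by_cases h3 : i = none
  · rw [if_pos h3, h3, if_neg hc0, h1, hv none, if_pos rfl]
  · by_cases h4 : i = j'
    · rw [if_neg h3, if_pos h4, h4, h2, hv j, if_neg hj0', if_pos rfl, ← hcj]
      split_ifs <;> ring
    · have h5 : σ.symm i ≠ none := by intro h; rw [Equiv.symm_apply_eq, h0] at h; exact h3 h
      have h6 : σ.symm i ≠ j := by intro h; rw [Equiv.symm_apply_eq, hj] at h; exact h4 h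
      rw [if_neg h3, if_neg h4, hv, if_neg h5, if_neg h6]
      split_ifs <;> ring

theorem mono_e8 {σ : Equiv.Perm GolayPt} (hσ : σ ∈ M24) {c : Finset GolayPt} (hc : c ∈ Cd) (h0 : σ none = none) (hc0 : none ∉ c) :
    mono σ hσ c hc • e8 none = e8 none := by
  apply Subtype.ext
  rw [mono_smul]
  change signedPerm σ c (Pi.single none 8) = Pi.single none 8
  rw [signedPerm_single, h0, if_neg hc0]

theorem dot_e8 (v : leechLattice) : dotInt (v : GolayPt → ℤ) ((e8 none : leechLattice) : GolayPt → ℤ) = 8 * (v : GolayPt → ℤ) none :=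
  dot_single _ _ _

theorem norm_add (v w : leechLattice) : sqNorm ((v + w : leechLattice) : GolayPt → ℤ) =
    sqNorm (v : GolayPt → ℤ) + 2 * dotInt (v : GolayPt → ℤ) (w : GolayPt → ℤ) + sqNorm (w : GolayPt → ℤ) := by
  change sqNorm ((v : GolayPt → ℤ) + (w : GolayPt → ℤ)) = _
  rw [sqNorm_add]; ring

theorem dot_add_right' (u v w : leechLattice) : dotInt (u : GolayPt → ℤ) ((v + w : leechLattice) : GolayPt → ℤ) =
    dotInt (u : GolayPt → ℤ) (v : GolayPt → ℤ) + dotInt (u : GolayPt → ℤ) (w : GolayPt → ℤ) := by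
  unfold dotInt
  rw [← Finset.sum_add_distrib]
  apply Finset.sum_congr rfl
  intro i _
  change (u : GolayPt → ℤ) i * ((v : GolayPt → ℤ) i + (w : GolayPt → ℤ) i) = _
  ring

theorem dot_comm' (v w : leechLattice) : dotInt (v : GolayPt → ℤ) (w : GolayPt → ℤ) = dotInt (w : GolayPt → ℤ) (v : GolayPt → ℤ) := by
  unfold dotInt
  exact Finset.sum_congr rfl fun i _ => mul_comm _ _

theorem dot_self' (v : leechLattice) : dotInt (v : GolayPt → ℤ) (v : GolayPt → ℤ) = sqNorm (v : GolayPt → ℤ) := dotInt_self _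

/-- transitivity on orthogonal pairs -/
theorem pair_zero {v w v' w' : leechLattice} (hv : sqNorm (v : GolayPt → ℤ) = 32) (hw : sqNorm (w : GolayPt → ℤ) = 32)
    (hv' : sqNorm (v' : GolayPt → ℤ) = 32) (hw' : sqNorm (w' : GolayPt → ℤ) = 32)
    (hd : dotInt (v : GolayPt → ℤ) (w : GolayPt → ℤ) = 0) (hd' : dotInt (v' : GolayPt → ℤ) (w' : GolayPt → ℤ) = 0) :
    ∃ g : Co0, g • v = v' ∧ g • w = w' := by
  have key : ∀ v w : leechLattice, sqNorm (v : GolayPt → ℤ) = 32 → sqNorm (w : GolayPt → ℤ) = 32 → dotInt (v : GolayPt → ℤ) (w : GolayPt → ℤ) = 0 →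
      ∃ g : Co0, g • (v + w) = e8 none ∧ ∃ j, j ≠ none ∧ ∃ δ : ℤ, (δ = 1 ∨ δ = -1) ∧ Sh (g • v) j δ := by
    intro v w hv hw hd
    obtain ⟨g, hg⟩ := T64 (v + w) (by rw [norm_add]; omega)
    refine ⟨g, hg, sh_of (by rw [sqNorm_smul, hv]) ?_⟩
    have h1 := dot_smul g v (v + w)
    rw [hg, dot_e8, dot_add_right', dot_self'] at h1
    omega
  obtain ⟨g, hg, j, hj, δ, hδ, hs⟩ := key v w hv hw hd
  obtain ⟨g', hg', j', hj', δ', hδ', hs'⟩ := key v' w' hv' hw' hd'
  obtain ⟨σ, hσ, hσi⟩ := m24_transOn [none, j] [none, j'] (by simp [hj.symm]) (by simp [hj'.symm]) rfl (by simp) (fun _ _ => Finset.mem_univ _)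
    (fun _ _ => Finset.mem_univ _)
  have h0 : σ none = none := by simpa using (List.cons.inj hσi).1
  have hσj : σ j = j' := by have := (List.cons.inj hσi).2; simpa using this
  obtain ⟨c, hc, hcc⟩ := exists_sign (Z := {none, j'}) (A := if δ = δ' then ∅ else {j'}) (Finset.card_le_two.trans (by norm_num))
    (by split_ifs <;> simp)
  have hc0 : none ∉ c := by
    rw [hcc none (by simp)]; split_ifs <;> simp [hj'.symm]
  have hcj : (if j' ∈ c then -δ else δ) = δ' := by
    have hm := hcc j' (by simp)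
    by_cases h1 : δ = δ'
    · rw [if_pos h1] at hm
      rw [if_neg (fun h => absurd (hm.1 h) (Finset.notMem_empty _)), h1]
    · rw [if_neg h1] at hm
      rw [if_pos (hm.2 (by simp))]; omega
  have h1 := mono_sh hσ hc h0 hσj hj' hc0 hcj hs
  have h2 : mono σ hσ c hc • g • v = g' • v' := h1.unique hs'
  have h3 : mono σ hσ c hc • g • (v + w) = g' • (v' + w') := by rw [hg, hg', mono_e8 hσ hc h0 hc0]
  rw [smul_add', smul_add', smul_add', h2] at h3
  have h4 := add_left_cancel h3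
  refine ⟨g'⁻¹ * (mono σ hσ c hc * g), ?_, ?_⟩
  · rw [mul_smul, mul_smul, h2, inv_smul_smul]
  · rw [mul_smul, mul_smul, h4, inv_smul_smul]

/-! ### inner product -16 and -8 -/

theorem exists_avoid {Z : Finset GolayPt} (hZ : Z.card ≤ 5) : ∃ O ∈ Cd, O.card = 8 ∧ ∀ i ∈ O, i ∉ Z := by
  obtain ⟨Z', hZ', hc⟩ := Finset.exists_superset_card_eq hZ (by rw [card_pt]; norm_num : 5 ≤ Fintype.card GolayPt)
  have h8 := octad_card oct0_mem
  obtain ⟨B, hB, hBc⟩ := Finset.exists_subset_card_eq (s := (S oct0)ᶜ) (n := 5) (by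
    rw [Finset.card_compl, h8, card_pt]; norm_num)
  obtain ⟨σ, hσ, hσZ⟩ := subset_trans (A := B) (B := Z') (by rw [hBc, hc]) (by omega)
  refine ⟨σ • S oct0, (M24_cd hσ).2 oct0_mem.1, by rw [Finset.card_smul_finset, h8], ?_⟩
  intro i hi hiZ
  obtain ⟨k, hk, rfl⟩ := Finset.mem_smul_finset.1 hi
  have h1 : σ • k ∈ Z' := hZ' hiZ
  rw [← hσZ, Finset.smul_mem_smul_finset_iff] at h1
  exact Finset.mem_compl.1 (hB h1) hk

theorem exists_pm {i j : GolayPt} (hij : i ≠ j) {s t : ℤ} (hs : s = 1 ∨ s = -1) (ht : t = 1 ∨ t = -1) : ∃ a : leechLattice,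
    sqNorm (a : GolayPt → ℤ) = 32 ∧ ∀ x : GolayPt → ℤ, dotInt x (a : GolayPt → ℤ) = 4 * (s * x i + t * x j) := by
  have hmem : (Pi.single i (4 * s) + Pi.single j (4 * t) : GolayPt → ℤ) ∈ leechLattice := by
    have : (Pi.single i (4 * s) + Pi.single j (4 * t) : GolayPt → ℤ) = fun k => 4 * ((Pi.single i s : GolayPt → ℤ) k + (Pi.single j t : GolayPt → ℤ) k) := by
      funext k
      rw [Pi.add_apply, single_apply', single_apply', single_apply', single_apply']
      split_ifs <;> ring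
    rw [this]
    apply four_mem
    rw [Finset.sum_add_distrib, sum_single', sum_single']; omega
  refine ⟨⟨_, hmem⟩, ?_, ?_⟩
  · change sqNorm (Pi.single i (4 * s) + Pi.single j (4 * t) : GolayPt → ℤ) = 32
    rw [sqNorm_add, sqNorm_single, sqNorm_single, dot_single, single_apply', if_neg (Ne.symm hij)]
    rcases hs with rfl | rfl <;> rcases ht with rfl | rfl <;> norm_num
  · intro x
    change dotInt x (Pi.single i (4 * s) + Pi.single j (4 * t) : GolayPt → ℤ) = _
    have : dotInt x (Pi.single i (4 * s) + Pi.single j (4 * t) : GolayPt → ℤ) = dotInt x (Pi.single i (4 * s)) + dotInt x (Pi.single j (4 * t)) := by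
      unfold dotInt
      rw [← Finset.sum_add_distrib]
      apply Finset.sum_congr rfl
      intro k _
      rw [Pi.add_apply]; ring
    rw [this, dot_single, dot_single]; ring

theorem aU_dot (x : GolayPt → ℤ) : dotInt x (aU : GolayPt → ℤ) = 4 * (x (pt 0) + x (pt 1)) := by
  have h : (aU : GolayPt → ℤ) = Pi.single (pt 0) 4 + Pi.single (pt 1) 4 := by
    have hne : (pt 0 : GolayPt) ≠ pt 1 := by decide +kernel
    funext i
    rw [aU_val, Pi.add_apply, single_apply', single_apply']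
    by_cases h1 : i = pt 0
    · have : i ≠ pt 1 := fun h => hne (h1.symm.trans h)
      rw [if_pos (Or.inl h1), if_pos h1, if_neg this]; norm_num
    · by_cases h2 : i = pt 1
      · rw [if_pos (Or.inr h2), if_neg h1, if_pos h2]; norm_num
      · rw [if_neg (by tauto), if_neg h1, if_neg h2]; norm_num
  rw [h]
  have : dotInt x (Pi.single (pt 0) 4 + Pi.single (pt 1) 4 : GolayPt → ℤ) = dotInt x (Pi.single (pt 0) 4) + dotInt x (Pi.single (pt 1) 4) := by
    unfold dotInt
    rw [← Finset.sum_add_distrib]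
    apply Finset.sum_congr rfl
    intro k _
    rw [Pi.add_apply]; ring
  rw [this, dot_single, dot_single]; ring

theorem aU_norm' : sqNorm (aU : GolayPt → ℤ) = 32 := by
  change sqNorm (vec etaA0) = 32
  exact sq_vec _ _ (by decide +kernel)

theorem even_vals {a b c d : ℕ} {x : GolayPt → ℤ} (h : ShE a b 0 0 x) (hc : c = 0) (hd : d = 0) (i : GolayPt) :
    (i ∈ TT x → x i = 2 ∨ x i = -2) ∧ (i ∉ TT x → x i = 0 ∨ x i = 4 ∨ x i = -4) := by
  have h6 : i ∉ AK x 6 := by rw [Finset.card_eq_zero.1 h.n6]; simp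
  have h8 : i ∉ AK x 8 := by rw [Finset.card_eq_zero.1 h.n8]; simp
  rw [mem_AK] at h6 h8
  have h1 := abs_le_8 rfl h.le i
  have h2 := h.even i
  have e6 : x i ≠ 6 ∧ x i ≠ -6 := ⟨fun e => h6 (by rw [e]; norm_num), fun e => h6 (by rw [e]; norm_num)⟩
  have e8 : x i ≠ 8 ∧ x i ≠ -8 := ⟨fun e => h8 (by rw [e]; norm_num), fun e => h8 (by rw [e]; norm_num)⟩
  constructor
  · intro hT
    have := mem_TT.1 hT
    omega
  · intro hT
    have : ¬ _ := fun hh => hT (mem_TT.2 hh)
    omega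

theorem odd_vals {x : GolayPt → ℤ} (h : ShO 1 0 x) : ∃ r, |x r| = 3 ∧ ∀ i, i ≠ r → x i = 1 ∨ x i = -1 := by
  obtain ⟨r, hr⟩ := Finset.card_eq_one.1 h.n3
  refine ⟨r, by rw [← mem_AK, hr]; simp, fun i hi => ?_⟩
  have h3 : i ∉ AK x 3 := by rw [hr]; simpa using hi
  have h5 : i ∉ AK x 5 := by rw [Finset.card_eq_zero.1 h.n5]; simp
  have h7 : i ∉ AK x 7 := by rw [Finset.card_eq_zero.1 h.n7]; simp
  rw [mem_AK] at h3 h5 h7
  have h1 := abs_le_8 rfl h.le i
  have h2 := h.odd i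
  have e3 : x i ≠ 3 ∧ x i ≠ -3 := ⟨fun e => h3 (by rw [e]; norm_num), fun e => h3 (by rw [e]; norm_num)⟩
  have e5 : x i ≠ 5 ∧ x i ≠ -5 := ⟨fun e => h5 (by rw [e]; norm_num), fun e => h5 (by rw [e]; norm_num)⟩
  have e7 : x i ≠ 7 ∧ x i ≠ -7 := ⟨fun e => h7 (by rw [e]; norm_num), fun e => h7 (by rw [e]; norm_num)⟩
  omega

theorem exists_a {v w : leechLattice} (hv : sqNorm (v : GolayPt → ℤ) = 32) (hw : sqNorm (w : GolayPt → ℤ) = 32)
    (hd : dotInt (v : GolayPt → ℤ) (w : GolayPt → ℤ) = -16 ∨ dotInt (v : GolayPt → ℤ) (w : GolayPt → ℤ) = -8) :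
    ∃ a : leechLattice, sqNorm (a : GolayPt → ℤ) = 32 ∧ dotInt (v : GolayPt → ℤ) (a : GolayPt → ℤ) = 0 ∧
      dotInt (w : GolayPt → ℤ) (a : GolayPt → ℤ) = -16 := by
  suffices H : ∀ w : leechLattice, sqNorm (w : GolayPt → ℤ) = 32 → ((w : GolayPt → ℤ) (pt 0) + (w : GolayPt → ℤ) (pt 1) = -4 ∨
      (w : GolayPt → ℤ) (pt 0) + (w : GolayPt → ℤ) (pt 1) = -2) → ∃ a : leechLattice, sqNorm (a : GolayPt → ℤ) = 32 ∧
      dotInt (aU : GolayPt → ℤ) (a : GolayPt → ℤ) = 0 ∧ dotInt (w : GolayPt → ℤ) (a : GolayPt → ℤ) = -16 by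
    obtain ⟨g, hg⟩ := trans32 v.2 aU.2 hv aU_norm'
    have hg' : g • v = aU := Subtype.ext hg.eq
    obtain ⟨a, h1, h2, h3⟩ := H (g • w) (by rw [sqNorm_smul, hw]) (by
      have := dot_smul g w v
      rw [hg', aU_dot, dot_comm' w v] at this
      omega)
    refine ⟨g⁻¹ • a, by rw [sqNorm_smul, h1], ?_, ?_⟩
    · rw [← dot_smul g, smul_inv_smul, hg', h2]
    · rw [← dot_smul g, smul_inv_smul, h3]
  intro w hw hd
  have hne : (pt 0 : GolayPt) ≠ pt 1 := by decide +kernel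
  rcases shapes32 w.2 hw with h | h | h
  · obtain ⟨r, hr3, hr⟩ := odd_vals h
    obtain ⟨O, hO, hO8, hOZ⟩ := exists_avoid (Z := {pt 0, pt 1, r}) (Finset.card_le_three.trans (by norm_num))
    have h1 : ∀ i ∈ O, (w : GolayPt → ℤ) i * (w : GolayPt → ℤ) i = 1 := by
      intro i hi
      have := hOZ i hi
      simp only [Finset.mem_insert, Finset.mem_singleton, not_or] at this
      rcases hr i this.2.2 with h | h <;> rw [h] <;> norm_num
    have h2 : ∀ x : GolayPt → ℤ, dotInt x ((-(res O hO w) : leechLattice) : GolayPt → ℤ) = -dotInt x (res O hO w : GolayPt → ℤ) := by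
      intro x
      unfold dotInt
      rw [← Finset.sum_neg_distrib]
      apply Finset.sum_congr rfl
      intro i _
      change x i * -((res O hO w : leechLattice) : GolayPt → ℤ) i = _
      ring
    refine ⟨-(res O hO w), ?_, ?_, ?_⟩
    · have e : sqNorm ((-(res O hO w) : leechLattice) : GolayPt → ℤ) = sqNorm ((res O hO w : leechLattice) : GolayPt → ℤ) := by
        unfold sqNorm
        apply Finset.sum_congr rfl
        intro i _
        change (-((res O hO w : leechLattice) : GolayPt → ℤ) i) ^ 2 = _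
        ring
      rw [e, ← dotInt_self, dot_res]
      have : ∑ i ∈ O, ((res O hO w : leechLattice) : GolayPt → ℤ) i * (w : GolayPt → ℤ) i = ∑ i ∈ O, 2 := by
        apply Finset.sum_congr rfl
        intro i hi
        rw [res_val, if_pos hi]; linarith [h1 i hi]
      rw [this, Finset.sum_const, hO8]; norm_num
    · rw [h2, dot_res]
      have : ∑ i ∈ O, (aU : GolayPt → ℤ) i * (w : GolayPt → ℤ) i = ∑ i ∈ O, 0 := by
        apply Finset.sum_congr rfl
        intro i hi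
        have := hOZ i hi
        simp only [Finset.mem_insert, Finset.mem_singleton, not_or] at this
        rw [aU_val, if_neg (by tauto)]; ring
      rw [this]; simp
    · rw [h2, dot_res, Finset.sum_congr rfl h1, Finset.sum_const, hO8]; norm_num
  · have h0 := (even_vals h rfl rfl (pt 0)).2 (by rw [Finset.card_eq_zero.1 h.nT]; simp)
    have h1 := (even_vals h rfl rfl (pt 1)).2 (by rw [Finset.card_eq_zero.1 h.nT]; simp)
    have h2 : ((w : GolayPt → ℤ) (pt 0) = -4 ∧ (w : GolayPt → ℤ) (pt 1) = 0) ∨ ((w : GolayPt → ℤ) (pt 0) = 0 ∧ (w : GolayPt → ℤ) (pt 1) = -4) := by omega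
    rcases h2 with ⟨e0, e1⟩ | ⟨e0, e1⟩
    · obtain ⟨a, ha, hd⟩ := exists_pm hne (s := 1) (t := -1) (Or.inl rfl) (Or.inr rfl)
      refine ⟨a, ha, ?_, ?_⟩
      · rw [hd, aU_val, aU_val]; simp
      · rw [hd, e0, e1]; norm_num
    · obtain ⟨a, ha, hd⟩ := exists_pm hne (s := -1) (t := 1) (Or.inr rfl) (Or.inl rfl)
      refine ⟨a, ha, ?_, ?_⟩
      · rw [hd, aU_val, aU_val]; simp
      · rw [hd, e0, e1]; norm_num
  · have hc : 2 ≤ (TT (w : GolayPt → ℤ) \ {pt 0, pt 1}).card := by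
      have h1 := Finset.le_card_sdiff ({pt 0, pt 1} : Finset GolayPt) (TT (w : GolayPt → ℤ))
      have h2 := Finset.card_le_two (a := (pt 0 : GolayPt)) (b := pt 1)
      rw [h.nT] at h1
      omega
    obtain ⟨i, j, hi, hj, hij⟩ := Finset.one_lt_card_iff.1 (Nat.lt_of_lt_of_le Nat.one_lt_two hc)
    rw [Finset.mem_sdiff] at hi hj
    have hi' := (even_vals h rfl rfl i).1 hi.1
    have hj' := (even_vals h rfl rfl j).1 hj.1
    obtain ⟨a, ha, hd⟩ := exists_pm hij (s := -((w : GolayPt → ℤ) i / 2)) (t := -((w : GolayPt → ℤ) j / 2)) (by omega) (by omega)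
    have e0 : ∀ k, k ∉ ({pt 0, pt 1} : Finset GolayPt) → (aU : GolayPt → ℤ) k = 0 := by
      intro k hk
      simp only [Finset.mem_insert, Finset.mem_singleton] at hk
      rw [aU_val, if_neg hk]
    refine ⟨a, ha, ?_, ?_⟩
    · rw [hd, e0 i hi.2, e0 j hj.2]; ring
    · rw [hd]
      rcases hi' with e | e <;> rcases hj' with e' | e' <;> rw [e, e'] <;> norm_num

theorem Sh.dot {v : leechLattice} {j : GolayPt} {δ : ℤ} (hj : j ≠ none) (hv : Sh v j δ) (x : GolayPt → ℤ) :
    dotInt x (v : GolayPt → ℤ) = 4 * x none + 4 * δ * x j := by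
  have h : (v : GolayPt → ℤ) = Pi.single none 4 + Pi.single j (4 * δ) := by
    funext i
    rw [hv i, Pi.add_apply, single_apply', single_apply']
    by_cases h1 : i = none
    · rw [if_pos h1, if_pos h1, if_neg (fun h => hj (h.symm.trans h1))]; ring
    · by_cases h2 : i = j
      · rw [if_neg h1, if_pos h2, if_neg h1]; ring
      · rw [if_neg h1, if_neg h2, if_neg h1]; ring
  rw [h]
  have : dotInt x (Pi.single none 4 + Pi.single j (4 * δ) : GolayPt → ℤ) = dotInt x (Pi.single none 4) + dotInt x (Pi.single j (4 * δ)) := by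
    unfold dotInt
    rw [← Finset.sum_add_distrib]
    apply Finset.sum_congr rfl
    intro k _
    rw [Pi.add_apply]; ring
  rw [this, dot_single, dot_single]

theorem neg_norm (v : leechLattice) : sqNorm ((-v : leechLattice) : GolayPt → ℤ) = sqNorm (v : GolayPt → ℤ) := by
  unfold sqNorm
  apply Finset.sum_congr rfl
  intro i _
  change (-(v : GolayPt → ℤ) i) ^ 2 = _
  ring

theorem neg_dot (v w : leechLattice) : dotInt ((-v : leechLattice) : GolayPt → ℤ) (w : GolayPt → ℤ) = -dotInt (v : GolayPt → ℤ) (w : GolayPt → ℤ) := by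
  unfold dotInt
  rw [← Finset.sum_neg_distrib]
  apply Finset.sum_congr rfl
  intro i _
  change -(v : GolayPt → ℤ) i * _ = _
  ring

theorem pair16 {v w v' w' : leechLattice} (hv : sqNorm (v : GolayPt → ℤ) = 32) (hw : sqNorm (w : GolayPt → ℤ) = 32)
    (hv' : sqNorm (v' : GolayPt → ℤ) = 32) (hw' : sqNorm (w' : GolayPt → ℤ) = 32)
    (hd : dotInt (v : GolayPt → ℤ) (w : GolayPt → ℤ) = -16) (hd' : dotInt (v' : GolayPt → ℤ) (w' : GolayPt → ℤ) = -16) :
    ∃ g : Co0, g • v = v' ∧ g • w = w' := by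
  have key : ∀ v w : leechLattice, sqNorm (v : GolayPt → ℤ) = 32 → sqNorm (w : GolayPt → ℤ) = 32 → dotInt (v : GolayPt → ℤ) (w : GolayPt → ℤ) = -16 →
      ∃ g : Co0, ∃ j, j ≠ none ∧ ∃ δ : ℤ, (δ = 1 ∨ δ = -1) ∧ Sh (g • v) j δ ∧ ∃ k, k ≠ none ∧ k ≠ j ∧ ∃ ε : ℤ, (ε = 1 ∨ ε = -1) ∧ Sh (-(g • w)) k ε := by
    intro v w hv hw hd
    obtain ⟨a, ha, hva, hwa⟩ := exists_a hv hw (Or.inl hd)
    obtain ⟨g, hg⟩ := T64 (v + a) (by rw [norm_add]; omega)
    have h1 := dot_smul g v (v + a)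
    rw [hg, dot_e8, dot_add_right', dot_self'] at h1
    have h2 := dot_smul g w (v + a)
    rw [hg, dot_e8, dot_add_right', dot_comm' w v] at h2
    obtain ⟨j, hj, δ, hδ, hs⟩ := sh_of (v := g • v) (by rw [sqNorm_smul, hv]) (by omega)
    obtain ⟨k, hk, ε, hε, ht⟩ := sh_of (v := -(g • w)) (by rw [neg_norm, sqNorm_smul, hw]) (by
      change -((g • w : leechLattice) : GolayPt → ℤ) none = 4
      omega)
    refine ⟨g, j, hj, δ, hδ, hs, k, hk, ?_, ε, hε, ht⟩
    rintro rfl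
    have h3 := hs.dot hj ((-(g • w) : leechLattice) : GolayPt → ℤ)
    rw [neg_dot, dot_smul, dot_comm' w v, hd, ht none, ht k, if_pos rfl, if_neg hk, if_pos rfl] at h3
    rcases hδ with rfl | rfl <;> rcases hε with rfl | rfl <;> norm_num at h3
  obtain ⟨g, j, hj, δ, hδ, hs, k, hk, hkj, ε, hε, ht⟩ := key v w hv hw hd
  obtain ⟨g', j', hj', δ', hδ', hs', k', hk', hkj', ε', hε', ht'⟩ := key v' w' hv' hw' hd'
  obtain ⟨σ, hσ, hσi⟩ := m24_transOn [none, j, k] [none, j', k'] (by simp [hj.symm, hk.symm, hkj.symm]) (by simp [hj'.symm, hk'.symm, hkj'.symm]) rfl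
    (by simp) (fun _ _ => Finset.mem_univ _) (fun _ _ => Finset.mem_univ _)
  simp only [List.map_cons, List.map_nil, List.cons.injEq, and_true] at hσi
  obtain ⟨h0, hσj, hσk⟩ := hσi
  obtain ⟨c, hc, hcc⟩ := exists_sign (Z := {none, j', k'}) (A := ({none, j', k'} : Finset GolayPt).filter fun x => (x = j' ∧ δ ≠ δ') ∨ (x = k' ∧ ε ≠ ε'))
    (Finset.card_le_three.trans (by norm_num)) (Finset.filter_subset _ _)
  have hc0 : none ∉ c := by
    rw [hcc none (by simp), Finset.mem_filter]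
    rintro ⟨_, ⟨h, _⟩ | ⟨h, _⟩⟩
    · exact hj' h.symm
    · exact hk' h.symm
  have hcj : (if j' ∈ c then -δ else δ) = δ' := by
    have hm := hcc j' (by simp)
    rw [Finset.mem_filter] at hm
    by_cases h1 : δ = δ'
    · rw [if_neg, h1]
      intro h
      rcases (hm.1 h).2 with ⟨_, h2⟩ | ⟨h2, _⟩
      · exact h2 h1
      · exact hkj' h2.symm
    · rw [if_pos (hm.2 ⟨by simp, Or.inl ⟨rfl, h1⟩⟩)]; omega
  have hck : (if k' ∈ c then -ε else ε) = ε' := by
    have hm := hcc k' (by simp)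
    rw [Finset.mem_filter] at hm
    by_cases h1 : ε = ε'
    · rw [if_neg, h1]
      intro h
      rcases (hm.1 h).2 with ⟨h2, _⟩ | ⟨_, h2⟩
      · exact hkj' h2
      · exact h2 h1
    · rw [if_pos (hm.2 ⟨by simp, Or.inr ⟨rfl, h1⟩⟩)]; omega
  have h2 : mono σ hσ c hc • g • v = g' • v' := (mono_sh hσ hc h0 hσj hj' hc0 hcj hs).unique hs'
  have h3 : mono σ hσ c hc • (-(g • w)) = -(g' • w') := (mono_sh hσ hc h0 hσk hk' hc0 hck ht).unique ht'
  rw [smul_neg'] at h3
  have h4 := neg_injective h3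
  refine ⟨g'⁻¹ * (mono σ hσ c hc * g), ?_, ?_⟩
  · rw [mul_smul, mul_smul, h2, inv_smul_smul]
  · rw [mul_smul, mul_smul, h4, inv_smul_smul]

theorem pair8 {v w v' w' : leechLattice} (hv : sqNorm (v : GolayPt → ℤ) = 32) (hw : sqNorm (w : GolayPt → ℤ) = 32)
    (hv' : sqNorm (v' : GolayPt → ℤ) = 32) (hw' : sqNorm (w' : GolayPt → ℤ) = 32)
    (hd : dotInt (v : GolayPt → ℤ) (w : GolayPt → ℤ) = -8) (hd' : dotInt (v' : GolayPt → ℤ) (w' : GolayPt → ℤ) = -8) :
    ∃ g : Co0, g • v = v' ∧ g • w = w' := by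
  have key : ∀ v w : leechLattice, sqNorm (v : GolayPt → ℤ) = 32 → sqNorm (w : GolayPt → ℤ) = 32 → dotInt (v : GolayPt → ℤ) (w : GolayPt → ℤ) = -8 →
      ∃ g : Co0, ∃ j, j ≠ none ∧ ∃ δ : ℤ, (δ = 1 ∨ δ = -1) ∧ Sh (g • v) j δ ∧ ((g • w : leechLattice) : GolayPt → ℤ) none = -3 ∧
        ∀ i, i ≠ none → ((g • w : leechLattice) : GolayPt → ℤ) i = 1 ∨ ((g • w : leechLattice) : GolayPt → ℤ) i = -1 := by
    intro v w hv hw hd
    obtain ⟨a, ha, hva, hwa⟩ := exists_a hv hw (Or.inr hd)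
    obtain ⟨g, hg⟩ := T64 (v + a) (by rw [norm_add]; omega)
    have h1 := dot_smul g v (v + a)
    rw [hg, dot_e8, dot_add_right', dot_self'] at h1
    have h2 := dot_smul g w (v + a)
    rw [hg, dot_e8, dot_add_right', dot_comm' w v] at h2
    obtain ⟨j, hj, δ, hδ, hs⟩ := sh_of (v := g • v) (by rw [sqNorm_smul, hv]) (by omega)
    have h3 : ((g • w : leechLattice) : GolayPt → ℤ) none = -3 := by omega
    refine ⟨g, j, hj, δ, hδ, hs, h3, ?_⟩
    rcases shapes32 (g • w).2 (by rw [sqNorm_smul, hw]) with h | h | h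
    · obtain ⟨r, hr3, hr⟩ := odd_vals h
      have : none = r := by
        by_contra hne
        rcases hr none hne with h4 | h4 <;> omega
      rw [← this] at hr; exact hr
    · have := h.even none; omega
    · have := h.even none; omega
  obtain ⟨g, j, hj, δ, hδ, hs, hg0, hg1⟩ := key v w hv hw hd
  obtain ⟨g', j', hj', δ', hδ', hs', hg0', hg1'⟩ := key v' w' hv' hw' hd'
  obtain ⟨σ, hσ, hσi⟩ := m24_transOn [none, j] [none, j'] (by simp [hj.symm]) (by simp [hj'.symm]) rfl (by simp) (fun _ _ => Finset.mem_univ _)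
    (fun _ _ => Finset.mem_univ _)
  simp only [List.map_cons, List.map_nil, List.cons.injEq, and_true] at hσi
  obtain ⟨h0, hσj⟩ := hσi
  have hx : ∀ i, ((mono σ hσ ∅ cd_empty • (g • w) : leechLattice) : GolayPt → ℤ) (σ i) = ((g • w : leechLattice) : GolayPt → ℤ) i := perm_val hσ _
  have hx0 : ((mono σ hσ ∅ cd_empty • (g • w) : leechLattice) : GolayPt → ℤ) none = -3 := by
    have := hx none; rw [h0] at this; rw [this, hg0]
  have hx1 : ∀ i, i ≠ none → ((mono σ hσ ∅ cd_empty • (g • w) : leechLattice) : GolayPt → ℤ) i = 1 ∨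
      ((mono σ hσ ∅ cd_empty • (g • w) : leechLattice) : GolayPt → ℤ) i = -1 := by
    intro i hi
    obtain ⟨k, rfl⟩ := σ.surjective i
    rw [hx]
    exact hg1 k (by rintro rfl; exact hi h0)
  obtain ⟨c, hc, hmaps⟩ := sign_odd (mono σ hσ ∅ cd_empty • (g • w) : leechLattice).2 (g' • w').2 (fun i => by
    by_cases hi : i = none
    · rw [hi, hx0, hg0']
    · rcases hx1 i hi with h | h <;> rcases hg1' i hi with h' | h' <;> rw [h, h'] <;> norm_num) (fun i => by
    by_cases hi : i = none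
    · rw [hi, hx0]; norm_num
    · rcases hx1 i hi with h | h <;> rw [h] <;> norm_num)
  have hmw : mono 1 M24.one_mem c hc • (mono σ hσ ∅ cd_empty • (g • w)) = g' • w' := Subtype.ext hmaps.eq
  have hval : ∀ i, ((g' • w' : leechLattice) : GolayPt → ℤ) i = if i ∈ c then -((mono σ hσ ∅ cd_empty • (g • w) : leechLattice) : GolayPt → ℤ) i
      else ((mono σ hσ ∅ cd_empty • (g • w) : leechLattice) : GolayPt → ℤ) i := by
    intro i
    rw [← hmw]
    exact eps_smul hc _ i
  have hc0 : none ∉ c := by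
    intro h
    have := hval none
    rw [if_pos h, hx0, hg0'] at this
    norm_num at this
  have h1 := mono_sh hσ cd_empty (δ' := δ) h0 hσj hj' (Finset.notMem_empty _) (by rw [if_neg (Finset.notMem_empty _)]) hs
  have h2 := mono_sh M24.one_mem hc (δ' := if j' ∈ c then -δ else δ) (rfl : (1 : Equiv.Perm GolayPt) none = none) (rfl : (1 : Equiv.Perm GolayPt) j' = j') hj' hc0 rfl h1
  have h3 := h2.dot hj' ((g' • w' : leechLattice) : GolayPt → ℤ)
  have h4 := hs'.dot hj' ((g' • w' : leechLattice) : GolayPt → ℤ)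
  rw [← hmw, dot_smul, dot_smul, dot_smul, dot_comm' w v, hd, hmw] at h3
  rw [dot_smul, dot_comm' w' v', hd'] at h4
  have h5 : (if j' ∈ c then -δ else δ) = δ' := by
    rw [hg0'] at h3 h4
    rcases hg1' j' hj' with h | h <;> rw [h] at h3 h4 <;> omega
  rw [h5] at h2
  have h6 : mono 1 M24.one_mem c hc • mono σ hσ ∅ cd_empty • g • v = g' • v' := h2.unique hs'
  refine ⟨g'⁻¹ * (mono 1 M24.one_mem c hc * (mono σ hσ ∅ cd_empty * g)), ?_, ?_⟩
  · rw [mul_smul, mul_smul, mul_smul, h6, inv_smul_smul]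
  · rw [mul_smul, mul_smul, mul_smul, hmw, inv_smul_smul]

end Cfsg.Agent.H9.Leech
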