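import Cfsg.Agent.H9.Leech.Census
set_option autoImplicit false

/-! The lattice modulo 2, indices, generation. -/

namespace Cfsg.Agent.H9.Leech
open Cfsg Cfsg.Agent.H9
open scoped Pointwise

abbrev VL : Type := ↥(AddSubgroup.toIntSubmodule leechLattice)

def bL (v w : VL) : ℤ := dotInt (v : GolayPt → ℤ) (w : GolayPt → ℤ) / 8

theorem bL_mul (v w : VL) : 8 * bL v w = dotInt (v : GolayPt → ℤ) (w : GolayPt → ℤ) :=
  Int.mul_ediv_cancel' (dot_dvd v.2 w.2)

theorem bL_self (v : VL) : 8 * bL v v = sqNorm (v : GolayPt → ℤ) := by rw [bL_mul, dotInt_self]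

theorem latL : Lat bL where
  add_left x y z := by
    have h1 := bL_mul (x + y) z
    have h2 := bL_mul x z
    have h3 := bL_mul y z
    have h4 : ((x + y : VL) : GolayPt → ℤ) = (x : GolayPt → ℤ) + y := rfl
    rw [h4, dotInt_add_left] at h1
    omega
  symm x y := by unfold bL; rw [dotInt_comm]
  pos x hx := by
    have h1 := bL_self x
    have h2 : (x : GolayPt → ℤ) ≠ 0 := fun h => hx (Subtype.ext h)
    have := norm_ge x.2 h2
    omega
  even x := by
    have h1 := bL_self x
    have h2 := norm_dvd x.2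
    omega
  noroot x h := by
    have h1 := bL_self x
    rw [h] at h1
    by_cases hx : (x : GolayPt → ℤ) = 0
    · rw [hx] at h1; simp [sqNorm] at h1
    · have := norm_ge x.2 hx
      omega

theorem eight_mem (x : GolayPt → ℤ) : (8 : ℤ) • x ∈ leechLattice := by
  have : (8 : ℤ) • x = fun i => 0 + 2 * ind ∅ i + 4 * (2 * x i) := by
    funext i; simp [ind]; ring
  rw [this]
  apply mem_of_param cd_empty
  rw [← Finset.mul_sum]; omega

theorem finrank_VL : Module.finrank ℤ VL = 24 := by
  have h0 : Module.finrank ℤ (GolayPt → ℤ) = 24 := by rw [Module.finrank_fintype_fun_eq_card, card_pt]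
  apply le_antisymm
  · rw [← h0]; exact Submodule.finrank_le _
  · let f : (GolayPt → ℤ) →ₗ[ℤ] VL := LinearMap.codRestrict _ (LinearMap.lsmul ℤ (GolayPt → ℤ) 8) (fun x => eight_mem x)
    have hf : Function.Injective f := by
      intro x y h
      have h1 : (8 : ℤ) • x = (8 : ℤ) • y := congrArg (fun v : VL => (v : GolayPt → ℤ)) h
      funext i
      have := congrFun h1 i
      simp only [Pi.smul_apply, smul_eq_mul] at this
      omega
    rw [← h0]
    exact LinearMap.finrank_le_finrank_of_injective hf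

noncomputable def basL : Module.Basis (Fin 24) ℤ VL := Module.finBasisOfFinrankEq ℤ VL finrank_VL

noncomputable def redL (v : VL) : Fin 24 → ZMod 2 := fun i => ((basL.equivFun v i : ℤ) : ZMod 2)

theorem redL_iff (x y : VL) : redL x = redL y ↔ ∃ z, x - y = z + z := by
  unfold redL
  rw [red_iff]
  constructor
  · rintro ⟨z, hz⟩
    refine ⟨basL.equivFun.symm z, ?_⟩
    apply basL.equivFun.injective
    rw [map_sub, map_add, hz, LinearEquiv.apply_symm_apply]
  · rintro ⟨z, hz⟩
    refine ⟨basL.equivFun z, ?_⟩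
    rw [← map_sub, hz, map_add]

theorem ncard_VL (n : ℤ) : {x : VL | bL x x = n}.ncard = {x : GolayPt → ℤ | x ∈ leechLattice ∧ sqNorm x = 8 * n}.ncard := by
  rw [← Set.ncard_image_of_injective _ (f := fun v : VL => (v : GolayPt → ℤ)) Subtype.coe_injective]
  congr 1
  ext x
  constructor
  · rintro ⟨v, hv, rfl⟩
    exact ⟨v.2, by rw [← bL_self, hv]⟩
  · rintro ⟨h1, h2⟩
    refine ⟨⟨x, h1⟩, ?_, rfl⟩
    have := bL_self ⟨x, h1⟩
    change bL _ _ = n
    simp only at this
    omega

theorem mainL : (∀ x : VL, bL x x = 8 → {y | bL y y = 8 ∧ redL x = redL y}.ncard = 48) ∧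
    (∀ r, ∃ y : VL, bL y y ≤ 8 ∧ redL y = r) := by
  apply latL.main (R := Fin 24 → ZMod 2) (by simp) redL redL_iff
  · exact fun s h0 h1 => latL.rank_bound finrank_VL s h0 h1
  · rw [ncard_VL]; exact count32
  · rw [ncard_VL]; exact count48
  · rw [ncard_VL]; exact count64

theorem cross_card (x : GolayPt → ℤ) (hx : x ∈ leechLattice) (hxn : sqNorm x = 64) : (cross x).ncard = 48 := by
  have h1 : bL ⟨x, hx⟩ ⟨x, hx⟩ = 8 := by
    have := bL_self ⟨x, hx⟩
    simp only [hxn] at this
    omega
  rw [← mainL.1 ⟨x, hx⟩ h1, ← Set.ncard_image_of_injective _ (f := fun v : VL => (v : GolayPt → ℤ)) Subtype.coe_injective]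
  congr 1
  ext y
  constructor
  · rintro ⟨h2, h3, z, hz, h4⟩
    refine ⟨⟨y, h2⟩, ⟨?_, ?_⟩, rfl⟩
    · have := bL_self ⟨y, h2⟩
      simp only [h3, hxn] at this
      omega
    · rw [redL_iff]
      exact ⟨⟨z, hz⟩, Subtype.ext (by rw [two_nsmul] at h4; exact h4)⟩
  · rintro ⟨v, ⟨h2, h3⟩, rfl⟩
    refine ⟨v.2, ?_, ?_⟩
    · rw [hxn, ← bL_self, h2]; norm_num
    · obtain ⟨z, hz⟩ := (redL_iff _ _).1 h3
      refine ⟨z, z.2, ?_⟩
      have := congrArg (fun v : VL => (v : GolayPt → ℤ)) hz
      rw [two_nsmul]; exact this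

theorem short_rep (x : GolayPt → ℤ) (hx : x ∈ leechLattice) :
    ∃ y ∈ leechLattice, sqNorm y ≤ 64 ∧ ∃ z ∈ leechLattice, x - y = 2 • z := by
  obtain ⟨y, h1, h2⟩ := mainL.2 (redL ⟨x, hx⟩)
  obtain ⟨z, hz⟩ := (redL_iff _ _).1 h2.symm
  refine ⟨y, y.2, by rw [← bL_self]; linarith, z, z.2, ?_⟩
  have := congrArg (fun v : VL => (v : GolayPt → ℤ)) hz
  rw [two_nsmul]; exact this

/-! ### index -/

def castHom : (GolayPt → ℤ) →+ (GolayPt → ZMod 8) := AddMonoidHom.mk' (fun x i => (x i : ZMod 8)) (by
  intro a b; funext i; simp)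

theorem castHom_surj : Function.Surjective castHom := by
  intro y
  refine ⟨fun i => ((y i).val : ℤ), ?_⟩
  funext i
  simp [castHom]

theorem index_of_count (A : AddSubgroup (GolayPt → ℤ)) (h8 : ∀ x : GolayPt → ℤ, (8 : ℤ) • x ∈ A)
    (F : Finset (GolayPt → ℤ)) (hF : ∀ x, x ∈ F ↔ (∀ i, 0 ≤ x i ∧ x i < 8) ∧ x ∈ A) : F.card * A.index = 8 ^ 24 := by
  classical
  have hker : castHom.ker ≤ A := by
    intro x hx
    have h1 : ∀ i, ((x i : ℤ) : ZMod 8) = 0 := fun i => congrFun (AddMonoidHom.mem_ker.1 hx) i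
    have h2 : ∀ i, (8 : ℤ) ∣ x i := fun i => (ZMod.intCast_zmod_eq_zero_iff_dvd _ _).1 (h1 i)
    have : x = (8 : ℤ) • fun i => x i / 8 := by
      funext i; have := h2 i; simp only [Pi.smul_apply, smul_eq_mul]; omega
    rw [this]; exact h8 _
  have hA : A = (A.map castHom).comap castHom := by
    rw [AddSubgroup.comap_map_eq, sup_eq_left.2 hker]
  have h1 : A.index = (A.map castHom).index := by
    conv_lhs => rw [hA]
    exact AddSubgroup.index_comap_of_surjective _ castHom_surj
  have h2 := AddSubgroup.card_mul_index (A.map castHom)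
  have h3 : Nat.card (GolayPt → ZMod 8) = 8 ^ 24 := by
    rw [Nat.card_eq_fintype_card]; simp
  have h4 : Nat.card (A.map castHom) = F.card := by
    have : ((A.map castHom : AddSubgroup _) : Set (GolayPt → ZMod 8)) = ((F.image castHom : Finset _) : Set _) := by
      ext y
      rw [Finset.coe_image, SetLike.mem_coe, AddSubgroup.mem_map, Set.mem_image]
      constructor
      · rintro ⟨x, hx, rfl⟩
        refine ⟨fun i => x i % 8, ?_, ?_⟩
        · rw [Finset.mem_coe, hF]
          refine ⟨fun i => ⟨Int.emod_nonneg _ (by norm_num), Int.emod_lt_of_pos _ (by norm_num)⟩, ?_⟩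
          have : (fun i => x i % 8) = x - (8 : ℤ) • fun i => x i / 8 := by
            funext i; simp only [Pi.sub_apply, Pi.smul_apply, smul_eq_mul]; omega
          rw [this]; exact A.sub_mem hx (h8 _)
        · funext i
          change (((x i % 8 : ℤ)) : ZMod 8) = ((x i : ℤ) : ZMod 8)
          exact ((ZMod.intCast_eq_intCast_iff' _ _ _).2 (Int.emod_emod _ _))
      · rintro ⟨x, hx, rfl⟩
        exact ⟨x, ((hF x).1 hx).2, rfl⟩
    rw [← SetLike.coe_sort_coe, Nat.card_coe_set_eq, this, Set.ncard_coe_finset, Finset.card_image_of_injOn]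
    intro x hx y hy h
    have hx' := ((hF x).1 hx).1
    have hy' := ((hF y).1 hy).1
    funext i
    have h5 : ((x i : ℤ) : ZMod 8) = ((y i : ℤ) : ZMod 8) := congrFun h i
    have h6 := (ZMod.intCast_eq_intCast_iff' _ _ _).1 h5
    have := hx' i
    have := hy' i
    push_cast at h6
    omega
  rw [h1, ← h4, h2, h3]

def vecCZ (m : ℤ) (C Z : Finset GolayPt) : GolayPt → ℤ := fun i => m + 2 * ind C i + 4 * ind Z i

theorem ind_range (C : Finset GolayPt) (i : GolayPt) : ind C i = 0 ∨ ind C i = 1 := by
  unfold ind; split_ifs <;> simp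

theorem vecCZ_inj {m m' : ℤ} {C C' Z Z' : Finset GolayPt} (hm : m = 0 ∨ m = 1) (hm' : m' = 0 ∨ m' = 1)
    (h : vecCZ m C Z = vecCZ m' C' Z') : m = m' ∧ C = C' ∧ Z = Z' := by
  have h1 : ∀ i, m + 2 * ind C i + 4 * ind Z i = m' + 2 * ind C' i + 4 * ind Z' i := fun i => congrFun h i
  have h2 : m = m' := by
    have := h1 none
    omega
  subst h2
  refine ⟨rfl, ?_, ?_⟩
  · ext i
    have := h1 i
    have a := ind_range C i
    have b := ind_range C' i
    have c := ind_range Z i
    have d := ind_range Z' i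
    have e : ind C i = ind C' i := by omega
    unfold ind at e
    by_cases h1 : i ∈ C <;> by_cases h2 : i ∈ C' <;> simp [h1, h2] at e ⊢
  · ext i
    have := h1 i
    have a := ind_range C i
    have b := ind_range C' i
    have c := ind_range Z i
    have d := ind_range Z' i
    have e : ind Z i = ind Z' i := by omega
    unfold ind at e
    by_cases h1 : i ∈ Z <;> by_cases h2 : i ∈ Z' <;> simp [h1, h2] at e ⊢

theorem leech_index : leechLattice.index = 2 ^ 36 := by
  classical
  let f : Finset GolayPt × Finset GolayPt → (GolayPt → ℤ) := fun p => vecCZ ((p.2.card : ℤ) % 2) p.1 p.2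
  have hm : ∀ Z : Finset GolayPt, ((Z.card : ℤ) % 2 = 0 ∨ (Z.card : ℤ) % 2 = 1) := fun Z => Int.emod_two_eq _
  have h := index_of_count leechLattice eight_mem ((CdF ×ˢ (Finset.univ : Finset (Finset GolayPt))).image f) (by
    intro x
    rw [Finset.mem_image]
    constructor
    · rintro ⟨⟨C, Z⟩, h1, rfl⟩
      have hC := mem_CdF.1 (Finset.mem_product.1 h1).1
      refine ⟨fun i => ?_, ?_⟩
      · have a := ind_range C i
        have c := ind_range Z i
        have := hm Z
        change 0 ≤ (Z.card : ℤ) % 2 + 2 * ind C i + 4 * ind Z i ∧ (Z.card : ℤ) % 2 + 2 * ind C i + 4 * ind Z i < 8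
        omega
      · apply mem_of_param hC
        rw [sum_ind]; omega
    · rintro ⟨h1, h2⟩
      obtain ⟨hT, h3⟩ := mem_iff.1 h2
      obtain ⟨m, hm', h4, h5⟩ : ∃ m : ℤ, (m = 0 ∨ m = 1) ∧ (∀ i, x i % 2 = m) ∧ (∑ i, x i) % 8 = (4 * m) % 8 := by
        rcases h3 with ⟨h1, h2⟩ | ⟨h1, h2⟩
        · exact ⟨0, Or.inl rfl, h1, by omega⟩
        · exact ⟨1, Or.inr rfl, h1, by omega⟩
      have h6 : x = vecCZ m (TT x) (Finset.univ.filter fun i => 4 ≤ x i) := by
        funext i
        unfold vecCZ ind
        have a := h1 i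
        have b := h4 i
        have c : i ∈ TT x ↔ _ := mem_TT
        have d : i ∈ (Finset.univ.filter fun i => 4 ≤ x i) ↔ 4 ≤ x i := by simp
        by_cases hc : i ∈ TT x <;> by_cases hd : i ∈ (Finset.univ.filter fun i => 4 ≤ x i)
        · rw [if_pos hc, if_pos hd]; have := c.1 hc; have := d.1 hd; omega
        · rw [if_pos hc, if_neg hd]; have := c.1 hc; have : ¬ _ := fun h => hd (d.2 h); omega
        · rw [if_neg hc, if_pos hd]; have : ¬ _ := fun h => hc (c.2 h); have := d.1 hd; omega
        · rw [if_neg hc, if_neg hd]; have : ¬ _ := fun h => hc (c.2 h); have : ¬ _ := fun h => hd (d.2 h); omega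
      refine ⟨⟨TT x, Finset.univ.filter fun i => 4 ≤ x i⟩, Finset.mem_product.2 ⟨mem_CdF.2 hT, Finset.mem_univ _⟩, ?_⟩
      have h7 : (((Finset.univ.filter fun i => 4 ≤ x i).card : ℤ)) % 2 = m := by
        have e1 := sum_param m (TT x) (fun i => ind (Finset.univ.filter fun i => 4 ≤ x i) i)
        have e2 : ∑ i, x i = ∑ i, (m + 2 * ind (TT x) i + 4 * ind (Finset.univ.filter fun i => 4 ≤ x i) i) :=
          Finset.sum_congr rfl fun i _ => congrFun h6 i
        rw [← e2, sum_ind] at e1
        have := cd_dvd hT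
        omega
      change vecCZ _ _ _ = x
      rw [h7]; exact h6.symm)
  rw [Finset.card_image_of_injective, Finset.card_product, CdF_card, Finset.card_univ, Fintype.card_finset, card_pt] at h
  · have : (4096 * 2 ^ 24) * leechLattice.index = (4096 * 2 ^ 24) * 2 ^ 36 := by rw [h]; norm_num
    exact Nat.eq_of_mul_eq_mul_left (by norm_num) this
  · rintro ⟨C, Z⟩ ⟨C', Z'⟩ h
    obtain ⟨_, h1, h2⟩ := vecCZ_inj (hm Z) (hm Z') h
    exact Prod.ext h1 h2

/-! ### generation -/

theorem single_apply' (p : GolayPt) (a : ℤ) (i : GolayPt) : (Pi.single p a : GolayPt → ℤ) i = if i = p then a else 0 := by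
  by_cases h : i = p
  · subst h; simp
  · simp [h]

theorem sum_single' (p : GolayPt) (a : ℤ) : ∑ i, (Pi.single p a : GolayPt → ℤ) i = a := by
  simp only [single_apply']; simp

theorem dot_single (x : GolayPt → ℤ) (p : GolayPt) (a : ℤ) : dotInt x (Pi.single p a) = a * x p := by
  unfold dotInt
  simp only [single_apply', mul_ite, mul_zero, Finset.sum_ite_eq', Finset.mem_univ, if_true]; ring

theorem sqNorm_single (p : GolayPt) (a : ℤ) : sqNorm (Pi.single p a : GolayPt → ℤ) = a ^ 2 := by
  rw [← dotInt_self, dot_single]; simp; ring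

theorem four_mem {z : GolayPt → ℤ} (hz : (∑ i, z i) % 2 = 0) : (fun i => 4 * z i) ∈ leechLattice := by
  have : (fun i => 4 * z i) = fun i => 0 + 2 * ind ∅ i + 4 * z i := by funext i; simp [ind]
  rw [this]; exact mem_of_param cd_empty (by simpa using hz)

theorem two_ind_mem {C : Finset GolayPt} (hC : C ∈ Cd) : (fun i => 2 * ind C i) ∈ leechLattice := by
  have : (fun i => 2 * ind C i) = fun i => 0 + 2 * ind C i + 4 * (0 : GolayPt → ℤ) i := by funext i; simp
  rw [this]; exact mem_of_param hC (by simp)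

/-- induction principle: an additive subgroup containing a few vectors contains the lattice -/
theorem gen_ind (K : AddSubgroup (GolayPt → ℤ))
    (h1 : ∀ p q : GolayPt, p ≠ q → Pi.single p 4 + Pi.single q 4 ∈ K)
    (h2 : ∀ p q : GolayPt, p ≠ q → Pi.single p 4 - Pi.single q 4 ∈ K)
    (h3 : ∀ C ∈ octads, (fun i => 2 * ind C i) ∈ K)
    (h4 : (fun i => 1 - (Pi.single none 4 : GolayPt → ℤ) i) ∈ K) : leechLattice ≤ K := by
  have h8 : ∀ p, (Pi.single p 8 : GolayPt → ℤ) ∈ K := by
    intro p
    obtain ⟨q, hq⟩ : ∃ q : GolayPt, p ≠ q := by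
      by_cases h : p = none
      · exact ⟨some 0, by rw [h]; simp⟩
      · exact ⟨none, h⟩
    have : (Pi.single p 8 : GolayPt → ℤ) = (Pi.single p 4 + Pi.single q 4) + (Pi.single p 4 - Pi.single q 4) := by
      funext i; simp only [Pi.add_apply, Pi.sub_apply, single_apply']; split_ifs <;> norm_num
    rw [this]; exact K.add_mem (h1 p q hq) (h2 p q hq)
  have h4z : ∀ z : GolayPt → ℤ, (∑ i, z i) % 2 = 0 → (fun i => 4 * z i) ∈ K := by
    intro z hz
    have e1 : (fun i => 4 * z i) = ∑ p, (z p) • (Pi.single p 4 - Pi.single none 4 : GolayPt → ℤ) + ((∑ i, z i) / 2) • (Pi.single none 8) := by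
      funext i
      rw [Pi.add_apply, Finset.sum_apply]
      simp only [Pi.smul_apply, Pi.sub_apply, single_apply', smul_eq_mul, mul_sub, Finset.sum_sub_distrib]
      have e2 : ∑ x, z x * (if i = x then 4 else 0) = 4 * z i := by
        simp only [mul_ite, mul_zero, Finset.sum_ite_eq, Finset.mem_univ, if_true]; ring
      rw [e2]
      by_cases hi : i = none
      · simp only [hi, if_true, ← Finset.sum_mul]; omega
      · simp only [hi, if_false, mul_zero, Finset.sum_const_zero]; ring
    rw [e1]
    refine K.add_mem (K.sum_mem fun p _ => ?_) (K.zsmul_mem (h8 _) _)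
    by_cases hp : p = none
    · rw [hp, sub_self, smul_zero]; exact K.zero_mem
    · exact K.zsmul_mem (h2 p none hp) _
  -- the code words
  let D : Submodule (ZMod 2) (GolayPt → ZMod 2) :=
    { carrier := {w | (fun i => 2 * ind (support₂ w) i) ∈ K ∧ Even (support₂ w).card ∧ w ∈ golayCode}
      zero_mem' := by
        refine ⟨?_, ?_, golayCode.zero_mem⟩
        · have : (fun i => 2 * ind (support₂ (0 : GolayPt → ZMod 2)) i) = 0 := by
            funext i; simp [ind, support₂]
          rw [this]; exact K.zero_mem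
        · simp [support₂]
      add_mem' := by
        rintro a b ⟨ha, ha2, ha3⟩ ⟨hb, hb2, hb3⟩
        have hs : support₂ (a + b) = symmDiff (support₂ a) (support₂ b) := by
          obtain ⟨k, hk, rfl⟩ := mem_golay_iff.1 ha3
          obtain ⟨l, hl, rfl⟩ := mem_golay_iff.1 hb3
          rw [← wd_xor, support_wd, support_wd, support_wd, S_xor]
        have hca : support₂ a ∈ Cd := ⟨a, ha3, rfl⟩
        have hcb : support₂ b ∈ Cd := ⟨b, hb3, rfl⟩
        refine ⟨?_, ?_, golayCode.add_mem ha3 hb3⟩
        · have : (fun i => 2 * ind (support₂ (a + b)) i) = (fun i => 2 * ind (support₂ a) i) + (fun i => 2 * ind (support₂ b) i)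
              - (fun i => 4 * ind (support₂ a ∩ support₂ b) i) := by
            funext i
            rw [hs]
            have := ind_add (support₂ a) (support₂ b) i
            simp only [Pi.add_apply, Pi.sub_apply]; linarith
          rw [this]
          refine K.sub_mem (K.add_mem ha hb) (h4z _ ?_)
          rw [sum_ind]
          have := cd_inter hca hcb
          omega
        · have := cd_dvd (cd_symm hca hcb)
          rw [hs]; rw [even_iff_two_dvd]; omega
      smul_mem' := by
        rintro c a ⟨ha, ha2, ha3⟩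
        have : c = 0 ∨ c = 1 := by revert c; decide
        rcases this with rfl | rfl
        · rw [zero_smul]
          refine ⟨?_, ?_, golayCode.zero_mem⟩
          · have : (fun i => 2 * ind (support₂ (0 : GolayPt → ZMod 2)) i) = 0 := by
              funext i; simp [ind, support₂]
            rw [this]; exact K.zero_mem
          · simp [support₂]
        · rw [one_smul]; exact ⟨ha, ha2, ha3⟩ }
  have hD : ∀ k < 4096, wd (enc k) ∈ D := by
    intro k hk
    apply enc_mem_of D _ hk
    intro i hi
    have h8' : allN (fun i => Nat.beq (pc (enc (2 ^ i))) 8) 12 = true := by decide +kernel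
    have h8 : pc (enc (2 ^ i)) = 8 := Nat.eq_of_beq_eq_true ((allN_iff _ _).1 h8' i hi)
    have ho : S (enc (2 ^ i)) ∈ octads := mem_octads_iff.2 ⟨2 ^ i, by
      calc 2 ^ i < 2 ^ 12 := Nat.pow_lt_pow_right (by norm_num) hi
        _ = 4096 := by norm_num, h8, rfl⟩
    refine ⟨?_, ?_, basis_mem hi⟩
    · rw [support_wd]; exact h3 _ ho
    · rw [support_wd, card_S, h8]; decide
  intro x hx
  obtain ⟨m, C, z, hC, h5, rfl⟩ := param hx
  have hCK : (fun i => 2 * ind C i) ∈ K := by
    obtain ⟨k, hk, rfl⟩ := mem_supports_iff.1 hC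
    have := (hD k hk).1
    rwa [support_wd] at this
  have e1 : (fun i => m + 2 * ind C i + 4 * z i) = m • (fun i => 1 - (Pi.single none 4 : GolayPt → ℤ) i) + (fun i => 2 * ind C i) +
      fun i => 4 * (z i + m * (if i = none then 1 else 0)) := by
    funext i
    simp only [Pi.add_apply, Pi.smul_apply, smul_eq_mul, single_apply']
    split_ifs <;> ring
  rw [e1]
  refine K.add_mem (K.add_mem (K.zsmul_mem h4 _) hCK) (h4z _ ?_)
  rw [Finset.sum_add_distrib, ← Finset.mul_sum]
  simp only [Finset.sum_ite_eq', Finset.mem_univ, if_true, mul_one]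
  exact h5

theorem sqNorm_ind (C : Finset GolayPt) : sqNorm (fun i => 2 * ind C i) = 4 * C.card := by
  have := sqNorm_param 0 C (0 : GolayPt → ℤ)
  simp only [Pi.zero_apply, mul_zero, add_zero, zero_add, Finset.sum_const_zero] at this
  rw [this]; ring

theorem gen_min : AddSubgroup.closure {x : GolayPt → ℤ | x ∈ leechLattice ∧ sqNorm x = 32} = leechLattice := by
  apply le_antisymm
  · rw [AddSubgroup.closure_le]; exact fun x hx => hx.1
  · apply gen_ind
    · intro p q hpq
      apply AddSubgroup.subset_closure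
      constructor
      · have : (Pi.single p 4 + Pi.single q 4 : GolayPt → ℤ) = fun i => 4 * ((Pi.single p 1 : GolayPt → ℤ) i + (Pi.single q 1 : GolayPt → ℤ) i) := by
          funext i; simp only [Pi.add_apply, single_apply']; split_ifs <;> norm_num
        rw [this]; apply four_mem
        rw [Finset.sum_add_distrib, sum_single', sum_single']; norm_num
      · rw [sqNorm_add, sqNorm_single, sqNorm_single, dot_single, single_apply', if_neg (Ne.symm hpq)]; norm_num
    · intro p q hpq
      apply AddSubgroup.subset_closure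
      constructor
      · have : (Pi.single p 4 - Pi.single q 4 : GolayPt → ℤ) = fun i => 4 * ((Pi.single p 1 : GolayPt → ℤ) i - (Pi.single q 1 : GolayPt → ℤ) i) := by
          funext i; simp only [Pi.sub_apply, single_apply']; split_ifs <;> norm_num
        rw [this]; apply four_mem
        rw [Finset.sum_sub_distrib, sum_single', sum_single']; norm_num
      · rw [sqNorm_sub, sqNorm_single, sqNorm_single, dot_single, single_apply', if_neg (Ne.symm hpq)]; norm_num
    · intro C hC
      apply AddSubgroup.subset_closure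
      exact ⟨two_ind_mem hC.1, by rw [sqNorm_ind, octad_card hC]; norm_num⟩
    · apply AddSubgroup.subset_closure
      constructor
      · have : (fun i => 1 - (Pi.single none 4 : GolayPt → ℤ) i) = fun i => 1 + 2 * ind ∅ i + 4 * (-(Pi.single none 1 : GolayPt → ℤ) i) := by
          funext i; simp only [single_apply', ind]; split_ifs <;> simp_all
        rw [this]; apply mem_of_param cd_empty
        rw [Finset.sum_neg_distrib, sum_single']; norm_num
      · have e : (fun i => 1 - (Pi.single none 4 : GolayPt → ℤ) i) = (fun _ => 1) - Pi.single none 4 := rfl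
        rw [e, sqNorm_sub, sqNorm_single, dot_single]
        have : sqNorm (fun _ : GolayPt => (1 : ℤ)) = 24 := by unfold sqNorm; simp
        rw [this]; norm_num

end Cfsg.Agent.H9.Leech
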