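import Cfsg.Agent.H9.Leech.Four
set_option autoImplicit false

/-! The stabiliser of the standard cross, the order and the centre of the automorphism group. -/

namespace Cfsg.Agent.H9.Leech
open Cfsg Cfsg.Agent.H9
open scoped Pointwise

def v0 : GolayPt → ℤ := fun i => 1 - (Pi.single none 4 : GolayPt → ℤ) i

theorem v0_val (i : GolayPt) : v0 i = if i = none then -3 else 1 := by
  unfold v0; rw [single_apply']; split_ifs <;> norm_num

theorem v0_mem : v0 ∈ leechLattice := by
  have : v0 = fun i => 1 + 2 * ind ∅ i + 4 * (-(Pi.single none 1 : GolayPt → ℤ) i) := by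
    funext i; simp only [v0, single_apply', ind]; split_ifs <;> simp_all
  rw [this]; apply mem_of_param cd_empty
  rw [Finset.sum_neg_distrib, sum_single']; norm_num

theorem single8_mem (p : GolayPt) : (Pi.single p 8 : GolayPt → ℤ) ∈ leechLattice := by
  have : (Pi.single p 8 : GolayPt → ℤ) = (8 : ℤ) • Pi.single p 1 := by
    funext i; simp only [Pi.smul_apply, single_apply', smul_eq_mul]; split_ifs <;> norm_num
  rw [this]; exact eight_mem _

def e8 (p : GolayPt) : leechLattice := ⟨Pi.single p 8, single8_mem p⟩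

theorem single_eq {p q : GolayPt} {a b : ℤ} (ha : a ≠ 0) (h : (Pi.single p a : GolayPt → ℤ) = Pi.single q b) : p = q ∧ a = b := by
  have h1 := congrFun h p
  rw [single_apply', single_apply', if_pos rfl] at h1
  by_cases h2 : p = q
  · rw [if_pos h2] at h1; exact ⟨h2, h1⟩
  · rw [if_neg h2] at h1; exact absurd h1 ha

theorem dot_smul (g : Co0) (v w : leechLattice) : dotInt ((g • v : leechLattice) : GolayPt → ℤ) ((g • w : leechLattice) : GolayPt → ℤ) =
    dotInt (v : GolayPt → ℤ) w := (maps_smul g v).dot (maps_smul g w)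

/-- an element acting monomially on the frame -/
theorem monomial_of (g : Co0) (σ : GolayPt → GolayPt) (s : GolayPt → ℤ) (hs : ∀ i, s i = 1 ∨ s i = -1)
    (h : ∀ i, ((g • e8 i : leechLattice) : GolayPt → ℤ) = Pi.single (σ i) (8 * s i)) :
    ∃ τ ∈ M24, (∀ i, τ i = σ i) ∧ ∃ c, ∃ hc : c ∈ Cd, ∀ v : leechLattice, ((g • v : leechLattice) : GolayPt → ℤ) = signedPerm τ c v := by
  classical
  have hinj : Function.Injective σ := by
    intro i j hij
    by_contra hne
    have h1 := dot_smul g (e8 i) (e8 j)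
    rw [h, h, hij] at h1
    have h2 : dotInt (e8 i : GolayPt → ℤ) (e8 j : GolayPt → ℤ) = 0 := by
      change dotInt (Pi.single i 8) (Pi.single j 8) = 0
      rw [dot_single, single_apply', if_neg (Ne.symm hne)]; norm_num
    rw [h2, dot_single, single_apply', if_pos rfl] at h1
    rcases hs i with h3 | h3 <;> rcases hs j with h4 | h4 <;> rw [h3, h4] at h1 <;> norm_num at h1
  obtain ⟨τ, hτ⟩ : ∃ τ : Equiv.Perm GolayPt, ∀ i, τ i = σ i :=
    ⟨Equiv.ofBijective σ (Finite.injective_iff_bijective.1 hinj), fun _ => rfl⟩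
  have hval : ∀ (v : leechLattice) i, ((g • v : leechLattice) : GolayPt → ℤ) (τ i) = s i * (v : GolayPt → ℤ) i := by
    intro v i
    have h1 := dot_smul g v (e8 i)
    rw [h] at h1
    change _ = dotInt (v : GolayPt → ℤ) (Pi.single i 8) at h1
    rw [dot_single, dot_single, ← hτ] at h1
    rcases hs i with h3 | h3 <;> rw [h3] at h1 ⊢ <;> omega
  obtain ⟨c, hcd⟩ : ∃ c : Finset GolayPt, c = Finset.univ.filter fun j => s (τ.symm j) = -1 := ⟨_, rfl⟩
  have hcm : ∀ i, τ i ∈ c ↔ s i = -1 := by intro i; rw [hcd]; simp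
  have hform : ∀ v : leechLattice, ((g • v : leechLattice) : GolayPt → ℤ) = signedPerm τ c v := by
    intro v
    funext j
    obtain ⟨i, rfl⟩ := τ.surjective j
    rw [hval]
    unfold signedPerm
    rw [Equiv.symm_apply_apply]
    rcases hs i with h3 | h3
    · rw [if_neg (by rw [hcm]; omega), h3]; ring
    · rw [if_pos (by rw [hcm]; exact h3), h3]; ring
  have hc : c ∈ Cd := by
    have h1 := (mem_iff.1 (g • (⟨v0, v0_mem⟩ : leechLattice)).2).1
    have : TT (((g • (⟨v0, v0_mem⟩ : leechLattice)) : leechLattice) : GolayPt → ℤ) = c := by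
      ext j
      obtain ⟨i, rfl⟩ := τ.surjective j
      rw [mem_TT, hval, hcm]
      change s i * v0 i % 4 = 2 ∨ s i * v0 i % 4 = 3 ↔ _
      rw [v0_val]
      rcases hs i with h3 | h3 <;> rw [h3] <;> split_ifs <;> norm_num
    rw [this] at h1; exact h1
  refine ⟨τ, ?_, hτ, c, hc, hform⟩
  have key : ∀ C ∈ Cd, τ • C ∈ Cd := by
    intro C hC
    have h1 := (mem_iff.1 (g • (⟨fun i => 2 * ind C i, two_ind_mem hC⟩ : leechLattice)).2).1
    have : TT (((g • (⟨fun i => 2 * ind C i, two_ind_mem hC⟩ : leechLattice)) : leechLattice) : GolayPt → ℤ) = τ • C := by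
      ext j
      obtain ⟨i, rfl⟩ := τ.surjective j
      rw [mem_TT, hval, mem_smul_fin, Equiv.symm_apply_apply]
      change s i * (2 * ind C i) % 4 = 2 ∨ s i * (2 * ind C i) % 4 = 3 ↔ _
      unfold ind
      rcases hs i with h3 | h3 <;> rw [h3] <;> split_ifs with h4 <;> simp [h4]
    rw [this] at h1; exact h1
  rw [mem_M24_iff]
  intro w hw
  have h1 : support₂ w ∈ Cd := ⟨w, hw, rfl⟩
  obtain ⟨w', hw', h2⟩ := key _ h1
  have : (fun p => w (τ.symm p)) = w' := by
    apply support_inj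
    rw [h2]
    ext p; rw [mem_smul_fin]; simp [support₂]
  rw [this]; exact hw'

theorem std_iff {v : leechLattice} : (v : GolayPt → ℤ) ∈ stdCross ↔ ∃ i, ∃ s : ℤ, (s = 1 ∨ s = -1) ∧ (v : GolayPt → ℤ) = Pi.single i (8 * s) := by
  constructor
  · rintro ⟨i, s, hs | hs, h⟩
    · exact ⟨i, 1, Or.inl rfl, by rw [h, hs]; rfl⟩
    · exact ⟨i, -1, Or.inr rfl, by rw [h, hs]; rfl⟩
  · rintro ⟨i, s, hs, h⟩
    refine ⟨i, 8 * s, ?_, h⟩
    rcases hs with rfl | rfl
    · left; norm_num
    · right; norm_num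

theorem e8_std (i : GolayPt) : ((e8 i : leechLattice) : GolayPt → ℤ) ∈ stdCross := ⟨i, 8, Or.inl rfl, rfl⟩

theorem stab_std (g : Co0) (h : ∀ v : leechLattice, (v : GolayPt → ℤ) ∈ stdCross → ((g • v : leechLattice) : GolayPt → ℤ) ∈ stdCross) :
    ∃ τ ∈ M24, ∃ c ∈ Cd, ∀ v : leechLattice, ((g • v : leechLattice) : GolayPt → ℤ) = signedPerm τ c v := by
  have h1 : ∀ i, ∃ p : GolayPt × ℤ, (p.2 = 1 ∨ p.2 = -1) ∧ ((g • e8 i : leechLattice) : GolayPt → ℤ) = Pi.single p.1 (8 * p.2) := by
    intro i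
    obtain ⟨j, s, hs, h2⟩ := std_iff.1 (h (e8 i) (e8_std i))
    exact ⟨(j, s), hs, h2⟩
  choose p hp1 hp2 using h1
  obtain ⟨τ, hτ, _, c, hc, h2⟩ := monomial_of g (fun i => (p i).1) (fun i => (p i).2) hp1 hp2
  exact ⟨τ, hτ, c, hc, h2⟩

theorem signedPerm_single (τ : Equiv.Perm GolayPt) (c : Finset GolayPt) (i : GolayPt) (a : ℤ) :
    signedPerm τ c (Pi.single i a) = Pi.single (τ i) (if τ i ∈ c then -a else a) := by
  funext j
  unfold signedPerm
  rw [single_apply', single_apply']
  by_cases h : j = τ i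
  · subst h; simp
  · have : ¬ τ.symm j = i := fun h' => h (by rw [← h']; simp)
    rw [if_neg this, if_neg h]; simp

theorem mono_smul {τ : Equiv.Perm GolayPt} (hτ : τ ∈ M24) {c : Finset GolayPt} (hc : c ∈ Cd) (v : leechLattice) :
    ((mono τ hτ c hc • v : leechLattice) : GolayPt → ℤ) = signedPerm τ c v := (mono_maps hτ hc v.2).eq

theorem mono_std {τ : Equiv.Perm GolayPt} (hτ : τ ∈ M24) {c : Finset GolayPt} (hc : c ∈ Cd) (v : leechLattice)
    (h : (v : GolayPt → ℤ) ∈ stdCross) : ((mono τ hτ c hc • v : leechLattice) : GolayPt → ℤ) ∈ stdCross := by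
  rw [mono_smul]
  obtain ⟨i, s, hs, h1⟩ := h
  rw [h1, signedPerm_single]
  refine ⟨τ i, _, ?_, rfl⟩
  split_ifs
  · rcases hs with rfl | rfl
    · right; rfl
    · left; rfl
  · exact hs

theorem co0_ext {g h : Co0} (H : ∀ v : leechLattice, ((g • v : leechLattice) : GolayPt → ℤ) = ((h • v : leechLattice) : GolayPt → ℤ)) : g = h := by
  apply Subtype.ext
  apply Equiv.ext
  intro v
  exact Subtype.ext (H v)

abbrev StdStab : Type := {g : Co0 // (∀ v : leechLattice, (v : GolayPt → ℤ) ∈ stdCross → ((g • v : leechLattice) : GolayPt → ℤ) ∈ stdCross)}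

noncomputable def stdEquiv : (M24 × CdF) ≃ StdStab := by
  refine Equiv.ofBijective (fun p => ⟨mono p.1 p.1.2 p.2 (mem_CdF.1 p.2.2), fun v h => mono_std _ _ v h⟩) ⟨?_, ?_⟩
  · rintro ⟨⟨τ, hτ⟩, ⟨c, hc⟩⟩ ⟨⟨τ', hτ'⟩, ⟨c', hc'⟩⟩ h
    have h1 : mono τ hτ c (mem_CdF.1 hc) = mono τ' hτ' c' (mem_CdF.1 hc') := congrArg Subtype.val h
    have h2 : ∀ i, τ i = τ' i ∧ (if τ i ∈ c then (-8 : ℤ) else 8) = if τ' i ∈ c' then -8 else 8 := by
      intro i
      have h3 := congrArg (fun g : Co0 => ((g • e8 i : leechLattice) : GolayPt → ℤ)) h1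
      simp only [mono_smul] at h3
      change signedPerm τ c (Pi.single i 8) = signedPerm τ' c' (Pi.single i 8) at h3
      rw [signedPerm_single, signedPerm_single] at h3
      exact single_eq (by split_ifs <;> norm_num) h3
    have h3 : τ = τ' := Equiv.ext fun i => (h2 i).1
    subst h3
    have h4 : c = c' := by
      ext j
      obtain ⟨i, rfl⟩ := τ.surjective j
      have := (h2 i).2
      by_cases h5 : τ i ∈ c <;> by_cases h6 : τ i ∈ c' <;> simp [h5, h6] at this ⊢
    subst h4
    rfl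
  · rintro ⟨g, hg⟩
    obtain ⟨τ, hτ, c, hc, h⟩ := stab_std g hg
    refine ⟨(⟨τ, hτ⟩, ⟨c, mem_CdF.2 hc⟩), Subtype.ext (co0_ext fun v => ?_)⟩
    rw [mono_smul, h]

theorem stdStab_card : Nat.card StdStab = 4096 * 244823040 := by
  rw [← Nat.card_congr stdEquiv, Nat.card_prod, card_M24, Nat.card_eq_fintype_card, Fintype.card_coe, CdF_card]

/-! ### crosses as sets of lattice elements -/

def crs (v : leechLattice) : Set leechLattice := {w | sqNorm (w : GolayPt → ℤ) = sqNorm (v : GolayPt → ℤ) ∧ ∃ z : leechLattice, v - w = z + z}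

theorem crs_ncard {v : leechLattice} (hv : sqNorm (v : GolayPt → ℤ) = 64) : (crs v).ncard = 48 := by
  rw [← cross_card v v.2 hv, ← Set.ncard_image_of_injective (crs v) (f := fun v : leechLattice => (v : GolayPt → ℤ)) Subtype.coe_injective]
  congr 1
  ext y
  constructor
  · rintro ⟨w, ⟨h1, z, hz⟩, rfl⟩
    refine ⟨w.2, h1, z, z.2, ?_⟩
    have := congrArg (fun v : leechLattice => (v : GolayPt → ℤ)) hz
    rw [two_nsmul]; exact this
  · rintro ⟨h1, h2, z, hz, h3⟩
    refine ⟨⟨y, h1⟩, ⟨h2, ⟨z, hz⟩, Subtype.ext ?_⟩, rfl⟩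
    rw [two_nsmul] at h3; exact h3

theorem crs_self (v : leechLattice) : v ∈ crs v := ⟨rfl, 0, by simp⟩

theorem crs_eq {v w : leechLattice} (h : w ∈ crs v) : crs w = crs v := by
  obtain ⟨h1, z, hz⟩ := h
  ext u
  constructor
  · rintro ⟨h2, y, hy⟩
    refine ⟨h2.trans h1, z + y, ?_⟩
    have : v - u = (v - w) + (w - u) := by abel
    rw [this, hz, hy]; abel
  · rintro ⟨h2, y, hy⟩
    refine ⟨h2.trans h1.symm, y - z, ?_⟩
    have : w - u = (v - u) - (v - w) := by abel
    rw [this, hz, hy]; abel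

theorem smul_sub' (g : Co0) (v w : leechLattice) : g • (v - w) = g • v - g • w := by
  rw [sub_eq_add_neg, smul_add', smul_neg', ← sub_eq_add_neg]

theorem smul_crs (g : Co0) (v : leechLattice) : g • crs v = crs (g • v) := by
  ext u
  rw [Set.mem_smul_set]
  constructor
  · rintro ⟨w, ⟨h1, z, hz⟩, rfl⟩
    refine ⟨by rw [sqNorm_smul, sqNorm_smul, h1], g • z, ?_⟩
    rw [← smul_sub', hz, smul_add']
  · rintro ⟨h1, z, hz⟩
    refine ⟨g⁻¹ • u, ⟨?_, g⁻¹ • z, ?_⟩, smul_inv_smul g u⟩
    · rw [sqNorm_smul, h1, sqNorm_smul]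
    · rw [← smul_add', ← hz, smul_sub', inv_smul_smul]

theorem e8_norm (i : GolayPt) : sqNorm ((e8 i : leechLattice) : GolayPt → ℤ) = 64 := by
  change sqNorm (Pi.single i 8) = 64
  rw [sqNorm_single]; norm_num

theorem std_eq_crs (i : GolayPt) : {v : leechLattice | (v : GolayPt → ℤ) ∈ stdCross} = crs (e8 i) := by
  classical
  have hsub : {v : leechLattice | (v : GolayPt → ℤ) ∈ stdCross} ⊆ crs (e8 i) := by
    rintro v ⟨j, s, hs, h⟩
    refine ⟨?_, ?_⟩
    · rw [e8_norm, h, sqNorm_single]; rcases hs with rfl | rfl <;> norm_num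
    · obtain ⟨t, ht1, ht2⟩ : ∃ t : ℤ, s = 8 * t ∧ (1 - t) % 2 = 0 := by
        rcases hs with rfl | rfl
        · exact ⟨1, by norm_num, by norm_num⟩
        · exact ⟨-1, by norm_num, by norm_num⟩
      refine ⟨⟨fun k => 4 * ((Pi.single i 1 : GolayPt → ℤ) k - (Pi.single j t : GolayPt → ℤ) k), four_mem (by
        rw [Finset.sum_sub_distrib, sum_single', sum_single']; exact ht2)⟩, Subtype.ext ?_⟩
      funext k
      change (Pi.single i 8 : GolayPt → ℤ) k - (v : GolayPt → ℤ) k = _
      rw [h, ht1]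
      change _ = 4 * ((Pi.single i 1 : GolayPt → ℤ) k - (Pi.single j t : GolayPt → ℤ) k) + 4 * ((Pi.single i 1 : GolayPt → ℤ) k - (Pi.single j t : GolayPt → ℤ) k)
      simp only [single_apply']
      split_ifs <;> ring
  have hfin : (crs (e8 i)).Finite := Set.finite_of_ncard_ne_zero (by rw [crs_ncard (e8_norm i)]; norm_num)
  refine Set.eq_of_subset_of_ncard_le hsub ?_ hfin
  · rw [crs_ncard (e8_norm i)]
    have hcard : ((Finset.univ : Finset (GolayPt × Bool)).card) = 48 := by
      rw [Finset.card_univ, Fintype.card_prod, card_pt]; rfl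
    rw [← hcard, ← Set.ncard_coe_finset]
    refine Set.ncard_le_ncard_of_injOn (fun p => if p.2 then e8 p.1 else - e8 p.1) ?_ ?_ ?_
    · rintro ⟨j, b⟩ _
      cases b
      · refine ⟨j, -8, Or.inr rfl, ?_⟩
        change -(Pi.single j 8 : GolayPt → ℤ) = _
        rw [← Pi.single_neg]
      · exact e8_std j
    · rintro ⟨j, b⟩ _ ⟨k, b'⟩ _ h
      have e : ∀ (j : GolayPt) (b : Bool), ((if b then e8 j else - e8 j : leechLattice) : GolayPt → ℤ) = Pi.single j (if b then 8 else -8) := by
        intro j b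
        cases b
        · change -(Pi.single j 8 : GolayPt → ℤ) = _
          rw [← Pi.single_neg]; rfl
        · rfl
      have h1 := congrArg (fun v : leechLattice => (v : GolayPt → ℤ)) h
      simp only [e] at h1
      obtain ⟨h2, h3⟩ := single_eq (by cases b <;> norm_num) h1
      rw [h2]
      cases b <;> cases b' <;> simp at h3 ⊢
    · exact hfin.subset hsub

theorem exists_crs {v w : leechLattice} (hv : sqNorm (v : GolayPt → ℤ) = 64) (hw : sqNorm (w : GolayPt → ℤ) = 64) :
    ∃ g : Co0, g • crs v = crs w := by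
  obtain ⟨_, g, y', hg, z, hz, h⟩ := trans64' v.2 hv w.2 hw
  refine ⟨g, ?_⟩
  rw [smul_crs]
  symm
  apply crs_eq
  refine ⟨?_, ⟨z, hz⟩, Subtype.ext ?_⟩
  · rw [sqNorm_smul, hv, hw]
  · change ((g • v : leechLattice) : GolayPt → ℤ) - w = z + z
    rw [hg.eq, h]

theorem orbit_crs : MulAction.orbit Co0 (crs (e8 none)) = crs '' {v | sqNorm (v : GolayPt → ℤ) = 64} := by
  ext X
  constructor
  · rintro ⟨g, rfl⟩
    refine ⟨g • e8 none, ?_, (smul_crs g _).symm⟩
    change sqNorm _ = 64
    rw [sqNorm_smul, e8_norm]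
  · rintro ⟨v, hv, rfl⟩
    exact exists_crs (e8_norm none) hv

theorem ncard_64 : {v : leechLattice | sqNorm (v : GolayPt → ℤ) = 64}.ncard = 398034000 := by
  rw [← count64, ← Set.ncard_image_of_injective _ (f := fun v : leechLattice => (v : GolayPt → ℤ)) Subtype.coe_injective]
  congr 1
  ext x
  constructor
  · rintro ⟨v, hv, rfl⟩; exact ⟨v.2, hv⟩
  · rintro ⟨h1, h2⟩; exact ⟨⟨x, h1⟩, h2, rfl⟩

theorem orbit_ncard : (MulAction.orbit Co0 (crs (e8 none))).ncard = 8292375 := by
  classical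
  rw [orbit_crs]
  have f8 : {v : leechLattice | sqNorm (v : GolayPt → ℤ) = 64}.Finite := Set.finite_of_ncard_ne_zero (by rw [ncard_64]; norm_num)
  have c8 : f8.toFinset.card = 398034000 := by rw [← ncard_64, Set.ncard_eq_toFinset_card _ f8]
  have h1 : crs '' {v : leechLattice | sqNorm (v : GolayPt → ℤ) = 64} = ((f8.toFinset.image crs : Finset _) : Set _) := by
    rw [Finset.coe_image, Set.Finite.coe_toFinset]
  rw [h1, Set.ncard_coe_finset]
  have h2 := Finset.card_eq_sum_card_image crs f8.toFinset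
  have h3 : ∀ X ∈ f8.toFinset.image crs, (f8.toFinset.filter fun v => crs v = X).card = 48 := by
    intro X hX
    obtain ⟨v, hv, rfl⟩ := Finset.mem_image.1 hX
    have hv' : sqNorm (v : GolayPt → ℤ) = 64 := by simpa using hv
    rw [← crs_ncard hv', ← Set.ncard_coe_finset]
    congr 1
    ext w
    simp only [Finset.coe_filter, Set.Finite.mem_toFinset, Set.mem_ofPred_eq]
    constructor
    · rintro ⟨h4, h5⟩; rw [← h5]; exact crs_self w
    · intro h4; exact ⟨by rw [h4.1, hv'], crs_eq h4⟩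
  rw [Finset.sum_congr rfl h3, Finset.sum_const, c8, smul_eq_mul] at h2
  omega

theorem mem_stab_iff (g : Co0) : g ∈ MulAction.stabilizer Co0 (crs (e8 none)) ↔
    ∀ v : leechLattice, (v : GolayPt → ℤ) ∈ stdCross → ((g • v : leechLattice) : GolayPt → ℤ) ∈ stdCross := by
  rw [MulAction.mem_stabilizer_iff, ← std_eq_crs none]
  constructor
  · intro h v hv
    have : g • v ∈ g • {v : leechLattice | (v : GolayPt → ℤ) ∈ stdCross} := Set.smul_mem_smul_set hv
    rw [h] at this; exact this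
  · intro h
    refine Set.eq_of_subset_of_ncard_le ?_ ?_ ?_
    · rintro _ ⟨v, hv, rfl⟩; exact h v hv
    · rw [std_eq_crs none, smul_crs, crs_ncard (e8_norm _), crs_ncard (by rw [sqNorm_smul, e8_norm])]
    · rw [std_eq_crs none]; exact Set.finite_of_ncard_ne_zero (by rw [crs_ncard (e8_norm _)]; norm_num)

theorem stab_card : Nat.card (MulAction.stabilizer Co0 (crs (e8 none))) = 4096 * 244823040 := by
  rw [← stdStab_card]
  exact Nat.card_congr (Equiv.subtypeEquivRight mem_stab_iff)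

theorem co0_card : Nat.card Co0 = 8315553613086720000 := by
  rw [← Subgroup.card_mul_index (MulAction.stabilizer Co0 (crs (e8 none))), MulAction.index_stabilizer, orbit_ncard, stab_card]

/-! ### the centre -/

noncomputable def neg1 : Co0 := mono 1 M24.one_mem Finset.univ cd_univ

theorem neg1_smul (v : leechLattice) : ((neg1 • v : leechLattice) : GolayPt → ℤ) = -(v : GolayPt → ℤ) := by
  rw [neg1, mono_smul]
  funext i; unfold signedPerm; rw [if_pos (Finset.mem_univ _)]; rfl

theorem neg1_central (g : Co0) : g * neg1 = neg1 * g := by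
  apply co0_ext
  intro v
  rw [mul_smul, mul_smul, neg1_smul]
  have : neg1 • v = -v := Subtype.ext (neg1_smul v)
  rw [this, smul_neg']; rfl

theorem neg1_ne : neg1 ≠ 1 := by
  intro h
  have := neg1_smul (e8 none)
  rw [h, one_smul] at this
  have := congrFun this none
  change (Pi.single none 8 : GolayPt → ℤ) none = -(Pi.single none 8 : GolayPt → ℤ) none at this
  simp at this

theorem pm_of {g : Co0} {s : ℤ} (hs : s = 1 ∨ s = -1) (h : ∀ i, ((g • e8 i : leechLattice) : GolayPt → ℤ) = Pi.single i (8 * s)) :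
    g = 1 ∨ g = neg1 := by
  have hval : ∀ (v : leechLattice) i, ((g • v : leechLattice) : GolayPt → ℤ) i = s * (v : GolayPt → ℤ) i := by
    intro v i
    have h1 := dot_smul g v (e8 i)
    rw [h] at h1
    change _ = dotInt (v : GolayPt → ℤ) (Pi.single i 8) at h1
    rw [dot_single, dot_single] at h1
    rcases hs with h3 | h3 <;> rw [h3] at h1 ⊢ <;> omega
  rcases hs with h3 | h3
  · left; apply co0_ext; intro v; funext i; rw [hval, h3, one_smul, one_mul]
  · right; apply co0_ext; intro v; funext i; rw [hval, h3, neg1_smul]; simp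

theorem exists_sep {p i : GolayPt} (h : i ≠ p) : ∃ C ∈ Cd, i ∈ C ∧ p ∉ C := by
  obtain ⟨C, hC, h1⟩ := restrict (Z := {i, p}) (A := {i}) (by simp) (by
    intro D hD hsub
    rcases Finset.eq_empty_or_nonempty D with h0 | h0
    · rw [h0]; simp
    · have h1 := Finset.card_le_card hsub
      have h2 := Finset.card_le_two (a := i) (b := p)
      have h3 := Finset.card_pos.2 h0
      rcases cd_card hD with h | h | h | h | h <;> omega)
  exact ⟨C, hC, (h1 i (by simp)).2 (by simp), fun h' => h ((Finset.mem_singleton.1 ((h1 p (by simp)).1 h')).symm)⟩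

/-- an element fixing every frame line -/
theorem frame_sign {g : Co0} {i : GolayPt} (hg : ∀ c, ∀ hc : c ∈ Cd, g * mono 1 M24.one_mem c hc = mono 1 M24.one_mem c hc * g) :
    ∃ s : ℤ, (s = 1 ∨ s = -1) ∧ ((g • e8 i : leechLattice) : GolayPt → ℤ) = Pi.single i (8 * s) := by
  have h0 : ∀ j, j ≠ i → ((g • e8 i : leechLattice) : GolayPt → ℤ) j = 0 := by
    intro j hj
    obtain ⟨C, hC, h1, h2⟩ := exists_sep hj
    have h3 := congrArg (fun k : Co0 => ((k • e8 i : leechLattice) : GolayPt → ℤ) j) (hg C hC)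
    simp only [mul_smul] at h3
    have h4 : mono 1 M24.one_mem C hC • e8 i = e8 i := by
      apply Subtype.ext
      rw [mono_smul]
      change signedPerm 1 C (Pi.single i 8) = Pi.single i 8
      rw [signedPerm_single, Equiv.Perm.one_apply, if_neg h2]
    rw [h4, mono_smul] at h3
    have e : (1 : Equiv.Perm GolayPt).symm j = j := rfl
    simp only [signedPerm, e, if_pos h1] at h3
    omega
  have h1 : ((g • e8 i : leechLattice) : GolayPt → ℤ) = Pi.single i (((g • e8 i : leechLattice) : GolayPt → ℤ) i) := by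
    funext j
    rw [single_apply']
    split_ifs with h
    · rw [h]
    · exact h0 j h
  have h2 := sqNorm_smul g (e8 i)
  rw [e8_norm, h1, sqNorm_single] at h2
  obtain ⟨a, ha⟩ : ∃ a, a = ((g • e8 i : leechLattice) : GolayPt → ℤ) i := ⟨_, rfl⟩
  rw [← ha] at h1 h2
  have h3 : (a - 8) * (a + 8) = 0 := by linarith [h2, (by ring : (a - 8) * (a + 8) = a ^ 2 - 64)]
  rcases mul_eq_zero.1 h3 with h4 | h4
  · exact ⟨1, Or.inl rfl, by rw [h1]; congr 1; linarith⟩
  · exact ⟨-1, Or.inr rfl, by rw [h1]; congr 1; linarith⟩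

theorem central_pm {g : Co0} (hg : g ∈ Subgroup.center Co0) : g = 1 ∨ g = neg1 := by
  rw [Subgroup.mem_center_iff] at hg
  have h1 : ∀ i, ∃ s : ℤ, (s = 1 ∨ s = -1) ∧ ((g • e8 i : leechLattice) : GolayPt → ℤ) = Pi.single i (8 * s) :=
    fun i => frame_sign fun c hc => (hg _).symm
  obtain ⟨s, hs, h2⟩ := h1 none
  apply pm_of hs
  intro i
  obtain ⟨σ, hσ, h3⟩ := m24_transOn [none] [i] (by simp) (by simp) rfl (by simp) (fun _ _ => Finset.mem_univ _) (fun _ _ => Finset.mem_univ _)
  have h4 : σ none = i := by simpa using h3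
  have h5 : mono σ hσ ∅ cd_empty • e8 none = e8 i := by
    apply Subtype.ext
    rw [mono_smul]
    change signedPerm σ ∅ (Pi.single none 8) = Pi.single i 8
    rw [signedPerm_single, h4, if_neg (Finset.notMem_empty _)]
  rw [← h5, ← mul_smul, ← hg, mul_smul, mono_smul, h2, signedPerm_single, h4, if_neg (Finset.notMem_empty _)]

theorem center_eq (g : Co0) : g ∈ Subgroup.center Co0 ↔ g = 1 ∨ g = neg1 := by
  constructor
  · exact central_pm
  · rintro (rfl | rfl)
    · exact Subgroup.one_mem _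
    · rw [Subgroup.mem_center_iff]; exact neg1_central

theorem center_card : Nat.card (Subgroup.center Co0) = 2 := by
  have h : ((Subgroup.center Co0 : Subgroup Co0) : Set Co0) = {1, neg1} := by
    ext g; exact center_eq g
  rw [← SetLike.coe_sort_coe, Nat.card_coe_set_eq, h, Set.ncard_pair (Ne.symm neg1_ne)]

end Cfsg.Agent.H9.Leech
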