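import Cfsg.Agent.H9.Leech.Mon1
set_option autoImplicit false

/-! The singular subgroup V4. -/

namespace Cfsg.Agent.H9.Leech
open Cfsg Cfsg.Agent.H9
open scoped Pointwise

/-- parameters of a vector of V4 -/
theorem V4_param {v : leechLattice} (hv : v ∈ V4) : ∃ c : ℤ, ∃ k : GolayPt → ℤ, (∀ i, (v : GolayPt → ℤ) i = 2 * (c + 2 * k i)) ∧
    (∑ i, k i) % 2 = 0 := by
  obtain ⟨c, hc⟩ := hv
  have h1 : ∀ i, ∃ k, (v : GolayPt → ℤ) i = 2 * (c + 2 * k) := fun i => ⟨((v : GolayPt → ℤ) i - 2 * c) / 4, by have := hc i; omega⟩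
  choose k hk using h1
  refine ⟨c, k, hk, ?_⟩
  have hs : (∑ i, (v : GolayPt → ℤ) i) % 8 = 0 := by
    rcases (mem_iff.1 v.2).2 with ⟨_, h⟩ | ⟨h, _⟩
    · exact h
    · have h1 := h none
      have h2 := hk none
      omega
  rw [Finset.sum_congr rfl (fun i _ => hk i), ← Finset.mul_sum, Finset.sum_add_distrib, ← Finset.mul_sum, Finset.sum_const,
    Finset.card_univ, card_pt] at hs
  simp only [nsmul_eq_mul] at hs
  push_cast at hs
  omega

theorem V4_form {v w : leechLattice} (hv : v ∈ V4) (hw : w ∈ V4) : dotInt (v : GolayPt → ℤ) (w : GolayPt → ℤ) % 16 = 0 := by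
  obtain ⟨c, k, hk, hk2⟩ := V4_param hv
  obtain ⟨d, l, hl, hl2⟩ := V4_param hw
  have h1 : ∀ i, (v : GolayPt → ℤ) i * (w : GolayPt → ℤ) i = 4 * c * d + 8 * c * l i + 8 * d * k i + 16 * (k i * l i) := by
    intro i; rw [hk, hl]; ring
  unfold dotInt
  rw [Finset.sum_congr rfl (fun i _ => h1 i), Finset.sum_add_distrib, Finset.sum_add_distrib, Finset.sum_add_distrib, Finset.sum_const,
    Finset.card_univ, card_pt, ← Finset.mul_sum, ← Finset.mul_sum, ← Finset.mul_sum]
  obtain ⟨x, hx⟩ : ∃ x, ∑ i, k i = 2 * x := ⟨(∑ i, k i) / 2, by omega⟩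
  obtain ⟨y, hy⟩ : ∃ y, ∑ i, l i = 2 * y := ⟨(∑ i, l i) / 2, by omega⟩
  rw [hx, hy]
  have : (24 • (4 * c * d) + 8 * c * (2 * y) + 8 * d * (2 * x) + 16 * ∑ i, k i * l i : ℤ) = 16 * (6 * c * d + c * y + d * x + ∑ i, k i * l i) := by
    simp only [nsmul_eq_mul]; push_cast; ring
  rw [this]; exact Int.mul_emod_right _ _

theorem V4_norm {v : leechLattice} (hv : v ∈ V4) : (32 : ℤ) ∣ sqNorm (v : GolayPt → ℤ) := by
  obtain ⟨c, k, hk, hk2⟩ := V4_param hv
  have h1 : ∀ i, (v : GolayPt → ℤ) i ^ 2 = 4 * c ^ 2 + 16 * c * k i + 16 * (k i ^ 2) := by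
    intro i; rw [hk]; ring
  unfold sqNorm
  rw [Finset.sum_congr rfl (fun i _ => h1 i), Finset.sum_add_distrib, Finset.sum_add_distrib, Finset.sum_const, Finset.card_univ,
    card_pt, ← Finset.mul_sum, ← Finset.mul_sum]
  obtain ⟨x, hx⟩ : ∃ x, ∑ i, k i = 2 * x := ⟨(∑ i, k i) / 2, by omega⟩
  have h2 : ∀ i, ∃ m, k i ^ 2 = k i + 2 * m := by
    intro i
    obtain ⟨m, hm⟩ := Int.even_mul_pred_self (k i)
    exact ⟨m, by linarith [show k i ^ 2 = k i + k i * (k i - 1) by ring]⟩
  choose m hm using h2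
  have h3 : ∑ i, k i ^ 2 = 2 * (x + ∑ i, m i) := by
    rw [Finset.sum_congr rfl (fun i _ => hm i), Finset.sum_add_distrib, ← Finset.mul_sum, hx]; ring
  rw [h3, hx]
  refine ⟨3 * c ^ 2 + c * x + (x + ∑ i, m i), ?_⟩
  simp only [nsmul_eq_mul]; push_cast; ring

def V4Z : AddSubgroup (GolayPt → ℤ) := V4.map leechLattice.subtype

theorem mem_V4Z {x : GolayPt → ℤ} : x ∈ V4Z ↔ (∃ c : ℤ, ∀ i, x i % 4 = (2 * c) % 4) ∧ (∑ i, x i) % 8 = 0 := by
  constructor
  · rintro ⟨v, ⟨c, hc⟩, rfl⟩
    refine ⟨⟨c, hc⟩, ?_⟩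
    rcases (mem_iff.1 v.2).2 with ⟨_, h⟩ | ⟨h, _⟩
    · exact h
    · have h1 := h none
      have h2 := hc none
      omega
  · rintro ⟨⟨c, hc⟩, hs⟩
    have hx : x ∈ leechLattice := by
      rw [mem_iff]
      refine ⟨?_, Or.inl ⟨fun i => by have := hc i; omega, hs⟩⟩
      rcases Int.emod_two_eq c with h | h
      · have : TT x = ∅ := by
          rw [Finset.eq_empty_iff_forall_notMem]; intro i hi; have := mem_TT.1 hi; have := hc i; omega
        rw [this]; exact cd_empty
      · have : TT x = Finset.univ := by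
          rw [Finset.eq_univ_iff_forall]; intro i; rw [mem_TT]; have := hc i; omega
        rw [this]; exact cd_univ
    exact ⟨⟨x, hx⟩, ⟨c, hc⟩, rfl⟩

theorem V4Z_index : V4Z.index = 2 ^ 48 := by
  classical
  let E : Finset (Finset GolayPt) := Finset.univ.filter fun Z => Z.card % 2 = 0
  have hE : E.card = 2 ^ 23 := by
    have h1 : E = (Finset.univ : Finset GolayPt).powerset.filter fun Z => Z.card % 2 = 0 := by
      rw [Finset.powerset_univ]
    have h2 : (E.card : ℤ) * 2 = 2 ^ 24 := by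
      have h3 := Finset.sum_powerset_neg_one_pow_card_of_nonempty (x := (Finset.univ : Finset GolayPt)) Finset.univ_nonempty
      have h4 : ∑ Z ∈ (Finset.univ : Finset GolayPt).powerset, (1 : ℤ) = 2 ^ 24 := by
        rw [Finset.sum_const, Finset.card_powerset, Finset.card_univ, card_pt]; norm_num
      have h5 : ∀ Z : Finset GolayPt, (-1 : ℤ) ^ Z.card + 1 = if Z.card % 2 = 0 then 2 else 0 := by
        intro Z
        rcases Nat.mod_two_eq_zero_or_one Z.card with h | h
        · rw [if_pos h, (Nat.even_iff.2 h).neg_one_pow]; norm_num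
        · rw [if_neg (by omega), (Nat.odd_iff.2 h).neg_one_pow]; norm_num
      have h6 : ∑ Z ∈ (Finset.univ : Finset GolayPt).powerset, ((-1 : ℤ) ^ Z.card + 1) = 2 ^ 24 := by
        rw [Finset.sum_add_distrib, h3, h4]; norm_num
      rw [Finset.sum_congr rfl (fun Z _ => h5 Z), ← Finset.sum_filter, ← h1, Finset.sum_const, nsmul_eq_mul] at h6
      exact h6
    have : (E.card : ℤ) = 2 ^ 23 := by linarith
    exact_mod_cast this
  let f : Bool × Finset GolayPt → (GolayPt → ℤ) := fun p => vecCZ 0 (if p.1 then Finset.univ else ∅) p.2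
  have h := index_of_count V4Z (fun x => by
      rw [mem_V4Z]
      refine ⟨⟨0, fun i => ?_⟩, ?_⟩
      · change (8 * x i) % 4 = _; omega
      · change (∑ i, 8 * x i) % 8 = 0
        rw [← Finset.mul_sum]; exact Int.mul_emod_right _ _) (((Finset.univ : Finset Bool) ×ˢ E).image f) (by
    intro x
    rw [Finset.mem_image]
    constructor
    · rintro ⟨⟨b, Z⟩, h1, rfl⟩
      have hZ := (Finset.mem_filter.1 (Finset.mem_product.1 h1).2).2
      have hv : ∀ i, f (b, Z) i = (if b then 2 else 0) + 4 * ind Z i := by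
        intro i; cases b <;> simp [f, vecCZ, ind]
      refine ⟨fun i => ?_, ?_⟩
      · rw [hv]
        have a := ind_range Z i
        cases b <;> simp <;> omega
      · rw [mem_V4Z]
        refine ⟨⟨if b then 1 else 0, fun i => ?_⟩, ?_⟩
        · rw [hv]; cases b <;> simp <;> omega
        · rw [Finset.sum_congr rfl (fun i _ => hv i), Finset.sum_add_distrib, ← Finset.mul_sum, sum_ind, Finset.sum_const, Finset.card_univ,
            card_pt]
          change Z.card % 2 = 0 at hZ
          cases b <;> simp <;> omega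
    · rintro ⟨h1, h2⟩
      obtain ⟨⟨c, hc⟩, hs⟩ := mem_V4Z.1 h2
      have hv : ∀ i, x i = (if c % 2 = 1 then 2 else 0) + 4 * ind (Finset.univ.filter fun i => 4 ≤ x i) i := by
        intro i
        unfold ind
        have a := h1 i
        have b := hc i
        have d : i ∈ (Finset.univ.filter fun i => 4 ≤ x i) ↔ 4 ≤ x i := by simp
        by_cases hd : i ∈ (Finset.univ.filter fun i => 4 ≤ x i)
        · rw [if_pos hd]; have := d.1 hd; split_ifs <;> omega
        · rw [if_neg hd]; have : ¬ _ := fun h => hd (d.2 h); split_ifs <;> omega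
      refine ⟨(decide (c % 2 = 1), Finset.univ.filter fun i => 4 ≤ x i), Finset.mem_product.2 ⟨Finset.mem_univ _, ?_⟩, ?_⟩
      · refine Finset.mem_filter.2 ⟨Finset.mem_univ _, ?_⟩
        rw [Finset.sum_congr rfl (fun i _ => hv i), Finset.sum_add_distrib, ← Finset.mul_sum, sum_ind, Finset.sum_const, Finset.card_univ,
            card_pt] at hs
        change (Finset.univ.filter fun i => 4 ≤ x i).card % 2 = 0
        simp only [nsmul_eq_mul] at hs
        split_ifs at hs <;> push_cast at hs <;> omega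
      · funext i
        rw [hv i]
        by_cases h3 : c % 2 = 1
        · simp [f, vecCZ, ind, h3]
        · simp [f, vecCZ, ind, h3])
  rw [Finset.card_image_of_injective, Finset.card_product, hE, Finset.card_univ, Fintype.card_bool] at h
  · have : (2 * 2 ^ 23) * V4Z.index = (2 * 2 ^ 23) * 2 ^ 48 := by rw [h]; norm_num
    exact Nat.eq_of_mul_eq_mul_left (by norm_num) this
  · rintro ⟨b, Z⟩ ⟨b', Z'⟩ h
    obtain ⟨_, h1, h2⟩ := vecCZ_inj (Or.inl rfl) (Or.inl rfl) h
    change (if b then Finset.univ else ∅ : Finset GolayPt) = if b' then Finset.univ else ∅ at h1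
    have hne : (Finset.univ : Finset GolayPt) ≠ ∅ := Finset.univ_nonempty.ne_empty
    cases b <;> cases b' <;> simp_all

theorem V4Z_le : V4Z ≤ leechLattice := by rintro _ ⟨v, _, rfl⟩; exact v.2

theorem V4Z_relIndex : (V4Z.addSubgroupOf leechLattice).index = 2 ^ 12 := by
  have h := AddSubgroup.relIndex_mul_index V4Z_le
  rw [V4Z_index, leech_index] at h
  exact Nat.eq_of_mul_eq_mul_right (show 0 < 2 ^ 36 by norm_num) (by rw [← pow_add]; exact h)

theorem V4_index : V4.index = 2 ^ 12 := by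
  have : V4Z.addSubgroupOf leechLattice = V4 := AddSubgroup.comap_map_eq_self_of_injective leechLattice.subtype_injective V4
  rw [← this]; exact V4Z_relIndex

end Cfsg.Agent.H9.Leech
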