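import Cfsg.Agent.H9.Leech.Group
set_option autoImplicit false

/-! The non-monomial standard element. -/

namespace Cfsg.Agent.H9.Leech
open Cfsg Cfsg.Agent.H9
open scoped Pointwise

noncomputable def maskOf (x : GolayPt → ℤ) : ℕ := orB (fun i => if 2 ≤ x (pt i) % 4 then 2 ^ i else 0) 24

theorem S_maskOf (x : GolayPt → ℤ) : S (maskOf x) = TT x := by
  ext p
  rw [mem_S, mem_TT, maskOf, testBit_orB]
  constructor
  · rintro ⟨i, hi, h⟩
    by_cases h2 : 2 ≤ x (pt i) % 4
    · rw [if_pos h2, Nat.testBit_two_pow] at h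
      have h3 : i = idx p := by simpa using h
      have : pt i = p := by rw [h3, pt_idx]
      rw [this] at h2
      omega
    · rw [if_neg h2] at h; simp at h
  · intro h
    refine ⟨idx p, idx_lt p, ?_⟩
    have h2 : 2 ≤ x (pt (idx p)) % 4 := by rw [pt_idx]; omega
    rw [if_pos h2, Nat.testBit_two_pow]; simp

noncomputable def chkL (x : GolayPt → ℤ) : Bool := decide (∀ p, x p % 2 = x none % 2) && decide ((∑ p, x p) % 8 = (4 * (x none % 2)) % 8) &&
  isCW (maskOf x)

theorem mem_of_chk {x : GolayPt → ℤ} (h : chkL x = true) : x ∈ leechLattice := by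
  unfold chkL at h
  simp only [Bool.and_eq_true, decide_eq_true_eq] at h
  obtain ⟨⟨h1, h2⟩, h3⟩ := h
  rw [mem_iff]
  refine ⟨?_, ?_⟩
  · rw [← S_maskOf]; exact cd_iff.2 ⟨_, h3, rfl⟩
  · rcases Int.emod_two_eq (x none) with h | h
    · left; exact ⟨fun i => by rw [h1 i, h], by omega⟩
    · right; exact ⟨fun i => by rw [h1 i, h], by omega⟩

noncomputable def chkM (M : GolayPt → GolayPt → ℤ) (x : GolayPt → ℤ) : Bool :=
  decide (∀ p, mv M x p % 2 = 0) && chkL (hf (mv M x))

/-- a subgroup: vectors mapped into twice the lattice -/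
def KM (M : GolayPt → GolayPt → ℤ) : AddSubgroup (GolayPt → ℤ) where
  carrier := {x | ∃ y ∈ leechLattice, mv M x = y + y}
  zero_mem' := ⟨0, leechLattice.zero_mem, by
    have := (mvHom M).map_zero
    change mv M 0 = 0 at this
    rw [this]; simp⟩
  add_mem' := by
    rintro a b ⟨y, hy, h1⟩ ⟨z, hz, h2⟩
    exact ⟨y + z, leechLattice.add_mem hy hz, by rw [mv_add, h1, h2]; abel⟩
  neg_mem' := by
    rintro a ⟨y, hy, h1⟩
    refine ⟨-y, leechLattice.neg_mem hy, ?_⟩
    have := (mvHom M).map_neg a
    change mv M (-a) = - mv M a at this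
    rw [this, h1]; abel

theorem KM_of_chk {M : GolayPt → GolayPt → ℤ} {x : GolayPt → ℤ} (h : chkM M x = true) : x ∈ KM M := by
  unfold chkM at h
  simp only [Bool.and_eq_true, decide_eq_true_eq] at h
  refine ⟨_, mem_of_chk h.2, ?_⟩
  funext p
  have := h.1 p
  simp only [Pi.add_apply, hf]; omega

theorem xi_c1 : ∀ p : GolayPt, chkM xiM (Pi.single p 4 - Pi.single none 4) = true := by decide +kernel
theorem xi_c2 : chkM xiM (Pi.single none 8) = true := by decide +kernel
theorem xi_c3 : allN (fun i => chkM xiM (fun j => if (enc (2 ^ i)).testBit (idx j) = true then 2 else 0)) 12 = true := by decide +kernel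
theorem xi_c4 : chkM xiM (fun i => 1 - (Pi.single none 4 : GolayPt → ℤ) i) = true := by decide +kernel

theorem two_ind_eq (m : ℕ) : (fun j => 2 * ind (S m) j) = fun j => if m.testBit (idx j) = true then 2 else 0 := by
  funext j; unfold ind; simp only [mem_S]; split_ifs <;> rfl

theorem xiM_isSym : IsSym xiM where
  symm := xiM_symm
  sq := xiM_sq
  map := by
    have h : leechLattice ≤ KM xiM := gen_ind2 _ (fun p => KM_of_chk (xi_c1 p)) (KM_of_chk xi_c2)
      (fun i hi => by rw [two_ind_eq]; exact KM_of_chk ((allN_iff _ _).1 xi_c3 i hi)) (KM_of_chk xi_c4)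
    exact fun x hx => h hx

/-- the standard non-monomial automorphism -/
noncomputable def xi : Co0 := symCo0 xiM xiM_isSym

theorem xi_maps {x : GolayPt → ℤ} (hx : x ∈ leechLattice) : Maps xi x (hf (mv xiM x)) := sym_maps _ hx

/-- explicit vectors -/
def vec (l : List ℤ) : GolayPt → ℤ := fun p => l.getD (idx p) 0

noncomputable def chkXi (l l' : List ℤ) : Bool := chkL (vec l) && decide (∀ p, hf (mv xiM (vec l)) p = vec l' p)

theorem xi_of_chk {l l' : List ℤ} (h : chkXi l l' = true) : Maps xi (vec l) (vec l') := by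
  unfold chkXi at h
  simp only [Bool.and_eq_true, decide_eq_true_eq] at h
  have := xi_maps (mem_of_chk h.1)
  rw [funext h.2] at this
  exact this

end Cfsg.Agent.H9.Leech
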